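import Cfsg.Agent.Lib.Extra2.Quot
import Cfsg.Prelude.Def_MonsterType

/-!
Tools for verifying the extraspecial-centralizer setting in sections.
-/

set_option autoImplicit false

namespace CA.Co
open Cfsg CA CA.Ex2 CA.Core Subgroup

variable {G : Type*} [Group G]

theorem equiv_of_ker_eq {A B C : Type*} [Group A] [Group B] [Group C] (f : A →* B) (g : A →* C)
    (hf : Function.Surjective f) (hg : Function.Surjective g) (hk : ∀ a, f a = 1 ↔ g a = 1) :
    ∃ e : B ≃* C, ∀ a, e (f a) = g a := by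
  have hk' : f.ker = g.ker := Subgroup.ext hk
  refine ⟨((QuotientGroup.quotientKerEquivOfSurjective f hf).symm.trans (QuotientGroup.quotientMulEquivOfEq hk')).trans
    (QuotientGroup.quotientKerEquivOfSurjective g hg), fun a => ?_⟩
  have : (QuotientGroup.quotientKerEquivOfSurjective f hf).symm (f a) = QuotientGroup.mk a :=
    (MulEquiv.symm_apply_eq _).2 rfl
  rw [MulEquiv.trans_apply, MulEquiv.trans_apply, this]
  rfl

theorem extraspecial_of_map {G' : Type*} [Group G'] {f : G →* G'} (hf : Function.Injective f) {p : ℕ} {S : Subgroup G}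
    (h : Extraspecial p (S.map f)) : Extraspecial p S :=
  ⟨⟨(PG.isPGroup_map_iff hf).1 h.isPGroup,
    map_injective hf (by rw [map_phi_of_injective hf, PG.map_cent_inf hf, h.phi_eq]),
    map_injective hf (by rw [map_commutator, PG.map_cent_inf hf, h.der_eq])⟩,
    by rw [← card_map_of_injective' hf, PG.map_cent_inf hf, h.2]⟩

theorem fstar_eq_of_lq [Finite G] {R : Subgroup G} {y : G} (h : LQ R y) (hO : oP 2 𝐂[y] ≤ R) :
    FStar.fstar 𝐂[y] = R := by
  refine le_antisymm ?_ (h.le_oP.trans (FStar.oP_le_fstar Nat.prime_two _))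
  rw [FStar.fstar_eq]
  refine sup_le ((FStar.lay_cents_of_solvable h.normalIn.subnormalIn
    (solvable_of_pgroup Nat.prime_two h.ez.pg)).trans h.cent_le) (FStar.fit_le_of_forall fun p hp => ?_)
  by_cases h2 : p = 2
  · exact h2 ▸ hO
  · haveI := Fact.mk hp
    refine ((oP_normalIn p _).cents_of_coprime h.normalIn ?_).trans h.cent_le
    obtain ⟨a, ha⟩ := IsPGroup.iff_card.1 (oP_isPGroup p 𝐂[y])
    obtain ⟨b, hb⟩ := IsPGroup.iff_card.1 h.ez.pg
    rw [ha, hb]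
    exact Nat.Coprime.pow _ _ ((Nat.coprime_primes hp Nat.prime_two).2 h2)

theorem setting_of_lq [Finite G] {R : Subgroup G} {y : G} {w : ℕ} (h : LQ R y) (hO : oP 2 𝐂[y] ≤ R)
    (hc : Nat.card R = 2 ^ (2 * w + 1)) (hx : ∃ g, g * y * g⁻¹ ∈ R ∧ g * y * g⁻¹ ≠ y) :
    IsExtraspecialCentralizerSetting y (R.subgroupOf 𝐂[y]) w := by
  have hR := h.ez.le_cent1
  refine ⟨h.ez.ord, ?_, ?_, by rw [card_subgroupOf_of_le hR, hc], ?_⟩
  · rw [← fstar_eq_of_lq h hO, FStar.fstar, PG.subgroupOf_map_subtype]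
  · exact isExtraspecial_iff.2 (extraspecial_of_map (subtype_injective _)
      (by rw [PG.map_subtype_subgroupOf hR]; exact h.ez.es))
  · obtain ⟨g, h1, h2⟩ := hx
    exact ⟨g, ⟨hR h1, h1⟩, h2⟩

theorem oP_le_of_equiv {C R : Subgroup G} (hR : R ≤ C) [(R.subgroupOf C).Normal] {L : Type*} [Group L]
    (e : C ⧸ R.subgroupOf C ≃* L) (hL : pCore 2 L = ⊥) : oP 2 C ≤ R := by
  rintro _ ⟨x, hx, rfl⟩
  have := map_pCore_le (p := 2) (e.toMonoidHom.comp (QuotientGroup.mk' _))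
    (e.surjective.comp (QuotientGroup.mk'_surjective _)) ⟨x, hx, rfl⟩
  rw [hL, mem_bot] at this
  exact mem_subgroupOf.1 ((QuotientGroup.eq_one_iff _).1 (e.map_eq_one_iff.1 this))

theorem exists_quot_equiv {H L : Type*} [Group H] [Group L] {D D₀ : Subgroup G} (f : D →* H) {y : H} (hD : D₀ ≤ D)
    (hC : pmap f D₀ = 𝐂[y]) {S : Subgroup H} [(S.subgroupOf 𝐂[y]).Normal] (θ : D₀ →* L) (hθ : Function.Surjective θ)
    (hk : ∀ x : D₀, pel f x ∈ S ↔ θ x = 1) :
    ∃ e : ↥𝐂[y] ⧸ S.subgroupOf 𝐂[y] ≃* L, ∀ (x : D₀) (hx : pel f x ∈ 𝐂[y]),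
      e (QuotientGroup.mk ⟨pel f x, hx⟩) = θ x := by
  let φ : D₀ →* ↥𝐂[y] := (MulEquiv.subgroupCongr hC).toMonoidHom.comp (pmapHom f hD)
  have hφ : ∀ x : D₀, (φ x : H) = pel f x := fun x => pmapHom_apply f hD x
  obtain ⟨e, he⟩ := equiv_of_ker_eq ((QuotientGroup.mk' (S.subgroupOf 𝐂[y])).comp φ) θ
    ((QuotientGroup.mk'_surjective _).comp ((MulEquiv.subgroupCongr hC).surjective.comp (pmapHom_surjective f hD)))
    hθ fun a => by
      rw [← hk, MonoidHom.comp_apply, QuotientGroup.mk'_apply, QuotientGroup.eq_one_iff, mem_subgroupOf, hφ]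
  refine ⟨e, fun x hx => ?_⟩
  rw [← he, show (⟨pel f x, hx⟩ : ↥𝐂[y]) = φ x from Subtype.ext (hφ x).symm]
  rfl

theorem mem_center_iff_zp {z : G} {Q : Subgroup ↥𝐂[z]} (hl : EZ (Q.map (𝐂[z]).subtype) z) (x : Q) :
    x ∈ center Q ↔ ((x : ↥𝐂[z]) : G) ∈ zpowers z := by
  rw [← hl.cen, Subgroup.mem_center_iff]
  constructor
  · intro h
    refine ⟨⟨_, x.2, rfl⟩, mem_cent_iff.2 ?_⟩
    rintro _ ⟨y, hy, rfl⟩
    exact congrArg (fun t : Q => ((t : ↥𝐂[z]) : G)) (h ⟨y, hy⟩)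
  · intro h y
    exact Subtype.ext (Subtype.ext (mem_cent_iff.1 h.2 _ ⟨_, y.2, rfl⟩))

theorem lq_of_large_of_mem [Finite G] {R : Subgroup G} {y : G} (h : IsLargeExtraspecial R) (hy : y ∈ R)
    (hc : y ∈ 𝐂(R)) (h1 : y ≠ 1) : LQ R y := by
  obtain ⟨z, hz⟩ := exists_lq_of_large h
  rwa [hz.ez.unique (ez_of_mem hz.ez.es hy hc h1)]

end CA.Co
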