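import Cfsg.Agent.Lib.Co.MType
import Cfsg.Agent.Lib.Co.Sect
import Cfsg.Agent.Lib.Extra2.Heis
import Cfsg.Agent.Lib.Extra2.Struct
import Cfsg.Agent.Lib.Classical.ExtraOut
import Cfsg.Agent.Lib.Classical.OrthSpinor

/-!
Groups of Conway type: the standard group `2^{1+8}_+` and the action of the involution centraliser on it.
-/

set_option autoImplicit false

namespace CA.Co
open Cfsg CA CA.Ex2 CA.Core CA.Orth CA.ExOut Subgroup QuadraticMap
open scoped Matrix commutatorElement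

/-- the eight-dimensional space -/
abbrev V8 : Type := (Fin 4 → ZMod 2) × (Fin 4 → ZMod 2) × PUnit.{1}
/-- the hyperbolic form -/
abbrev Q8 : QuadraticForm (ZMod 2) V8 := Qm 4 (q0 (ZMod 2))

theorem card_O8 : Nat.card (O Q8) = 348364800 := by
  have := card_O_plus (F := ZMod 2) 3
  rw [Nat.card_zmod] at this
  exact Nat.cast_injective (R := ℤ) (this.trans (by decide +kernel))

instance instFiniteO8 : Finite (O Q8) := Nat.finite_of_card_ne_zero (by rw [card_O8]; norm_num)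

theorem fr8 : Module.finrank (ZMod 2) V8 = 8 := by
  rw [finrank_Qm, Module.finrank_zero_of_subsingleton]

theorem nd8 : ND Q8 := nd_q0.Qm

theorem index_E8 : (E Q8).index = 2 := by
  rw [(hyp_Qm 0).index_E nd8 (by rw [fr8]; norm_num)]; rfl

theorem card_E8 : Nat.card (E Q8) = 174182400 := by
  have := (E Q8).index_mul_card
  rw [index_E8, card_O8] at this
  exact Nat.eq_of_mul_eq_mul_left two_pos this

theorem comm_O8 : commutator (O Q8) = E Q8 :=
  (hyp2_Qm (i := 0) (j := 1) (by decide)).commutator_eq_E nd8 (by rw [fr8]; norm_num)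

theorem nonempty_E8 : Nonempty (E Q8 ≃* Omega (ZMod 2) (quadFormPlus 4 (ZMod 2))) :=
  ⟨((Cl.commutatorCongr (isoO _ (plusEquiv _ 4) Qm_plusEquiv)).trans (MulEquiv.subgroupCongr comm_O8)).symm⟩

instance simple_E8 : IsSimpleGroup (E Q8) := by
  have h : center (E Q8) = ⊥ :=
    card_eq_one.1 (card_center_E_of_not_mem nd8.ns (by rw [fr8]; norm_num) (hyp_Qm 0) (Or.inl rfl))
  haveI : Nontrivial (E Q8) := Finite.one_lt_card_iff_nontrivial.1 (by rw [card_E8]; norm_num)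
  refine ⟨fun N hN => ?_⟩
  have := (hyp2_Qm (i := 0) (j := 1) (by decide)).normal_E nd8 (by rw [fr8]; norm_num) N hN
  rwa [h, le_bot_iff] at this

theorem perfect_E8 : commutator (E Q8) = ⊤ := by
  have h := (hyp2_Qm (Q0 := q0 (ZMod 2)) (i := (0 : Fin 4)) (j := 1) (by decide)).E_perfect nd8 (by rw [fr8]; norm_num)
  apply map_injective (E Q8).subtype_injective
  rw [_root_.commutator_def, map_commutator, ← MonoidHom.range_eq_map, range_subtype]
  exact le_antisymm (commutator_le_left _ _) h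

theorem le_E_of_equiv {R : Subgroup (O Q8)} (f : E Q8 ≃* R) : R ≤ E Q8 := by
  have := congrArg (map (R.subtype.comp f.toMonoidHom)) perfect_E8
  rw [_root_.commutator_def, map_commutator, ← MonoidHom.range_eq_map, MonoidHom.range_comp,
    MonoidHom.range_eq_top.2 f.surjective, ← MonoidHom.range_eq_map, range_subtype] at this
  rw [← this, ← comm_O8]
  exact commutator_mono le_top le_top

theorem pCore_E8 : pCore 2 (E Q8) = ⊥ := by
  rcases (pCore_normal 2 (E Q8)).eq_bot_or_eq_top with h | h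
  · exact h
  · obtain ⟨k, hk⟩ := IsPGroup.iff_card.1 (pCore_isPGroup (p := 2) (G := E Q8))
    rw [h, card_top, card_E8] at hk
    exact absurd (Nat.prime_three.dvd_of_dvd_pow (hk ▸ (by norm_num : 3 ∣ 174182400))) (by norm_num)

/-- the cocycle -/
def b8 : V8 →+ V8 →+ ZMod 2 :=
  AddMonoidHom.mk' (fun v => AddMonoidHom.mk' (fun w => v.2.1 ⬝ᵥ w.1) fun a b => by simp [dotProduct_add])
    fun a b => by ext1 w; simp [add_dotProduct]

theorem b8_apply (v w : V8) : b8 v w = v.2.1 ⬝ᵥ w.1 := rfl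

theorem b8_self (v : V8) : b8 v v = Q8 v := by
  rw [b8_apply, Qm_apply, q0_apply, add_zero, dotProduct_comm]; rfl

theorem b8_polar (v w : V8) : b8 v w + b8 w v = polar Q8 v w := by
  rw [polar, ← b8_self, ← b8_self, ← b8_self]; simp only [map_add, AddMonoidHom.add_apply]; ring

theorem v8_two (v : V8) : v + v = 0 := add_self_two v

theorem z2_two (a : ZMod 2) : a + a = 0 := CharTwo.add_self_eq_zero a

/-- the standard extraspecial group `2^{1+8}_+` -/
abbrev Hs : Type := Heis b8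

/-- its central involution -/
def zs : Hs := ⟨0, 1⟩

/-- powers of the central involution -/
def zk (a : ZMod 2) : Hs := ⟨0, a⟩

@[simp] theorem zs_v : zs.v = 0 := rfl
@[simp] theorem zs_a : zs.a = 1 := rfl
@[simp] theorem zk_v (a : ZMod 2) : (zk a).v = 0 := rfl
@[simp] theorem zk_a (a : ZMod 2) : (zk a).a = a := rfl

theorem card_Hs : Nat.card Hs = 2 ^ 9 := by
  rw [Heis.card_eq]; simp

theorem zs_ne : zs ≠ 1 := fun h => absurd (congrArg Heis.a h) (by decide)
theorem zs_sq : zs * zs = 1 := by ext1 <;> simp [z2_two]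
theorem zs_comm (x : Hs) : x * zs = zs * x := by ext1 <;> simp [add_comm]
theorem v_eq_zero {x : Hs} : x.v = 0 ↔ x = 1 ∨ x = zs := by
  refine ⟨fun h => ?_, by rintro (rfl | rfl) <;> rfl⟩
  rcases zmod_two_cases x.a with e | e
  · exact Or.inl (Heis.ext h e)
  · exact Or.inr (Heis.ext h e)

theorem hs_sq (x : Hs) : x * x = zk (Q8 x.v) := by
  ext1
  · simp [v8_two]
  · simp [z2_two, b8_self]

theorem hs_sq_iff {x : Hs} : x * x = 1 ↔ Q8 x.v = 0 := by
  rw [Heis.sq_iff v8_two, b8_self]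

theorem hs_comm (x y : Hs) : x * y = zk (polar Q8 x.v y.v) * (y * x) := by
  ext1
  · simp [add_comm]
  · simp only [Heis.mul_a, zk_a, zk_v, map_zero, AddMonoidHom.zero_apply, ← b8_polar]
    linear_combination (-1 : ZMod 2) * z2_two (b8 y.v x.v)

theorem hs_comm_iff {x y : Hs} : x * y = y * x ↔ polar Q8 x.v y.v = 0 := by
  rw [Heis.comm_iff, ← b8_polar]
  generalize b8 x.v y.v = a, b8 y.v x.v = b
  revert a b; decide

theorem eq_or_of_v {x y : Hs} (h : x.v = y.v) : x = y ∨ x = y * zs := by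
  rcases (v_eq_zero (x := y⁻¹ * x)).1 (by simp [h]) with e | e
  · exact Or.inl (inv_mul_eq_one.1 e).symm
  · exact Or.inr (inv_mul_eq_iff_eq_mul.1 e)

/-- the standard group over the standard space -/
def D8 : Data Hs V8 :=
  ⟨Heis.v, zs, fun _ _ => rfl, fun v => ⟨⟨v, 0⟩, rfl⟩, zs_ne, zs_sq, fun _ => v_eq_zero⟩

theorem D8_Q (v : V8) : D8.Q v = Q8 v := by
  have h := (D8.Q_eq_zero_iff ⟨v, 0⟩).trans hs_sq_iff
  change D8.Q v = 0 ↔ Q8 v = 0 at h
  revert h
  generalize D8.Q v = a, Q8 v = b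
  revert a b; decide

theorem D8_c (x : Hs) (h : ∀ y, y * x = x * y) : D8.π x = 0 := by
  show x.v = 0
  refine nd8 _ fun w => ?_
  have := (hs_comm_iff (x := x) (y := ⟨w, 0⟩)).1 (h ⟨w, 0⟩).symm
  exact this

/-- identification of the isometry groups -/
noncomputable def e8Q : O D8.Q ≃* O Q8 := O.congr (LinearEquiv.refl _ _) fun v => (D8_Q v).symm

/-- the action of automorphisms on the quotient -/
noncomputable def rho8 : MulAut Hs →* O Q8 := e8Q.toMonoidHom.comp (D8.ρ D8_c)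

theorem rho8_v (a : MulAut Hs) (x : Hs) : (rho8 a).1 x.v = (a x).v := D8.ρ_π D8_c a x

theorem rho8_surj : Function.Surjective rho8 := e8Q.surjective.comp (D8.ρ_surjective D8_c)

theorem rho8_eq_one {a : MulAut Hs} (h : rho8 a = 1) : ∃ g : Hs, a = MulAut.conj g := by
  obtain ⟨g, hg⟩ := D8.exists_inner D8_c a fun x => (rho8_v a x).symm.trans (by rw [h]; rfl)
  exact ⟨g, MulEquiv.ext hg⟩

theorem rho8_conj (g : Hs) : rho8 (MulAut.conj g) = 1 := O.ext fun v => by
  have := rho8_v (MulAut.conj g) ⟨v, 0⟩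
  simpa using this

theorem aut_zs (a : MulAut Hs) : a zs = zs := D8.aut_z D8_c a

theorem aut_zk (a : MulAut Hs) (c : ZMod 2) : a (zk c) = zk c := by
  rcases zmod_two_cases c with rfl | rfl
  · exact map_one a
  · exact aut_zs a

/-- the automorphisms inducing an element of `Ω` -/
noncomputable def AE : Subgroup (MulAut Hs) := (E Q8).comap rho8

theorem conj_mem_AE (g : Hs) : MulAut.conj g ∈ AE := by
  rw [AE, mem_comap, rho8_conj]; exact one_mem _

instance AE_normal : AE.Normal := Normal.comap instNormalE _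

theorem ez_Hs : EZ (⊤ : Subgroup Hs) zs := by
  obtain ⟨z, hz⟩ := Heis.ez (β := b8) (n := 8) (by simp) v8_two
    (fun v h => nd8 v fun w => by rw [← b8_polar, h w, z2_two]) ⟨eV _ 0, (hyp_Qm (Q0 := q0 (ZMod 2)) 0).ne_zero⟩
  exact ez_of_mem hz.es (mem_top _) (mem_cent_iff'.2 fun a _ => (zs_comm a).symm) zs_ne

variable {G : Type*} [Group G]

theorem ez_range [Finite G] {ι : Hs →* G} (hi : Function.Injective ι) : EZ ι.range (ι zs) := by
  refine ez_of_mem (by rw [MonoidHom.range_eq_map]; exact ez_Hs.es.map hi) ⟨_, rfl⟩ (mem_cent_iff'.2 ?_)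
    fun h => zs_ne (hi (h.trans (map_one ι).symm))
  rintro _ ⟨x, rfl⟩
  rw [← map_mul, ← map_mul, zs_comm]

theorem exists_alpha [Finite G] {E V : Type*} [Group E] [AddCommGroup V] [Module (ZMod 2) V] [FiniteDimensional (ZMod 2) V]
    (D : Data E V) (hc : ∀ x : E, (∀ y, y * x = x * y) → D.π x = 0) {ι : E →* G} (hi : Function.Injective ι) {z : G}
    (hl : LQ ι.range z) : ∃ α : ↥𝐂[z] →* MulAut E, (∀ g x, ι (α g x) = g * ι x * g⁻¹) ∧
      ∀ g, D.ρ hc (α g) = 1 ↔ g.1 ∈ ι.range := by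
  let e := MonoidHom.ofInjective hi
  let α : ↥𝐂[z] →* MulAut E := (MulAut.congr e).symm.toMonoidHom.comp
    (ι.range.normalizerMonoidHom.comp (inclusion hl.le_norm))
  have h1 : ∀ g x, ι (α g x) = g * ι x * g⁻¹ := fun g x =>
    MonoidHom.apply_ofInjective_symm hi _
  refine ⟨α, h1, fun g => ⟨fun h => ?_, ?_⟩⟩
  · obtain ⟨k, hk⟩ := D.exists_inner hc (α g) fun x => by rw [← D.ρ_π hc, h]; rfl
    have : (ι k)⁻¹ * g ∈ 𝐂(ι.range) := mem_cent_iff'.2 (by
      rintro _ ⟨x, rfl⟩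
      have := h1 g x
      rw [hk, map_mul, map_mul, map_inv] at this
      rw [Subgroup.coe_inv] at this
      calc _ = (ι k)⁻¹ * ((g : G) * ι x * (g : G)⁻¹) * g := by group
        _ = _ := by rw [← this]; group)
    simpa using mul_mem (show ι k ∈ ι.range from ⟨k, rfl⟩) (hl.cent_le this)
  · rintro ⟨k, hk⟩
    refine O.ext fun v => ?_
    obtain ⟨x, rfl⟩ := D.surj v
    rw [D.ρ_π hc, show α g x = k * x * k⁻¹ from hi (by rw [h1, map_mul, map_mul, map_inv, hk]; rfl), D.map_mul, D.map_mul, D.map_inv,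
      add_right_comm, add_self_two, zero_add]
    rfl

/-- `g` acts on the image of the standard group as the automorphism `a` -/
def Act (ι : Hs →* G) (g : G) (a : MulAut Hs) : Prop := ∀ x, g * ι x * g⁻¹ = ι (a x)

section act
variable {ι : Hs →* G} {g k : G} {a b : MulAut Hs}

theorem Act.one : Act ι 1 1 := fun x => by simp
theorem Act.mul (h : Act ι g a) (h' : Act ι k b) : Act ι (g * k) (a * b) := fun x => by
  rw [MulAut.mul_apply, ← h, ← h']; group
theorem Act.inv (h : Act ι g a) : Act ι g⁻¹ a⁻¹ := fun x => by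
  have := h (a⁻¹ x)
  rw [MulAut.apply_inv_self] at this
  rw [← this]; group
theorem Act.pow (h : Act ι g a) (n : ℕ) : Act ι (g ^ n) (a ^ n) := by
  induction n with
  | zero => simpa using Act.one
  | succ n ih => rw [pow_succ, pow_succ]; exact ih.mul h
theorem Act.iota (x : Hs) : Act ι (ι x) (MulAut.conj x) := fun y => by simp
theorem Act.z : Act ι (ι zs) 1 := fun y => by
  rw [← map_mul, ← zs_comm, map_mul, mul_inv_cancel_right]; rfl
theorem Act.cent (h : Act ι g a) : g ∈ 𝐂[ι zs] := conj_eq_iff_mem_cent1.1 (by rw [h, aut_zs])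
theorem Act.unique (hi : Function.Injective ι) (h : Act ι g a) (h' : Act ι g b) : a = b :=
  MulEquiv.ext fun x => hi ((h x).symm.trans (h' x))
theorem Act.comp (h : Act ι g a) (r : MulAut Hs) : Act (ι.comp r.toMonoidHom) g (r⁻¹ * a * r) := fun x => by
  simp [h (r x)]
end act

/-- the Conway-type hypothesis -/
structure CT (ι : Hs →* G) : Prop where
  inj : Function.Injective ι
  ex : ∀ g ∈ 𝐂[ι zs], ∃ a ∈ AE, Act ι g a
  ex' : ∀ a ∈ AE, ∃ g, Act ι g a
  ker : ∀ g, Act ι g 1 → g = 1 ∨ g = ι zs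
  nwc : ∃ g x, g * ι zs * g⁻¹ = ι x ∧ x ≠ zs

theorem ct_of [Finite G] {ι : Hs →* G} (hi : Function.Injective ι) (hl : LQ ι.range (ι zs)) {L : Type*} [Group L]
    (θ : ↥𝐂[ι zs] →* L) (hθ : Function.Surjective θ) (hk : ∀ g, θ g = 1 ↔ g.1 ∈ ι.range) (e : L ≃* E Q8)
    (hx : ∃ g, g * ι zs * g⁻¹ ∈ ι.range ∧ g * ι zs * g⁻¹ ≠ ι zs) : CT ι := by
  obtain ⟨α, h1, h2⟩ := exists_alpha D8 D8_c hi hl
  have h3 : ∀ g, rho8 (α g) = 1 ↔ g.1 ∈ ι.range := fun g => by
    rw [← h2]; exact e8Q.map_eq_one_iff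
  obtain ⟨f, hf⟩ := equiv_of_ker_eq (e.toMonoidHom.comp θ) (rho8.comp α).rangeRestrict (e.surjective.comp hθ)
    (MonoidHom.rangeRestrict_surjective _) fun g => by
      rw [MonoidHom.comp_apply, MulEquiv.coe_toMonoidHom, e.map_eq_one_iff, hk, ← h3]
      exact ⟨fun h => Subtype.ext h, fun h => congrArg Subtype.val h⟩
  have h4 : (rho8.comp α).range = E Q8 := by
    refine eq_of_le_of_card_ge ?_ (Nat.card_congr f.toEquiv).le
    exact le_E_of_equiv f
  refine ⟨hi, fun g hg => ⟨α ⟨g, hg⟩, h4.le ⟨_, rfl⟩, fun x => (h1 ⟨g, hg⟩ x).symm⟩, fun a ha => ?_, fun g hg => ?_, ?_⟩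
  · obtain ⟨g, hg⟩ := h4.ge ha
    obtain ⟨k, hk⟩ := rho8_eq_one (a := a * (α g)⁻¹) (by rw [map_mul, map_inv, ← hg]; simp)
    exact ⟨ι k * g, by rw [mul_inv_eq_iff_eq_mul.1 hk]; exact (Act.iota k).mul fun x => (h1 g x).symm⟩
  · refine hl.ez.mem_zp.1 (hl.cent_eq ▸ mem_cent_iff'.2 ?_)
    rintro _ ⟨x, rfl⟩
    exact mul_inv_eq_iff_eq_mul.1 (hg x)
  · obtain ⟨g, ⟨x, e1⟩, e2⟩ := hx
    exact ⟨g, x, e1.symm, fun e3 => e2 (by rw [← e1, e3])⟩

theorem exists_ct [Finite G] {z : G} {Q : Subgroup ↥𝐂[z]} [Q.Normal] (hS : IsExtraspecialCentralizerSetting z Q 4)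
    (e : ↥𝐂[z] ⧸ Q ≃* Omega (ZMod 2) (quadFormPlus 4 (ZMod 2))) :
    ∃ ι : Hs →* G, ι zs = z ∧ ι.range = Q.map (𝐂[z]).subtype ∧ CT ι := by
  have hl := lq_of_setting hS
  obtain ⟨V, _, _, D, hc⟩ := exists_data hS.2.2.1
  obtain ⟨e'⟩ := nonempty_E8
  haveI : Finite V := Finite.of_surjective _ D.surj
  let j : Q →* G := (𝐂[z]).subtype.comp Q.subtype
  have hj : Function.Injective j := (subtype_injective _).comp (subtype_injective _)
  have hr : j.range = Q.map (𝐂[z]).subtype := by rw [MonoidHom.range_comp, range_subtype]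
  rcases isom_plus_or_minus 3 V D.Q (D.nd hc) (D.finrank_eq hS.2.2.2.1) with ⟨φ, hφ⟩ | ⟨φ, hφ⟩
  · obtain ⟨ψ, hψ⟩ := D.exists_lift D8 φ.toAddEquiv fun v => (D8_Q _).trans (hφ v)
    have hr' : (j.comp ψ.symm.toMonoidHom).range = Q.map (𝐂[z]).subtype := by
      rw [MonoidHom.range_comp, MonoidHom.range_eq_top.2 ψ.symm.surjective, ← MonoidHom.range_eq_map, hr]
    have hi : Function.Injective (j.comp ψ.symm.toMonoidHom) := hj.comp ψ.symm.injective
    have hz : (j.comp ψ.symm.toMonoidHom) zs = z := hl.ez.unique (hr' ▸ ez_range hi)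
    refine ⟨_, hz, hr', ?_⟩
    generalize j.comp ψ.symm.toMonoidHom = ι at hr' hi hz
    subst hz
    obtain ⟨g, ⟨h1, h2⟩, h3⟩ := hS.2.2.2.2
    refine ct_of hi (hr' ▸ hl) (QuotientGroup.mk' Q) (QuotientGroup.mk'_surjective Q) (fun g => ?_) (e.trans e'.symm)
      ⟨g, hr' ▸ ⟨_, h2, rfl⟩, h3⟩
    rw [QuotientGroup.mk'_apply, QuotientGroup.eq_one_iff, hr', mem_map_iff]
    exact ⟨fun h => ⟨g.2, h⟩, fun h => h.2⟩
  · exfalso
    obtain ⟨α, -, h2⟩ := exists_alpha D hc hj (hr ▸ hl)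
    have h3 : ((D.ρ hc).comp α).ker = Q := Subgroup.ext fun g => by
      rw [MonoidHom.mem_ker, MonoidHom.comp_apply, h2, hr, mem_map_iff]
      exact ⟨fun h => h.2, fun h => ⟨g.2, h⟩⟩
    have h4 := card_subgroup_dvd_card ((D.ρ hc).comp α).range
    have h5 := card_O_minus (F := ZMod 2) (a := 1) (b := 1) (by decide) 3
    rw [← index_ker, h3, index_eq_card, Nat.card_congr (e.trans e'.symm).toEquiv, card_E8,
      Nat.card_congr (O.congr φ hφ).toEquiv] at h4
    rw [Nat.card_zmod] at h5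
    rw [Nat.cast_injective (R := ℤ) (h5.trans (by decide +kernel : _ = ((394813440 : ℕ) : ℤ)))] at h4
    exact absurd h4 (by norm_num)

namespace CT
variable {ι : Hs →* G} (h : CT ι) {g k : G} {a : MulAut Hs} {x y : Hs}
include h

theorem eq_or (h1 : Act ι g a) (h2 : Act ι k a) : g = k ∨ g = k * ι zs := by
  rcases h.ker (k⁻¹ * g) (by simpa using h2.inv.mul h1) with e | e
  · exact Or.inl (inv_mul_eq_one.1 e).symm
  · exact Or.inr (inv_mul_eq_iff_eq_mul.1 e)

theorem z_ne : ι zs ≠ 1 := fun e => zs_ne (h.inj (e.trans (map_one ι).symm))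

omit h in
theorem z_sq : ι zs * ι zs = 1 := by rw [← map_mul, zs_sq, map_one]

theorem mem_AE (h1 : Act ι g a) : a ∈ AE := by
  obtain ⟨b, hb, h2⟩ := h.ex g h1.cent
  rwa [h1.unique h.inj h2]

theorem mem_range (h1 : Act ι g a) (h2 : rho8 a = 1) : g ∈ ι.range := by
  obtain ⟨k, rfl⟩ := rho8_eq_one h2
  rcases h.eq_or h1 (Act.iota k) with e | e
  · exact ⟨k, e.symm⟩
  · exact ⟨k * zs, by rw [e, map_mul]⟩

theorem lq [Finite G] : LQ ι.range (ι zs) where
  toEZ := ez_range h.inj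
  cent_le g hg := by
    rcases h.ker g fun x => mul_inv_eq_iff_eq_mul.2 (mem_cent_iff'.1 hg _ ⟨x, rfl⟩) with rfl | rfl
    · exact one_mem _
    · exact ⟨_, rfl⟩
  le_norm g hg := by
    obtain ⟨a, -, ha⟩ := h.ex g hg
    refine mem_normalizer_iff.2 fun q => ⟨?_, ?_⟩
    · rintro ⟨x, rfl⟩; exact ⟨_, (ha x).symm⟩
    · rintro ⟨x, e⟩
      exact ⟨a⁻¹ x, by rw [← ha.inv, e]; group⟩

theorem comp (r : MulAut Hs) : CT (ι.comp r.toMonoidHom) := by
  have e : (ι.comp r.toMonoidHom) zs = ι zs := congrArg ι (aut_zs r)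
  refine ⟨h.inj.comp r.injective, fun g hg => ?_, fun a ha => ?_, fun g hg => ?_, ?_⟩
  · obtain ⟨a, ha, h1⟩ := h.ex g (e ▸ hg)
    exact ⟨_, by simpa using AE_normal.conj_mem a ha r⁻¹, h1.comp r⟩
  · obtain ⟨g, hg⟩ := h.ex' _ (AE_normal.conj_mem a ha r)
    exact ⟨g, by simpa [mul_assoc] using hg.comp r⟩
  · rw [e]
    exact h.ker g fun x => by simpa using hg (r⁻¹ x)
  · obtain ⟨g, x, h1, h2⟩ := h.nwc
    exact ⟨g, r⁻¹ x, by rw [e, h1]; simp, fun e' => h2 (by rw [← aut_zs r, ← e']; simp)⟩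

/-- the action as a homomorphism -/
noncomputable def al : ↥𝐂[ι zs] →* MulAut Hs := MonoidHom.mk' (fun g => (h.ex g.1 g.2).choose) fun g k =>
  (h.ex _ (g * k).2).choose_spec.2.unique h.inj ((h.ex g.1 g.2).choose_spec.2.mul (h.ex k.1 k.2).choose_spec.2)

theorem act_al (g : ↥𝐂[ι zs]) : Act ι g (h.al g) := (h.ex g.1 g.2).choose_spec.2

/-- the homomorphism onto `Ω` -/
noncomputable def om : ↥𝐂[ι zs] →* E Q8 := (rho8.comp h.al).codRestrict _ fun g => h.mem_AE (h.act_al g)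

theorem om_eq (h1 : Act ι g a) : (h.om ⟨g, h1.cent⟩ : O Q8) = rho8 a :=
  congrArg rho8 ((h.act_al ⟨g, h1.cent⟩).unique h.inj h1)

theorem exists_act {w : O Q8} (hw : w ∈ E Q8) : ∃ g a, Act ι g a ∧ rho8 a = w := by
  obtain ⟨a, rfl⟩ := rho8_surj w
  obtain ⟨g, hg⟩ := h.ex' a hw
  exact ⟨g, a, hg, rfl⟩

theorem om_surj : Function.Surjective h.om := fun w => by
  obtain ⟨g, a, h1, h2⟩ := h.exists_act w.2
  exact ⟨⟨g, h1.cent⟩, Subtype.ext ((h.om_eq h1).trans h2)⟩

theorem om_eq_one {g : ↥𝐂[ι zs]} : h.om g = 1 ↔ g.1 ∈ ι.range := by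
  refine ⟨fun e => h.mem_range (h.act_al g) (congrArg Subtype.val e), ?_⟩
  rintro ⟨x, e⟩
  have h1 : Act ι g (MulAut.conj x) := e ▸ Act.iota x
  exact Subtype.ext ((h.om_eq h1).trans (rho8_conj x))

theorem card_range : Nat.card ι.range = 2 ^ 9 := by
  rw [← card_Hs]; exact Nat.card_congr (MonoidHom.ofInjective h.inj).toEquiv.symm

theorem card_cent [Finite G] : Nat.card ↥𝐂[ι zs] = 2 ^ 9 * 174182400 := by
  have h1 : h.om.ker = ι.range.subgroupOf 𝐂[ι zs] := Subgroup.ext fun g => h.om_eq_one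
  rw [← h.om.ker.card_mul_index, index_ker, MonoidHom.range_eq_top.2 h.om_surj, card_top, card_E8, h1,
    card_subgroupOf_of_le h.lq.ez.le_cent1, h.card_range]

theorem stmt [Finite G] : ∃ (Q : Subgroup ↥𝐂[ι zs]) (_ : Q.Normal), IsExtraspecialCentralizerSetting (ι zs) Q 4 ∧
    Nonempty (↥𝐂[ι zs] ⧸ Q ≃* Omega (ZMod 2) (quadFormPlus 4 (ZMod 2))) := by
  have h1 : h.om.ker = ι.range.subgroupOf 𝐂[ι zs] := Subgroup.ext fun g => h.om_eq_one
  haveI : (ι.range.subgroupOf 𝐂[ι zs]).Normal := h1 ▸ inferInstance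
  let e := (QuotientGroup.quotientMulEquivOfEq h1.symm).trans (QuotientGroup.quotientKerEquivOfSurjective _ h.om_surj)
  obtain ⟨e'⟩ := nonempty_E8
  obtain ⟨g, x, h2, h3⟩ := h.nwc
  exact ⟨_, this, setting_of_lq h.lq (oP_le_of_equiv h.lq.ez.le_cent1 e pCore_E8) h.card_range
    ⟨g, ⟨x, h2.symm⟩, fun e1 => h3 (h.inj (h2.symm.trans e1))⟩, ⟨e.trans e'⟩⟩

end CT

end CA.Co
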