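import Cfsg.Agent.Lib.Co.CT3

/-!
Pairs of conjugate large extraspecial subgroups meeting in a four-group; the Conway-type case.
-/

set_option autoImplicit false

namespace CA.Ex2.Tri
open Cfsg Subgroup CA
open scoped commutatorElement
variable {G : Type*} [Group G] [Finite G] {Q P : Subgroup G} {z x q t s c : G}

omit [Finite G] in
theorem comm_V {a b v w : G} (ha : a ∈ 𝐂[z] ⊓ 𝐂[x]) (hb : b ∈ 𝐂[z] ⊓ 𝐂[x]) (hv : v ∈ zpowers z ⊔ zpowers x)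
    (hw : w ∈ zpowers z ⊔ zpowers x) (h : Tri Q P z x) : ⁅v * a, w * b⁆ = ⁅a, b⁆ := by
  have k := fun {a v} (ha : a ∈ 𝐂[z] ⊓ 𝐂[x]) (hv : v ∈ zpowers z ⊔ zpowers x) => mem_cent_iff'.1 (cent_V z x ▸ ha) v hv
  have k1 : v ∈ 𝐂[z] ⊓ 𝐂[x] := ⟨h.l.ez.le_cent1 (h.V_le hv), h.r.ez.le_cent1 (h.V_le' hv)⟩
  calc ⁅v * a, w * b⁆ = v * (a * w) * b * a⁻¹ * v⁻¹ * b⁻¹ * w⁻¹ := by rw [commutatorElement_def]; group
    _ = w * (v * (a * b * a⁻¹) * v⁻¹ * b⁻¹) * w⁻¹ := by rw [k ha hw, ← mul_assoc v, k k1 hw]; group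
    _ = w * (a * b * a⁻¹ * b⁻¹) * w⁻¹ := by
      rw [← k (mul_mem (mul_mem ha hb) (inv_mem ha)) hv, mul_inv_cancel_right]
    _ = _ := by
      rw [← k (mul_mem (mul_mem (mul_mem ha hb) (inv_mem ha)) (inv_mem hb)) hw, mul_inv_cancel_right]; rfl

omit [Finite G] in
theorem comm_mem_V (h : Tri Q P z x) (hE : Q ⊓ P ≤ zpowers z ⊔ zpowers x) (hq : q ∈ Q ⊓ 𝐂[x]) (ht : t ∈ P ⊓ 𝐂[z]) :
    ⁅q, t⁆ ∈ zpowers z ⊔ zpowers x := hE ⟨by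
  rw [commutatorElement_def, mul_assoc, mul_assoc, ← mul_assoc t]
  exact mul_mem hq.1 (conj_mem_of_mem_normalizer (h.l.le_norm ht.2) (inv_mem hq.1)),
  P.mul_mem (conj_mem_of_mem_normalizer (h.r.le_norm hq.2) ht.1) (P.inv_mem ht.1)⟩

omit [Finite G] in
theorem comm_mem_l (h : Tri Q P z x) (hs : s ∈ Q) (ht : t ∈ 𝐂[z] ⊓ 𝐂[x]) : ⁅s, t⁆ ∈ Q ⊓ 𝐂[x] :=
  h.comm_l (commutator_mem_commutator hs ht)

theorem cj_eq (h : Tri Q P z x) (e : s * x * s⁻¹ = z * x) (e' : c * z * c⁻¹ = z * x) : cj s P = cj c Q := by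
  obtain ⟨k, -, hk, -⟩ := h.swap
  rw [← h.tr k hk, cj_cj]
  exact h.l.cj_eq_cj (by rw [e', ← e, ← hk]; group)

omit [Finite G] in
theorem mem_V_of (h : Tri Q P z x) (hE : Q ⊓ P ≤ zpowers z ⊔ zpowers x) (hs : s ∈ Q) {y : G} (h1 : y ∈ Q)
    (h2 : y ∈ cj s P) : y ∈ zpowers z ⊔ zpowers x := by
  have := conj_mem_of_mem_normalizer (h.normV hs) (hE ⟨Q.mul_mem (Q.mul_mem (Q.inv_mem hs) h1) hs, mem_cj.1 h2⟩)
  simpa [mul_assoc] using this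

theorem key (h : Tri Q P z x) (hE : Q ⊓ P ≤ zpowers z ⊔ zpowers x) (hs : s ∈ Q) (e : s * x * s⁻¹ = z * x) (hc : c ∈ P)
    (e' : c * z * c⁻¹ = z * x) (hq : q ∈ Q ⊓ 𝐂[x]) :
    s * ⁅c, q⁆ * s⁻¹ * (c * q * c⁻¹)⁻¹ ∈ zpowers z ⊔ zpowers x := by
  have h1 := h.symm.comm_mem_l hc (by rw [inf_comm]; exact h.l_le hq)
  refine h.mem_V_of hE hs ?_ (mul_mem (conj_mem_cj.2 h1.1) (inv_mem (h.cj_eq e e' ▸ conj_mem_cj.2 hq.1)))
  rw [show s * ⁅c, q⁆ * s⁻¹ * (c * q * c⁻¹)⁻¹ = ⁅s, ⁅c, q⁆⁆ * (⁅c, q⁆ * q⁻¹ * ⁅c, q⁆⁻¹) by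
    simp only [commutatorElement_def]; group]
  exact mul_mem (h.comm_mem_l hs (h.r_le h1)).1 (conj_mem_of_mem_normalizer (h.l.le_norm h1.2) (inv_mem hq.1))

theorem comm_or (h : Tri Q P z x) (hE : Q ⊓ P ≤ zpowers z ⊔ zpowers x) (hq : q ∈ Q ⊓ 𝐂[x]) (ht : t ∈ P ⊓ 𝐂[z]) :
    ⁅q, t⁆ ∈ zpowers (z * x) := by
  obtain ⟨s, hs, e⟩ := h.exq
  obtain ⟨c, hc, e'⟩ := h.exc
  have hE' : P ⊓ Q ≤ zpowers x ⊔ zpowers z := by rwa [inf_comm, sup_comm]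
  have k := fun {a v} (ha : a ∈ 𝐂[z] ⊓ 𝐂[x]) (hv : v ∈ zpowers z ⊔ zpowers x) => mem_cent_iff'.1 (cent_V z x ▸ ha) v hv
  have hr := h.comm_mem_l hs (h.r_le ht)
  have hr' := h.symm.comm_mem_l hc (by rw [inf_comm]; exact h.l_le hq)
  have hd := h.comm_mem_V hE hq ht
  have nC : ∀ {g a}, g ∈ 𝐍(zpowers z ⊔ zpowers x) → a ∈ 𝐂[z] ⊓ 𝐂[x] → g * a * g⁻¹ ∈ 𝐂[z] ⊓ 𝐂[x] := fun hg ha =>
    cent_V z x ▸ conj_mem_of_mem_normalizer (normalizer_le_normalizer_centralizer _ hg) (cent_V z x ▸ ha)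
  have i1 : s * ⁅q, t⁆ * s⁻¹ = ⁅q, ⁅s, t⁆⁆ * ⁅q, t⁆ := by
    have := comm_V (h.l_le hq) (mul_mem (h.l_le hr) (h.r_le ht)) (le_sup_left (a := zpowers z) (h.l.ez.comm_mem hs hq.1))
      (one_mem _) h
    rw [conjugate_commutatorElement, show s * q * s⁻¹ = s * q * s⁻¹ * q⁻¹ * q by group,
      show s * t * s⁻¹ = 1 * (⁅s, t⁆ * t) by rw [commutatorElement_def]; group, this,
      show ⁅q, ⁅s, t⁆ * t⁆ = ⁅q, ⁅s, t⁆⁆ * (⁅s, t⁆ * ⁅q, t⁆ * ⁅s, t⁆⁻¹) by simp only [commutatorElement_def]; group,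
      k (h.l_le hr) hd, mul_inv_cancel_right]
  have i2 : c * ⁅q, t⁆ * c⁻¹ = ⁅q, t⁆ * ⁅⁅c, q⁆, t⁆ := by
    have := comm_V (mul_mem (h.r_le hr') (h.l_le hq)) (h.r_le ht) (one_mem _)
      (le_sup_right (a := zpowers z) (h.r.ez.comm_mem hc ht.1)) h
    rw [conjugate_commutatorElement, show c * t * c⁻¹ = c * t * c⁻¹ * t⁻¹ * t by group,
      show c * q * c⁻¹ = 1 * (⁅c, q⁆ * q) by rw [commutatorElement_def]; group, this,
      show ⁅⁅c, q⁆ * q, t⁆ = ⁅c, q⁆ * ⁅q, t⁆ * ⁅c, q⁆⁻¹ * ⁅⁅c, q⁆, t⁆ by simp only [commutatorElement_def]; group,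
      k (h.r_le hr') hd, mul_inv_cancel_right]
  have i3 : s * ⁅⁅c, q⁆, t⁆ * s⁻¹ = c * ⁅q, ⁅s, t⁆⁆ * c⁻¹ := by
    have h1 := h.key hE hs e hc e' hq
    have h2 := h.symm.key hE' hc (e'.trans h.xz.symm) hs (e.trans h.xz.symm) ht
    rw [sup_comm] at h2
    have h3 := comm_V (nC (h.normV' hc) (h.l_le hq)) (nC (h.normV hs) (h.r_le ht)) h1 (one_mem _) h
    have h4 := comm_V (nC (h.normV' hc) (h.l_le hq)) (nC (h.normV hs) (h.r_le ht)) (one_mem _) h2 h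
    rw [inv_mul_cancel_right, one_mul] at h3 h4
    rw [conjugate_commutatorElement ⁅c, q⁆, conjugate_commutatorElement q, h3, h4]
  have cz : s * z * s⁻¹ = z := h.l.ez.conj_z hs
  have cx : c * x * c⁻¹ = x := h.r.ez.conj_z hc
  have hzx : z * x * (z * x) = 1 := by rw [mul_assoc, ← mul_assoc x, h.xz, mul_assoc, h.xsq, mul_one, h.zsq]
  rw [mem_zp2 hzx]
  generalize ⁅q, t⁆ = d at hd i1 i2
  rcases h.l.ez.mem_zp.1 (h.l.ez.comm_mem hq.1 hr.1) with e1 | e1 <;> rw [← commutatorElement_def] at e1 <;>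
    rw [e1] at i1 i3
  · rw [show ⁅⁅c, q⁆, t⁆ = 1 by simpa using i3] at i2
    rcases h.memV.1 hd with rfl | rfl | rfl | rfl
    · exact Or.inl rfl
    · exact absurd (e'.symm.trans (i2.trans (mul_one _))) h.zx_ne_z
    · exact absurd (e.symm.trans (i1.trans (one_mul _))) h.zx_ne_x
    · exact Or.inr rfl
  · rw [show ⁅⁅c, q⁆, t⁆ = x by simpa using i3.trans (e'.trans e.symm)] at i2
    rcases h.memV.1 hd with rfl | rfl | rfl | rfl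
    · exact Or.inl rfl
    · exact absurd (cz.symm.trans (i1.trans h.zsq)) h.l.ez.ne_one
    · exact absurd (cx.symm.trans (i2.trans h.xsq)) h.r.ez.ne_one
    · exact Or.inr rfl

theorem exists_t (h : Tri Q P z x) (hE : Q ⊓ P ≤ zpowers z ⊔ zpowers x) (hs : s ∈ Q) (e : s * x * s⁻¹ = z * x)
    (hq : q ∈ Q ⊓ 𝐂[x]) : ∃ t ∈ P ⊓ 𝐂[z], ⁅s, t⁆ * q⁻¹ ∈ zpowers z ⊔ zpowers x := by
  obtain ⟨c, hc, e'⟩ := h.exc
  have hr' := h.symm.comm_mem_l hc (by rw [inf_comm]; exact h.l_le hq)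
  refine ⟨_, hr', ?_⟩
  rw [show ⁅s, ⁅c, q⁆⁆ * q⁻¹ = s * ⁅c, q⁆ * s⁻¹ * (c * q * c⁻¹)⁻¹ * ⁅q, ⁅c, q⁆⁆⁻¹ by
    simp only [commutatorElement_def]; group]
  exact mul_mem (h.key hE hs e hc e' hq) (inv_mem (h.comm_mem_V hE hq hr'))

theorem mem_P (h : Tri Q P z x) (hE : Q ⊓ P ≤ zpowers z ⊔ zpowers x) (ht : t ∈ 𝐂[z] ⊓ 𝐂[x])
    (k : ∀ q ∈ Q ⊓ 𝐂[x], ⁅q, t⁆ ∈ zpowers (z * x)) : t ∈ P := by
  obtain ⟨s, hs, e⟩ := h.exq
  obtain ⟨u, hu, h1⟩ := h.exists_t hE hs e (h.comm_mem_l hs ht)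
  have kV := fun {a v} (ha : a ∈ 𝐂[z] ⊓ 𝐂[x]) (hv : v ∈ zpowers z ⊔ zpowers x) => mem_cent_iff'.1 (cent_V z x ▸ ha) v hv
  have hzx : z * x * (z * x) = 1 := by rw [mul_assoc, ← mul_assoc x, h.xz, mul_assoc, h.xsq, mul_one, h.zsq]
  have hV : zpowers (z * x) ≤ zpowers z ⊔ zpowers x := zpowers_le.2 (h.memV.2 (by simp))
  have hy := mul_mem (inv_mem (h.r_le hu)) ht
  suffices u⁻¹ * t ∈ P by simpa using mul_mem hu.1 this
  refine h.V_le' (h.cent_l ▸ mem_cent_iff'.2 fun q hq => ?_)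
  have h2 : ⁅q, u⁻¹ * t⁆ ∈ zpowers (z * x) := by
    rw [show ⁅q, u⁻¹ * t⁆ = ⁅q, u⁻¹⁆ * (u⁻¹ * ⁅q, t⁆ * u) by simp only [commutatorElement_def]; group,
      kV (inv_mem (h.r_le hu)) (hV (k q hq)), inv_mul_cancel_right]
    exact mul_mem (h.comm_or hE hq (inv_mem hu)) (k q hq)
  have h3 : (u⁻¹ * t) * s * (u⁻¹ * t)⁻¹ = ⁅s, u⁆ * ⁅s, t⁆⁻¹ * s := by
    calc _ = u⁻¹ * ⁅s, u⁆⁻¹ * (⁅s, u⁆ * ⁅s, t⁆⁻¹) * s * u := by simp only [commutatorElement_def]; group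
      _ = _ := by
        rw [kV (mul_mem (inv_mem (h.r_le hu)) (inv_mem (h.l_le (h.comm_mem_l hs (h.r_le hu))))) h1]
        simp only [commutatorElement_def]; group
  generalize u⁻¹ * t = y at hy h2 h3
  generalize ⁅s, u⁆ * ⁅s, t⁆⁻¹ = v at h1 h3
  rcases (mem_zp2 hzx).1 h2 with e1 | e1
  · exact (commutatorElement_eq_one_iff_mul_comm.1 e1).symm
  exfalso
  have h4 : y * q * y⁻¹ = z * x * q := by
    rw [← inv_eq_of_mul_eq_one_right hzx, ← e1, commutatorElement_def]; group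
  have h5 : ⁅s, q⁆ ∈ zpowers z ⊔ zpowers x := le_sup_left (a := zpowers z) (h.l.ez.comm_mem hs hq.1)
  have hx : x ∈ 𝐂[z] ⊓ 𝐂[x] := ⟨mem_cent1_iff.2 h.xz, mem_cent1_iff.2 rfl⟩
  have h6 : ⁅s, q⁆ ∈ 𝐂[z] ⊓ 𝐂[x] := ⟨h.l.ez.le_cent1 (h.V_le h5), h.r.ez.le_cent1 (h.V_le' h5)⟩
  have h7 : ⁅s, q⁆ * (z * x) * q = ⁅s, q⁆ * x * q :=
    calc _ = y * ⁅s, q⁆ * y⁻¹ * (y * q * y⁻¹) := by rw [kV hy h5, mul_inv_cancel_right, h4, mul_assoc ⁅s, q⁆]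
      _ = y * s * y⁻¹ * (y * q * y⁻¹) * (y * s * y⁻¹)⁻¹ := by rw [commutatorElement_def]; group
      _ = v * (s * (z * x) * s⁻¹ * ⁅s, q⁆ * q) * v⁻¹ := by rw [h3, h4, commutatorElement_def]; group
      _ = _ := by
        rw [h.conj_zx (h.l.ez.conj_z hs) e, ← kV (mul_mem (mul_mem hx h6) (h.l_le hq)) h1, mul_inv_cancel_right, kV hx h5]
  exact h.zx_ne_x (by simpa using h7)

end CA.Ex2.Tri

namespace CA.Co
open Cfsg CA.Gol CA CA.Ex2 CA.Orth Subgroup QuadraticMap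
open scoped Matrix Pointwise commutatorElement

theorem exists_E_map {v : V8} (h : Q8 v = 0) (h0 : v ≠ 0) : ∃ k ∈ E Q8, k.1 v = d8 1 := by
  obtain ⟨k, hk, c, hc, e⟩ := (hyp_Qm (Q0 := q0 (ZMod 2)) (0 : Fin 4)).exists_map_e (H := E Q8) nd8.ns
    (fun _ _ => eich_mem_E _ _) (fun _ _ => eich_mem_E _ _) ⟨d8 34, by rw [← d8_one, B_d8]; rfl,
      by rw [← d8_sixteen, B_d8]; rfl, by rw [Q_d8]; decide⟩ h h0
  exact ⟨k, hk, by rw [e, (zmod_two_cases c).resolve_left hc, one_smul, d8_one]⟩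

theorem conj_16 : dH 16 * dH 1 * (dH 16)⁻¹ = zs * dH 1 := by
  rw [mul_inv_eq_iff_eq_mul, ← dH_256, ← dH_hm, ← dH_hm, ← dH_hm]; rfl

theorem conj_16' : dH 16 * (dH 1 * zs) * (dH 16)⁻¹ = dH 1 := by
  rw [mul_inv_eq_iff_eq_mul, ← dH_256, ← dH_hm, ← dH_hm, ← dH_hm]; rfl

theorem eq_eich {w : O Q8} {u : V8} (hu : polar Q8 (d8 1) u = 0)
    (h1 : ∀ v, polar Q8 v (d8 1) = 0 → ∃ c : ZMod 2, w.1 v = v + c • d8 1)
    (h2 : ∃ c : ZMod 2, w.1 (d8 16) = d8 16 + u + c • d8 1) : w = eich Q8 (d8 1) u := by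
  obtain ⟨c, h2⟩ := h2
  have e0 : Q8 (d8 1) = 0 := by rw [Q_d8]; rfl
  have e1 : Q8 (d8 16) = 0 := by rw [Q_d8]; rfl
  have e2 : polar Q8 (d8 16) (d8 1) = 1 := by rw [B_d8]; rfl
  have t2 : (2 : ZMod 2) = 0 := rfl
  have h3 : ∀ v, polar Q8 v (d8 1) = 0 → w.1 v = (eich Q8 (d8 1) u).1 v := fun v hv => by
    obtain ⟨a, ha⟩ := h1 v hv
    have := O.map_B w v (d8 16)
    rw [ha, h2] at this
    revert this; qsimp; rw [hv, hu, B_comm (d8 1), e2, e0]; intro this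
    rw [eich_apply e0 hu, ha, hv, show polar Q8 v u = a by linear_combination this - a * t2]
    simp [v8_sub]
  have h4 : w.1 (d8 16) = (eich Q8 (d8 1) u).1 (d8 16) := by
    have := O.map_Q w (d8 16)
    rw [h2] at this
    revert this; qsimp; rw [e0, e1, e2, B_comm u, hu]; intro this
    rw [eich_apply e0 hu, h2, e2, show c = polar Q8 (d8 16) u + Q8 u by linear_combination this - (Q8 u + polar Q8 (d8 16) u) * t2]
    simp [v8_sub, add_smul, add_assoc]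
  refine O.ext fun v => ?_
  rw [show v = (v - polar Q8 v (d8 1) • d8 16) + polar Q8 v (d8 1) • d8 16 by abel, map_add, map_add, map_smul, map_smul, h4,
    h3 _ (by qsimp; rw [e2]; ring)]

/-- the automorphisms induced by the neighbouring extraspecial group -/
def Fb (a : MulAut Hs) : Prop := a (dH 1) = dH 1 ∧ ∀ u, u * dH 1 = dH 1 * u → u * (a u)⁻¹ ∈ zpowers (zs * dH 1)

variable {G : Type*} [Group G]

namespace CT
variable {ι : Hs →* G} (h : CT ι) {g k : G} {a : MulAut Hs} {x y : Hs}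
include h

theorem exists_map (h1 : Q8 y.v = 0) (h0 : y.v ≠ 0) : ∃ k ∈ 𝐂[ι zs], k * ι y * k⁻¹ = ι (dH 1) := by
  obtain ⟨w, hw, e⟩ := exists_E_map h1 h0
  obtain ⟨k, a, h2, rfl⟩ := h.exists_act hw
  rcases eq_or_of_v ((rho8_v a y).symm.trans e : (a y).v = (dH 1).v) with e | e
  · exact ⟨k, h2.cent, by rw [h2, e]⟩
  · exact ⟨_, ((Act.iota (dH 16)).mul h2).cent, by rw [(Act.iota (dH 16)).mul h2, MulAut.mul_apply, e, MulAut.conj_apply, conj_16']⟩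

theorem exists_conj (h1 : Q8 y.v = 0) (h0 : y.v ≠ 0) : ∃ g, g * ι zs * g⁻¹ = ι y := by
  obtain ⟨g, x, e, hx⟩ := h.nwc
  obtain ⟨k, -, e1⟩ := h.exists_map (y := x) (hs_sq_iff.1 (h.inj (by rw [map_mul, ← e, map_one, conj_mul, z_sq]; group)))
    fun e0 => (v_eq_zero.1 e0).elim (fun e2 => h.z_ne (by simpa [e2] using e)) hx
  obtain ⟨l, -, e2⟩ := h.exists_map h1 h0
  exact ⟨l⁻¹ * k * g, by rw [← conj_inv_of e2, ← e1, ← e]; group⟩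

theorem exists_tri [Finite G] : ∃ g P, g * ι zs * g⁻¹ = ι (dH 1) ∧ P = cj g ι.range ∧ Tri ι.range P (ι zs) (ι (dH 1)) := by
  obtain ⟨g, e⟩ := h.exists_conj (y := dH 1) (by rw [dH_v, Q_d8]; rfl) (d8_ne (by norm_num) one_ne_zero)
  exact ⟨g, _, e, rfl, e ▸ h.lq.tri (e ▸ ⟨_, rfl⟩) fun e' => absurd (dH_inj (by norm_num) (by norm_num)
    ((h.inj (e.symm.trans e')).trans dH_256.symm)) (by norm_num)⟩

variable [Finite G] {P : Subgroup G} (T : Tri ι.range P (ι zs) (ι (dH 1)))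
include T

theorem inf_le : ι.range ⊓ P ≤ zpowers (ι zs) ⊔ zpowers (ι (dH 1)) := by
  have h1 : ∀ u, ι u ∈ P → Q8 u.v = 0 := fun u hu => hs_sq_iff.1 (h.inj (by
    rw [map_mul, map_one]
    exact T.eq_one_of (h.lq.ez.sq_mem ⟨u, rfl⟩) (T.r.ez.sq_mem hu)))
  rintro _ ⟨⟨u, rfl⟩, hu⟩
  obtain ⟨m, hm, e⟩ := d8_surj u.v
  have k : allLt (fun m => qC m || bC m 1 || Nat.beq m 0 || Nat.beq m 1 || anyLt (fun i => anyLt (fun w =>
    !(qC (Nat.pow 2 i)) && !(bC (Nat.pow 2 i) w) && Nat.beq (eC (Nat.pow 2 i) w 1) 1 &&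
    qC (Nat.xor (eC (Nat.pow 2 i) w m) m)) 256) 8) 256 = true := by decide +kernel
  have h2 := allLt_iff.1 k m hm
  have h3 := hs_comm_iff.1 (h.inj (by rw [map_mul, map_mul, T.r.ez.comm hu]) : u * dH 1 = dH 1 * u)
  have h4 := h1 u hu
  rw [e, dH_v, B_d8, bz_eq_zero] at h3
  rw [e, Q_d8, bz_eq_zero] at h4
  simp only [h3, h4, Bool.false_or, Bool.or_eq_true, beq_iff, anyLt_iff] at h2
  rcases h2 with (rfl | rfl) | ⟨i, -, w, -, h2⟩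
  · rcases v_eq_zero.1 (e.trans d8_zero) with rfl | rfl
    · rw [map_one]; exact one_mem _
    · exact T.memV.2 (by simp)
  · rcases eq_or_of_v (y := dH 1) e with rfl | rfl
    · exact T.memV.2 (by simp)
    · exact T.memV.2 (by simp [T.xz])
  · exfalso
    rw [Bool.and_eq_true, Bool.and_eq_true, beq_iff] at h2
    obtain ⟨g, a, h5, h6⟩ := h.exists_act (eich_mem_E (d8 (Nat.pow 2 i)) (d8 w))
    have h7 : ∀ g a, Act ι g a → rho8 a = eich Q8 (d8 (Nat.pow 2 i)) (d8 w) → a (dH 1) ≠ dH 1 := fun g a h5 h6 h7 => by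
      have := h1 (a u * u) (by
        rw [map_mul, ← h5]
        exact mul_mem (conj_mem_of_mem_normalizer (T.r.le_norm (conj_eq_iff_mem_cent1.1 (by rw [h5, h7]))) hu) hu)
      rw [Heis.mul_v, ← rho8_v, h6, e, r8_eich h2.1.1, ← d8_xor, Q_d8, h2.2] at this
      exact absurd this (by decide)
    rcases eq_or_of_v (x := a (dH 1)) (y := dH 1) (by rw [← rho8_v, h6, dH_v, r8_eich h2.1.1, h2.1.2]) with e1 | e1
    · exact h7 g a h5 h6 e1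
    · exact h7 _ _ ((Act.iota (dH 16)).mul h5) (by rw [map_mul, rho8_conj, one_mul, h6])
        (by rw [MulAut.mul_apply, e1, MulAut.conj_apply, conj_16'])

theorem mem_P_iff (h1 : Act ι g a) : g ∈ P ↔ Fb a := by
  have e1 : ∀ u, ⁅ι u, g⁆ = ι (u * (a u)⁻¹) := fun u => by rw [map_mul, map_inv, ← h1, commutatorElement_def]; group
  have e2 : ∀ u, ι u ∈ zpowers (ι zs * ι (dH 1)) ↔ u ∈ zpowers (zs * dH 1) := fun u => by
    rw [← map_mul, ← MonoidHom.map_zpowers, mem_map_iff_mem h.inj]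
  refine ⟨fun hg => ⟨h.inj (by rw [← h1, T.r.ez.conj_z hg]), fun u hu => ?_⟩, fun hb => T.mem_P (h.inf_le T)
    ⟨h1.cent, conj_eq_iff_mem_cent1.1 (by rw [h1, hb.1])⟩ ?_⟩
  · rw [← e2, ← e1]
    exact T.comm_or (h.inf_le T) ⟨⟨u, rfl⟩, mem_cent1_iff.2 (by rw [← map_mul, hu, map_mul])⟩ ⟨hg, h1.cent⟩
  · rintro _ ⟨⟨u, rfl⟩, hu⟩
    rw [e1, e2]
    exact hb.2 u (h.inj (by rw [map_mul, map_mul]; exact mem_cent1_iff.1 hu))

theorem exists_Fb {u : V8} (hu : polar Q8 (d8 1) u = 0) : ∃ a, Fb a ∧ rho8 a = eich Q8 (d8 1) u := by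
  have hV : ∀ y : Hs, ι y ∈ zpowers (ι zs) ⊔ zpowers (ι (dH 1)) → ∃ c : ZMod 2, y.v = c • d8 1 := fun y hy => by
    rcases T.memV.1 hy with e | e | e | e
    · exact ⟨0, by rw [h.inj (e.trans (map_one ι).symm), zero_smul]; rfl⟩
    · exact ⟨0, by rw [h.inj e, zero_smul]; rfl⟩
    · exact ⟨1, by rw [h.inj e, one_smul]; rfl⟩
    · exact ⟨1, by rw [h.inj (e.trans (map_mul ι _ _).symm), one_smul]; exact zero_add _⟩
  obtain ⟨t, ht, e⟩ := T.exists_t (h.inf_le T) (s := ι (dH 16)) (q := ι ⟨u, 0⟩) ⟨_, rfl⟩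
    (by rw [← map_inv, ← map_mul, ← map_mul, conj_16, map_mul]) ⟨⟨_, rfl⟩, mem_cent1_iff.2 (by
      rw [← map_mul, ← map_mul, (hs_comm_iff (x := ⟨u, 0⟩) (y := dH 1)).2 (by rw [B_comm]; exact hu)])⟩
  obtain ⟨a, -, ha⟩ := h.ex t ht.2
  have e1 : ∀ u, ⁅ι u, t⁆ = ι (u * (a u)⁻¹) := fun u => by rw [map_mul, map_inv, ← ha, commutatorElement_def]; group
  refine ⟨a, (h.mem_P_iff T ha).1 ht.1, eq_eich hu (fun v hv => ?_) ?_⟩
  · obtain ⟨c, hc⟩ := hV _ (e1 ⟨v, 0⟩ ▸ T.comm_mem_V (h.inf_le T) ⟨⟨_, rfl⟩, mem_cent1_iff.2 (by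
      rw [← map_mul, ← map_mul, (hs_comm_iff (x := ⟨v, 0⟩) (y := dH 1)).2 hv])⟩ ht)
    exact ⟨c, by rw [← hc]; exact (rho8_v a ⟨v, 0⟩).trans (by simp [v8_neg, ← add_assoc, v8_two])⟩
  · rw [e1, ← map_inv ι, ← map_mul] at e
    obtain ⟨c, hc⟩ := hV _ e
    refine ⟨c, (rho8_v a (dH 16)).trans ?_⟩
    simp only [← hc, Heis.mul_v, Heis.inv_v, v8_neg, dH_v]
    rw [add_right_comm (d8 16) (a _).v, ← add_assoc, v8_two, zero_add]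

end CT

end CA.Co
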