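import Cfsg.Agent.Lib.Co.CT4
import Cfsg.Agent.Lib.Co.CT2

/-!
Uniqueness of the involution centraliser in a group of Conway type.
-/

set_option autoImplicit false

namespace CA.Co
open Cfsg CA.Gol CA CA.Ex2 CA.Orth Subgroup QuadraticMap
open scoped Matrix Pointwise commutatorElement

variable {G₀ G : Type*} [Group G₀] [Group G]

/-- pairs with the same action -/
def FP (κ : Hs →* G₀) (ι : Hs →* G) : Subgroup (G₀ × G) where
  carrier := {p | ∃ a, Act κ p.1 a ∧ Act ι p.2 a}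
  one_mem' := ⟨1, Act.one, Act.one⟩
  mul_mem' := fun ⟨_, h1, h2⟩ ⟨_, h3, h4⟩ => ⟨_, h1.mul h3, h2.mul h4⟩
  inv_mem' := fun ⟨_, h1, h2⟩ => ⟨_, h1.inv, h2.inv⟩

/-- the diagonal -/
def dg (κ : Hs →* G₀) (ι : Hs →* G) : Hs →* FP κ ι := (κ.prod ι).codRestrict _ fun x => ⟨_, Act.iota x, Act.iota x⟩

instance dg_normal (κ : Hs →* G₀) (ι : Hs →* G) : (dg κ ι).range.Normal := ⟨by
  rintro _ ⟨x, rfl⟩ ⟨p, a, h1, h2⟩
  exact ⟨a x, Subtype.ext (Prod.ext (h1 x).symm (h2 x).symm)⟩⟩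

/-- an isomorphism of centralisers compatible with the actions -/
structure HI (κ : Hs →* G₀) (ι : Hs →* G) (ψ : ↥𝐂[κ zs] →* G) : Prop where
  act : ∀ g a, Act κ g.1 a → Act ι (ψ g) a
  io : ∀ u hu, ψ ⟨κ u, hu⟩ = ι u

section fp
variable {κ : Hs →* G₀} {ι : Hs →* G} (h0 : CT κ) (h : CT ι)

/-- the projection of the fibre product -/
noncomputable def fpP : FP κ ι →* O Q8 := (rho8.comp h0.al).comp
  (((MonoidHom.fst _ _).comp (FP κ ι).subtype).codRestrict _ fun p => p.2.choose_spec.1.cent)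

theorem fpP_eq {p : FP κ ι} {a : MulAut Hs} (e : Act κ p.1.1 a) : fpP h0 p = rho8 a :=
  congrArg rho8 ((h0.act_al _).unique h0.inj e)

/-- the projection modulo the diagonal -/
noncomputable def fpQ : FP κ ι ⧸ (dg κ ι).range →* O Q8 := QuotientGroup.lift _ (fpP h0) (by
  rintro _ ⟨x, rfl⟩; exact (fpP_eq h0 (Act.iota x)).trans (rho8_conj x))

/-- the central involution -/
def fpZ (κ : Hs →* G₀) (ι : Hs →* G) : FP κ ι := ⟨(1, ι zs), 1, Act.one, Act.z⟩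

include h in
theorem fp_ce : CE (fpQ h0 (ι := ι)) (fpZ κ ι) where
  cen g := by
    obtain ⟨⟨p, a, h1, h2⟩, rfl⟩ := QuotientGroup.mk_surjective g
    exact congrArg QuotientGroup.mk (Subtype.ext (Prod.ext (by simp [fpZ]) (mem_cent1_iff.1 h2.cent)))
  sq := congrArg QuotientGroup.mk (Subtype.ext (Prod.ext (mul_one _) CT.z_sq) : fpZ κ ι * fpZ κ ι = 1)
  ne e := by
    obtain ⟨x, e⟩ := (QuotientGroup.eq_one_iff _).1 e
    have e1 : x = 1 := h0.inj ((congrArg (·.1.1) e).trans (map_one κ).symm)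
    exact h.z_ne ((congrArg (·.1.2) e).symm.trans (by rw [e1, map_one]; rfl))
  ker g := by
    obtain ⟨⟨p, a, h1, h2⟩, rfl⟩ := QuotientGroup.mk_surjective g
    refine ⟨fun e => ?_, ?_⟩
    · obtain ⟨u, rfl⟩ := rho8_eq_one ((fpP_eq h0 h1).symm.trans e)
      obtain ⟨u, e1, e2⟩ : ∃ u', p.1 = κ u' ∧ Act ι p.2 (MulAut.conj u') := by
        rcases h0.eq_or h1 (Act.iota u) with e1 | e1
        · exact ⟨u, e1, h2⟩
        · exact ⟨u * zs, by rw [e1, map_mul], fun x => by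
            rw [h2, map_mul MulAut.conj, MulAut.mul_apply, MulAut.conj_apply zs, ← zs_comm, mul_inv_cancel_right]⟩
      rcases h.eq_or e2 (Act.iota u) with e3 | e3
      · exact Or.inl ((QuotientGroup.eq_one_iff _).2 ⟨u, Subtype.ext (Prod.ext e1.symm e3.symm)⟩)
      · refine Or.inr (QuotientGroup.eq.2 ⟨u⁻¹, Subtype.ext (Prod.ext ?_ ?_)⟩)
        · show κ u⁻¹ = p.1⁻¹ * 1
          rw [e1, map_inv, mul_one]
        · show ι u⁻¹ = p.2⁻¹ * ι zs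
          rw [e3, ← map_mul, zs_comm, map_mul, mul_inv_rev, inv_mul_cancel_right, map_inv]
    · rintro (e | e) <;> rw [e]
      · exact map_one _
      · exact (fpP_eq h0 Act.one).trans (map_one _)
  rg := by
    refine le_antisymm ?_ fun w hw => ?_
    · rintro _ ⟨g, rfl⟩
      obtain ⟨⟨p, a, h1, h2⟩, rfl⟩ := QuotientGroup.mk_surjective g
      exact (fpP_eq h0 (p := ⟨p, a, h1, h2⟩) h1).symm ▸ (h0.mem_AE h1 : rho8 a ∈ E Q8)
    · obtain ⟨g, a, h1, rfl⟩ := h0.exists_act hw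
      obtain ⟨k, h2⟩ := h.ex' a hw
      exact ⟨(⟨(g, k), a, h1, h2⟩ : FP κ ι), fpP_eq h0 h1⟩

include h in
theorem fp_com {g g' : G₀} {k k' : G} {a b : MulAut Hs} (h1 : Act κ g a) (h2 : Act ι k a) (h3 : Act κ g' b)
    (h4 : Act ι k' b) : Com (fpQ h0 (ι := ι)) (rho8 a) (rho8 b) ↔ ∃ u, ⁅g, g'⁆ = κ u ∧ ⁅k, k'⁆ = ι u := by
  let p : FP κ ι := ⟨(g, k), a, h1, h2⟩
  let q : FP κ ι := ⟨(g', k'), b, h3, h4⟩
  have e : (p : FP κ ι ⧸ (dg κ ι).range) * q = q * p ↔ ∃ u, ⁅g, g'⁆ = κ u ∧ ⁅k, k'⁆ = ι u := by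
    rw [← commutatorElement_eq_one_iff_mul_comm]
    exact (QuotientGroup.eq_one_iff ⁅p, q⁆).trans (exists_congr fun u => ⟨fun e => ⟨(congrArg (·.1.1) e).symm,
      (congrArg (·.1.2) e).symm⟩, fun e => Subtype.ext (Prod.ext e.1.symm e.2.symm)⟩)
  exact ⟨fun H => e.1 (H _ _ (fpP_eq h0 h1) (fpP_eq h0 h3)),
    fun H => fpP_eq h0 (p := p) h1 ▸ fpP_eq h0 (p := q) h3 ▸ (fp_ce h0 h).com_of (e.2 H)⟩

variable [Finite G₀] [Finite G]

include h in
theorem fp_v : Com (fpQ h0 (ι := ι)) (xr 8) (xr 40) := by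
  obtain ⟨-, P₀, -, -, T₀⟩ := h0.exists_tri
  obtain ⟨-, P, -, -, T⟩ := h.exists_tri
  obtain ⟨a, ha, e1⟩ := h.exists_Fb T (u := d8 2) (by rw [B_d8]; rfl)
  obtain ⟨b, hb, e2⟩ := h.exists_Fb T (u := d8 32) (by rw [B_d8]; rfl)
  have ha' : a ∈ AE := by rw [AE, mem_comap, e1]; exact eich_mem_E _ _
  have hb' : b ∈ AE := by rw [AE, mem_comap, e2]; exact eich_mem_E _ _
  obtain ⟨g, h1⟩ := h0.ex' a ha'
  obtain ⟨g', h3⟩ := h0.ex' b hb'
  obtain ⟨k, h2⟩ := h.ex' a ha'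
  obtain ⟨k', h4⟩ := h.ex' b hb'
  rw [show xr 8 = rho8 a from e1.symm, show xr 40 = rho8 b from e2.symm, fp_com h0 h h1 h2 h3 h4]
  have k1 := ((h1.mul h3).mul h1.inv).mul h3.inv
  have k2 := ((h2.mul h4).mul h2.inv).mul h4.inv
  have k3 : MulAut.conj (dH 1) ≠ 1 := fun e => absurd (hs_comm_iff.1 (mul_inv_eq_iff_eq_mul.1
    (show dH 1 * dH 16 * (dH 1)⁻¹ = dH 16 from congrArg (· (dH 16)) e))) (by rw [dH_v, dH_v, B_d8]; decide)
  rcases T₀.r.ez.mem_zp.1 (T₀.r.ez.comm_mem ((h0.mem_P_iff T₀ h1).2 ha) ((h0.mem_P_iff T₀ h3).2 hb)) with e3 | e3 <;>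
  rcases T.r.ez.mem_zp.1 (T.r.ez.comm_mem ((h.mem_P_iff T h2).2 ha) ((h.mem_P_iff T h4).2 hb)) with e4 | e4 <;>
  rw [e3] at k1 <;> rw [e4] at k2
  · exact ⟨1, by rw [map_one, ← e3]; rfl, by rw [map_one, ← e4]; rfl⟩
  · exact absurd (((Act.iota _).unique h.inj k2).trans (k1.unique h0.inj Act.one)) k3
  · exact absurd (((Act.iota _).unique h0.inj k1).trans (k2.unique h.inj Act.one)) k3
  · exact ⟨_, e3, e4⟩

include h in
theorem exists_hi_of (hs : Com (fpQ h0 (ι := ι)) (xr 8) (xr 26)) : ∃ ψ, HI κ ι ψ := by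
  have H := fp_ce h0 h
  obtain ⟨K, k1, k2⟩ := H.split (fp_v h0 h) hs
  obtain ⟨K', hK⟩ : ∃ K' : Subgroup (G₀ × G), ∀ p, p ∈ K' ↔ ∃ hp : p ∈ FP κ ι,
      ((⟨p, hp⟩ : FP κ ι) : FP κ ι ⧸ (dg κ ι).range) ∈ K :=
    ⟨(K.comap (QuotientGroup.mk' _)).map (FP κ ι).subtype, fun p => ⟨fun ⟨x, h1, h2⟩ => h2 ▸ ⟨x.2, h1⟩, fun ⟨h1, h2⟩ => ⟨_, h2, rfl⟩⟩⟩
  have u1 : ∀ g k k', (g, k) ∈ K' → (g, k') ∈ K' → k = k' := fun g k k' e e' => by
    obtain ⟨⟨a, h1, h2⟩, h3⟩ := (hK _).1 (mul_mem (inv_mem e') e)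
    obtain rfl : a = 1 := h1.unique h0.inj (by simpa using Act.one)
    rcases h.ker _ h2 with e1 | e1
    · exact (inv_mul_eq_one.1 e1).symm
    · refine absurd (mem_bot.1 (k1 ▸ ⟨?_, mem_zpowers _⟩)) H.ne
      rwa [show (⟨_, _, h1, h2⟩ : FP κ ι) = fpZ κ ι from Subtype.ext (Prod.ext (inv_mul_cancel g) e1)] at h3
  have u2 : ∀ g : ↥𝐂[κ zs], ∃ k, (g.1, k) ∈ K' := fun g => by
    obtain ⟨a, ha, h1⟩ := h0.ex g g.2
    obtain ⟨k, h2⟩ := h.ex' a ha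
    have h3 : ((⟨(g, k), a, h1, h2⟩ : FP κ ι) : FP κ ι ⧸ (dg κ ι).range) ∈ K ⊔ zpowers (fpZ κ ι : FP κ ι ⧸ _) := k2 ▸ mem_top _
    haveI : (zpowers (fpZ κ ι : FP κ ι ⧸ (dg κ ι).range)).Normal := ⟨fun n hn g => by
      rcases (mem_zp2 H.sq).1 hn with rfl | rfl
      · simp
      · rw [H.cen, mul_inv_cancel_right]; exact hn⟩
    obtain ⟨y, hy, n, hn, e⟩ := mem_sup_of_normal_right.1 h3
    rcases (mem_zp2 H.sq).1 hn with rfl | rfl
    · exact ⟨k, (hK _).2 ⟨_, by rw [mul_one] at e; exact e ▸ hy⟩⟩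
    · refine ⟨k * ι zs, (hK _).2 ⟨⟨a, h1, by simpa using h2.mul Act.z⟩, ?_⟩⟩
      rw [← mul_one y, ← H.sq, ← mul_assoc, e, ← QuotientGroup.mk_mul] at hy
      rwa [show (⟨(g, k), a, h1, h2⟩ * fpZ κ ι : FP κ ι) = ⟨(g, k * ι zs), a, h1, by simpa using h2.mul Act.z⟩ from
        Subtype.ext (Prod.ext (mul_one g.1) rfl)] at hy
  choose f hf using u2
  refine ⟨MonoidHom.mk' f fun a b => u1 _ _ _ (hf _) (mul_mem (hf a) (hf b)), fun g a h1 => ?_, fun u hu => ?_⟩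
  · obtain ⟨⟨b, h2, h3⟩, -⟩ := (hK _).1 (hf g)
    exact h2.unique h0.inj h1 ▸ h3
  · exact u1 _ _ _ (hf _) ((hK _).2 ⟨(dg κ ι u).2,
      ((QuotientGroup.eq_one_iff (N := (dg κ ι).range) (dg κ ι u)).2 ⟨u, rfl⟩).symm ▸ one_mem K⟩)

end fp

/-- ordered products of generators -/
def gH (m k : ℕ) : ℕ := Nat.rec 0 (fun i acc => Bool.rec acc (hm acc (Nat.pow 2 i)) (tb m i)) k

theorem dH_mem {K : Subgroup Hs} {m : ℕ} (hm : m < 512) (h : ∀ i < 9, tb m i = true → dH (Nat.pow 2 i) ∈ K) :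
    dH m ∈ K := by
  rw [← beq_iff.1 (allLt_iff.1 (by decide +kernel : allLt (fun m => Nat.beq (gH m 9) m) 512 = true) m hm)]
  generalize 9 = k at h
  induction k with
  | zero => exact dH_zero ▸ one_mem K
  | succ k ih =>
    have := ih fun i hi => h i (by omega)
    simp only [gH] at this ⊢
    cases e : tb m k
    · exact this
    · exact dH_hm _ _ ▸ mul_mem this (h k (by omega) e)

theorem act_dH {g : Co0} {c p m m' : ℕ} {a : MulAut Hs} (h : MR g c p) (h1 : Act i0 g a) (hm : m < 512) (hm' : m' < 512)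
    (k : ckJ c p m m' = true) : a (dH m) = dH m' := i0_inj ((h1 _).symm.trans (conj_dH h hm hm' k))

/-- the monomial element induces the given map -/
def ckX (c p : ℕ) (f : ℕ → ℕ) : Bool := allLt (fun i => force (f (Nat.pow 2 i)) fun m => Nat.blt m 256 &&
  (ckJ c p (Nat.pow 2 i) m || ckJ c p (Nat.pow 2 i) (Nat.xor m 256))) 8

theorem rho8_of_ckX {g : Co0} {c p : ℕ} {a : MulAut Hs} {w : O Q8} {f : ℕ → ℕ} (h : MR g c p) (h1 : Act i0 g a)
    (h2 : R8 w f) (k : ckX c p f = true) : rho8 a = w := ext8 fun i hi => by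
  have := allLt_iff.1 k i hi
  have h3 : Nat.pow 2 i < 512 := Nat.pow_lt_pow_right (n := 9) (by norm_num) (by omega)
  rw [force_eq, Bool.and_eq_true, blt_iff, Bool.or_eq_true] at this
  rw [h2, ← dH_v, rho8_v]
  rcases this.2 with e | e
  · rw [act_dH h h1 h3 (by omega) e, dH_v]
  · rw [act_dH h h1 h3 (Nat.xor_lt_two_pow (n := 9) (by omega) (by norm_num)) e, dH_v]
    exact (d8_xor _ _).trans (by rw [d8_256, add_zero])

theorem MR.act {g : Co0} {c p : ℕ} (h : MR g c p) (e : Nat.beq (apM p O0) O0 = true) : ∃ a, Act i0 g a :=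
  ⟨_, ct0.act_al ⟨g, cent_eps.2 (h.mem_cent.2 (beq_iff.1 e))⟩⟩

theorem exists_conj_U {a b : MulAut Hs} (e : rho8 a = rho8 b) (ha : ∀ j ∈ [1, 2, 4, 128], a (dH j) = dH j)
    (hb : ∀ j ∈ [1, 2, 4, 128], b (dH j) = dH j) : ∃ u, a = MulAut.conj u * b ∧
      ∀ K : Subgroup Hs, zs ∈ K → (∀ j ∈ [1, 2, 4, 128], dH j ∈ K) → u ∈ K := by
  obtain ⟨u, hu⟩ := rho8_eq_one (a := a * b⁻¹) (by rw [map_mul, map_inv, e, mul_inv_cancel])
  obtain ⟨m, hm, rfl⟩ := dH_surj u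
  rw [mul_inv_eq_iff_eq_mul] at hu
  refine ⟨_, hu, fun K hz hK => dH_mem hm fun i hi h => ?_⟩
  have h1 : ∀ j ∈ [1, 2, 4, 128], bC m j = false := fun j hj => by
    have := ha j hj
    rw [hu, MulAut.mul_apply, hb j hj, MulAut.conj_apply, mul_inv_eq_iff_eq_mul, hs_comm_iff, dH_v, dH_v, B_d8] at this
    exact bz_eq_zero.1 this
  have h2 := h1 1 (by simp)
  have h3 := h1 2 (by simp)
  have h4 := h1 4 (by simp)
  have h5 := h1 128 (by simp)
  rw [show bC m 1 = tb m 4 from bC_pow m (a := 0) (by norm_num)] at h2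
  rw [show bC m 2 = tb m 5 from bC_pow m (a := 1) (by norm_num)] at h3
  rw [show bC m 4 = tb m 6 from bC_pow m (a := 2) (by norm_num)] at h4
  rw [show bC m 128 = tb m 3 from bC_pow m (a := 7) (by norm_num)] at h5
  interval_cases i
  exacts [hK 1 (by simp), hK 2 (by simp), hK 4 (by simp), absurd (h.symm.trans h5) (by simp),
    absurd (h.symm.trans h2) (by simp), absurd (h.symm.trans h3) (by simp), absurd (h.symm.trans h4) (by simp),
    hK 128 (by simp), dH_256 ▸ hz]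

theorem CT.exists_hi [Finite G] {ι : Hs →* G} (h : CT ι) : ∃ ι' : Hs →* G, ι' zs = ι zs ∧ ι'.range = ι.range ∧ CT ι' ∧
    ∃ ψ, HI i0 ι' ψ := by
  have m1 := mr_sg (c := 0x91104d) (by decide +kernel)
  have m2 := mr_sg (c := 0xa96009) (by decide +kernel)
  have m3 := mr_mo (c := 0) (p := 0xd91094c14689ec5a935398642baf1) (by decide +kernel) (by decide +kernel)
  obtain ⟨a1, h1⟩ := m1.act (by decide +kernel)
  obtain ⟨a2, h2⟩ := m2.act (by decide +kernel)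
  obtain ⟨a3, h3⟩ := m3.act (by decide +kernel)
  have e1 := rho8_of_ckX m1 h1 (r8_xr (r := 8) rfl) (by decide +kernel)
  have e2 := rho8_of_ckX m2 h2 (r8_xr (r := 26) rfl) (by decide +kernel)
  have e3 := rho8_of_ckX m3 h3 (r8_xr (r := 58) rfl) (by decide +kernel)
  have c1 : ⁅((sgC (fs 0x91104d) : Co0) : Spor.Co1), ((sgC (fs 0xa96009) : Co0) : Spor.Co1)⁆ = i0 1 := by
    rw [map_one, commutatorElement_eq_one_iff_mul_comm]; exact (m1.mul m2).mk_eq (m2.mul m1) (by decide +kernel)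
  have c2 : ⁅((sgC (fs 0x91104d) : Co0) : Spor.Co1), ((mo 0 0xd91094c14689ec5a935398642baf1 : Co0) : Spor.Co1)⁆ =
      i0 zs := by
    rw [commutatorElement_def, mul_inv_eq_iff_eq_mul, mul_inv_eq_iff_eq_mul, i0_zs]
    exact (m1.mul m3).mk_eq ((mr_eps.mul m3).mul m1) (by decide +kernel)
  have f1 : ∀ j ∈ [1, 2, 4, 8, 128], a1 (dH j) = dH j := fun j hj => by
    fin_cases hj <;> exact act_dH m1 h1 (by norm_num) (by norm_num) (by decide +kernel)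
  have f2 : ∀ j ∈ [1, 2, 4, 8], a2 (dH j) = dH j := fun j hj => by
    fin_cases hj <;> exact act_dH m2 h2 (by norm_num) (by norm_num) (by decide +kernel)
  have f3 : ∀ j ∈ [1, 2, 4, 128], a3 (dH j) = dH j := fun j hj => by
    fin_cases hj <;> exact act_dH m3 h3 (by norm_num) (by norm_num) (by decide +kernel)
  generalize ((sgC (fs 0x91104d) : Co0) : Spor.Co1) = g1 at h1 c1 c2
  generalize ((sgC (fs 0xa96009) : Co0) : Spor.Co1) = g2 at h2 c1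
  generalize ((mo 0 0xd91094c14689ec5a935398642baf1 : Co0) : Spor.Co1) = g3 at h3 c2
  by_cases hs : Com (fpQ ct0 (ι := ι)) (xr 8) (xr 26)
  · exact ⟨ι, rfl, rfl, h, exists_hi_of ct0 h hs⟩
  obtain ⟨k1, l1⟩ := h.ex' _ (ct0.mem_AE h1)
  obtain ⟨k3, l3⟩ := h.ex' _ (ct0.mem_AE h3)
  have c3 : k1 * k3 = k3 * k1 := by
    rw [((fp_ce ct0 h).eps_iff (fp_v ct0 h)), ← e1, ← e3, fp_com ct0 h h1 l1 h3 l3] at hs
    have k := ((h1.mul h3).mul h1.inv).mul h3.inv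
    rw [← commutatorElement_def, c2] at k
    exact commutatorElement_eq_one_iff_mul_comm.1 ((h.ker _ (k.unique i0_inj Act.z ▸
      ((l1.mul l3).mul l1.inv).mul l3.inv)).resolve_right fun e => hs ⟨zs, c2, e⟩)
  obtain ⟨r, hr⟩ := rho8_surj (refl Q8 (d8 136))
  have r1 : R8 (rho8 r) fun m => Nat.xor m (sC (bC m 136) 136) := fun m => by
    rw [hr, refl_apply, d8_xor, d8_sC, B_d8, Q_d8, v8_sub, show bz (qC 136) = 1 from rfl, div_one]
  have r2 : ∀ a : MulAut Hs, (∀ j ∈ [1, 2, 4, 8], a (dH j) = dH j) → ∀ j ∈ [1, 2, 4, 128], (r * a * r⁻¹) (dH j) = dH j := by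
    intro a ha j hj
    obtain ⟨i, hi, e⟩ : ∃ i ∈ [1, 2, 4, 8], (dH j).v = (r (dH i)).v := by
      simp only [← rho8_v, dH_v, r1 _]; fin_cases hj
      exacts [⟨1, by simp, rfl⟩, ⟨2, by simp, rfl⟩, ⟨4, by simp, rfl⟩, ⟨8, by simp, rfl⟩]
    rcases eq_or_of_v e with e | e <;> simp [e, ha i hi, aut_zs]
  obtain ⟨u1, e4, n1⟩ := exists_conj_U (a := r * a1 * r⁻¹) (b := a1) (by
    rw [map_mul, map_mul, map_inv, e1, mul_inv_eq_iff_eq_mul]
    exact (r1.mul (r8_xr rfl)).ext ((r8_xr rfl).mul r1) (by decide +kernel))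
    (r2 _ fun j hj => f1 j (by fin_cases hj <;> simp)) fun j hj => f1 j (by fin_cases hj <;> simp)
  obtain ⟨u3, e5, n3⟩ := exists_conj_U (a := r * a2 * r⁻¹) (b := a3) (by
    rw [map_mul, map_mul, map_inv, e2, e3, mul_inv_eq_iff_eq_mul]
    exact (r1.mul (r8_xr rfl)).ext ((r8_xr rfl).mul r1) (by decide +kernel)) (r2 _ f2) f3
  refine ⟨ι.comp r.toMonoidHom, congrArg ι (aut_zs r), by rw [MonoidHom.range_comp, MonoidHom.range_eq_top.2 r.surjective,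
    ← MonoidHom.range_eq_map], h.comp r, exists_hi_of ct0 (h.comp r) ?_⟩
  have l4 := ((Act.iota u1).mul l1).comp r
  have l5 := ((Act.iota u3).mul l3).comp r
  rw [← e4, show r⁻¹ * (r * a1 * r⁻¹) * r = a1 by group] at l4
  rw [← e5, show r⁻¹ * (r * a2 * r⁻¹) * r = a2 by group] at l5
  rw [← e1, ← e2, fp_com ct0 (h.comp r) h1 l4 h2 l5]
  refine ⟨1, c1, ?_⟩
  have p1 : a1 u3 = u3 := n3 (a1.toMonoidHom.eqLocus (MonoidHom.id _)) (aut_zs a1) fun j hj => f1 j (by fin_cases hj <;> simp)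
  have p2 : a3 u1 = u1 := n1 (a3.toMonoidHom.eqLocus (MonoidHom.id _)) (aut_zs a3) f3
  have p3 : u1 * u3 = u3 * u1 := mem_cent1_iff.1 (n1 _ (mem_cent1_iff.2 (zs_comm _).symm) fun j hj => mem_cent1_comm.1
    (n3 _ (mem_cent1_iff.2 (zs_comm _).symm) fun i hi => mem_cent1_iff.2 (hs_comm_iff.2 (by
      rw [dH_v, dH_v, B_d8]; fin_cases hj <;> fin_cases hi <;> rfl))))
  rw [map_one, commutatorElement_eq_one_iff_mul_comm]
  calc _ = ι u1 * (k1 * ι u3 * k1⁻¹) * (k1 * k3) := by group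
    _ = ι u3 * (k3 * ι u1 * k3⁻¹) * (k3 * k1) := by rw [l1, l3, p1, p2, c3, ← map_mul, p3, map_mul]
    _ = _ := by group

namespace HI
variable {κ : Hs →* G₀} {ι : Hs →* G} {ψ : ↥𝐂[κ zs] →* G} (H : HI κ ι ψ) (h0 : CT κ) (h : CT ι)
include H h0

theorem mem_cent (g : ↥𝐂[κ zs]) : ψ g ∈ 𝐂[ι zs] := (H.act g _ (h0.act_al g)).cent

include h

theorem inj : Function.Injective ψ := (injective_iff_map_eq_one _).2 fun g e => by
  have h1 := H.act g _ (h0.act_al g)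
  rw [e] at h1
  rcases h0.ker g (h1.unique h.inj Act.one ▸ h0.act_al g) with e1 | e1
  · exact Subtype.ext e1
  · exact absurd ((H.io zs Act.z.cent).symm.trans (by rw [← e]; congr 1; exact Subtype.ext e1.symm)) h.z_ne

theorem surj {k : G} (hk : k ∈ 𝐂[ι zs]) : ∃ g, ψ g = k := by
  obtain ⟨a, ha, h1⟩ := h.ex k hk
  obtain ⟨g, h2⟩ := h0.ex' a ha
  rcases h.eq_or h1 (H.act ⟨g, h2.cent⟩ a h2) with e | e
  · exact ⟨_, e.symm⟩
  · exact ⟨⟨g, h2.cent⟩ * ⟨_, Act.z.cent⟩, by rw [map_mul, H.io, e]⟩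

end HI

end CA.Co
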