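import Cfsg.Agent.Lib.Co.CT5

/-!
The monomial subgroup of a group of Conway type.
-/

set_option autoImplicit false

namespace CA.Co
open Cfsg CA.Gol CA CA.Ex2 CA.Orth Subgroup QuadraticMap
open scoped Matrix Pointwise commutatorElement

variable {G₀ G : Type*} [Group G₀] [Group G]

theorem exists_section {L M : Type*} [Group L] [Group M] [Finite L] {π : L →* M} (hπ : Function.Surjective π)
    [IsMulCommutative π.ker] {S : Subgroup M} (hc : (Nat.card π.ker).Coprime S.index) (s : S →* L)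
    (hs : ∀ x, π (s x) = x) : ∃ κ : M →* L, ∀ x, π (κ x) = x := by
  obtain ⟨K, k1, k2⟩ := XS.gaschutz_abs (A := π.ker) (Y := S.comap π) (B := s.range) (MonoidHom.ker_le_comap _ _)
    (by rwa [index_comap_of_surjective _ hπ]) (by rintro _ ⟨x, rfl⟩; exact mem_comap.2 ((hs x).symm ▸ x.2))
    (eq_bot_iff.2 (by
      rintro _ ⟨⟨x, rfl⟩, hx⟩
      rw [show x = 1 from Subtype.ext ((hs x).symm.trans hx), map_one]; exact one_mem _))
    (le_antisymm (sup_le (by rintro _ ⟨x, rfl⟩; exact mem_comap.2 ((hs x).symm ▸ x.2)) (MonoidHom.ker_le_comap _ _))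
      fun y hy => by
        rw [← mul_inv_cancel_left (s ⟨π y, hy⟩) y]
        exact mul_mem_sup ⟨_, rfl⟩ (by rw [MonoidHom.mem_ker, map_mul, map_inv, hs, inv_mul_cancel]))
  let e := MulEquiv.ofBijective (π.comp K.subtype) ⟨(injective_iff_map_eq_one _).2 fun x hx =>
    Subtype.ext (mem_bot.1 (k1 ▸ ⟨x.2, hx⟩)), fun x => by
      obtain ⟨y, rfl⟩ := hπ x
      obtain ⟨a, ha, b, hb, rfl⟩ := mem_sup_of_normal_right.1 (k2 ▸ mem_top y)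
      exact ⟨⟨a, ha⟩, by rw [map_mul, show π b = 1 from hb, mul_one]; rfl⟩⟩
  exact ⟨K.subtype.comp e.symm.toMonoidHom, fun x => e.apply_symm_apply x⟩

theorem tri_ext [Finite G] {Q₀ P₀ : Subgroup G₀} {z₀ x₀ s₀ : G₀} {Q P : Subgroup G} {z x : G} (T₀ : Tri Q₀ P₀ z₀ x₀)
    (T : Tri Q P z x) {ψ : ↥𝐂[z₀] →* G} (hz : pel ψ z₀ = z) (hx : pel ψ x₀ = x)
    (hi : ∀ g ∈ 𝐂[z₀], pel ψ g = z → g = z₀) (hj : ∀ k ∈ 𝐂[z], ∃ g ∈ 𝐂[z₀], pel ψ g = k)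
    (hP : ∀ t ∈ 𝐂[z₀], t ∈ P₀ ↔ pel ψ t ∈ P) (hs : s₀ ∈ P₀) (e : s₀ * z₀ * s₀⁻¹ = z₀ * x₀) : ∃ s : G,
    ∀ y ∈ ⁅𝐂[z₀] ⊓ 𝐂[x₀], 𝐂[z₀] ⊓ 𝐂[x₀]⁆, s * pel ψ y * s⁻¹ = pel ψ (s₀ * y * s₀⁻¹) := by
  have z0 : z₀ ∈ 𝐂[z₀] := mem_cent1_iff.2 rfl
  have x0 : x₀ ∈ 𝐂[z₀] := mem_cent1_iff.2 T₀.xz
  have x1 : s₀ * x₀ * s₀⁻¹ = x₀ := by rw [T₀.r.ez.comm hs, mul_inv_cancel_right]
  obtain ⟨s, ⟨s1, s2⟩, s3⟩ := T.r.ez.exists_conj_cent (U := pmap ψ (P₀ ⊓ 𝐂[z₀] ⊓ 𝐂[s₀]))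
    (hx ▸ pel_mem_pmap ψ ⟨⟨T₀.r.ez.mem, x0⟩, mem_cent1_comm.1 (conj_eq_iff_mem_cent1.1 x1)⟩)
    (fun y hy => by obtain ⟨t, ht, h1, rfl⟩ := mem_pmap'.1 hy; exact (hP t h1).1 ht.1.1) T.mem' fun hy => by
      obtain ⟨t, ht, h1, h2⟩ := mem_pmap'.1 hy
      rw [hi t h1 h2] at ht
      exact T₀.zx_ne_z (e.symm.trans (conj_eq_iff_mem_cent1.2 (mem_cent1_comm.1 ht.2)))
  have n1 : ∀ t ∈ P₀ ⊓ 𝐂[z₀], ∀ u ∈ P₀, u * t * u⁻¹ ∈ P₀ ⊓ 𝐂[z₀] := fun t ht u hu =>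
    conj_mem_of_mem_normalizer (T₀.r.ez.norm_of_le (U := P₀ ⊓ 𝐂[z₀]) ⟨T₀.r.ez.mem, x0⟩ inf_le_left hu) ht
  have k0 : ∀ t ∈ P₀ ⊓ 𝐂[z₀], s₀ * t * s₀⁻¹ = t → s * pel ψ t * s⁻¹ = pel ψ t := fun t ht e1 =>
    mul_inv_eq_iff_eq_mul.2 (mem_cent_iff'.1 s2 _ (pel_mem_pmap ψ ⟨ht, mem_cent1_comm.1 (conj_eq_iff_mem_cent1.1 e1)⟩))
  have k1 : ∀ t ∈ P₀ ⊓ 𝐂[z₀], s * pel ψ t * s⁻¹ = pel ψ (s₀ * t * s₀⁻¹) := fun t ht => by
    rcases T₀.r.ez.conj_or hs ht.1 with e1 | e1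
    · rw [e1, k0 t ht e1]
    · have := k0 (t * z₀) (mul_mem ht ⟨T₀.mem', z0⟩) (by
        rw [← conj_mul, e1, e, mul_assoc, ← mul_assoc x₀, T₀.xz, mul_assoc, T₀.xsq, mul_one])
      rw [pel_mul ψ ht.2 z0, hz, ← conj_mul, s3, ← T.xz, ← mul_assoc, mul_right_cancel_iff] at this
      rw [e1, pel_mul ψ ht.2 x0, hx, eq_mul_inv_of_mul_eq this, T.r.ez.inv]
  have n2 : ∀ y ∈ 𝐂[z₀] ⊓ 𝐂[x₀], s₀ * y * s₀⁻¹ ∈ 𝐂[z₀] ⊓ 𝐂[x₀] := fun y hy => by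
    rw [← cent_V] at hy ⊢
    exact conj_mem_of_mem_normalizer (normalizer_le_normalizer_centralizer _ (T₀.normV' hs)) hy
  have k2 : ∀ y ∈ 𝐂[z₀] ⊓ 𝐂[x₀], s * pel ψ y * s⁻¹ * (pel ψ (s₀ * y * s₀⁻¹))⁻¹ ∈ zpowers z ⊔ zpowers x := fun y hy => by
    rw [sup_comm, ← T.symm.cent_l, mem_cent_iff']
    rintro u ⟨u1, u2⟩
    obtain ⟨t, ht, rfl⟩ := hj u u2
    have h1 := n1 t ⟨(hP t ht).2 u1, ht⟩ _ (inv_mem hs)
    have h2 := conj_mem_of_mem_normalizer (T₀.cent_norm_r (inv_mem hy)) h1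
    have h3 := k1 _ h1
    have h4 := k1 _ h2
    rw [pel_conj ψ (inv_mem hy).1 h1.2, show s₀ * (y⁻¹ * (s₀⁻¹ * t * s₀⁻¹⁻¹) * y⁻¹⁻¹) * s₀⁻¹ =
      (s₀ * y * s₀⁻¹)⁻¹ * t * (s₀ * y * s₀⁻¹)⁻¹⁻¹ by group, pel_conj ψ (inv_mem (n2 y hy).1) ht, pel_inv ψ hy.1,
      pel_inv ψ (n2 y hy).1] at h4
    rw [show s₀ * (s₀⁻¹ * t * s₀⁻¹⁻¹) * s₀⁻¹ = t by group] at h3
    generalize pel ψ (s₀ * y * s₀⁻¹) = b at h4 ⊢
    calc _ = s * pel ψ y * s⁻¹ * (b⁻¹ * pel ψ t * b⁻¹⁻¹) * b⁻¹ := by group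
      _ = _ := by rw [← h4, ← h3]; group
  have k3 : ∀ y ∈ 𝐂[z₀] ⊓ 𝐂[x₀], pel ψ y ∈ 𝐂[z] ⊓ 𝐂[x] := fun y hy =>
    ⟨hz ▸ pmap_cent1 ψ z0 (pel_mem_pmap ψ hy.1), hx ▸ pmap_cent1 ψ x0 (pel_mem_pmap ψ hy.2)⟩
  let M : Subgroup G₀ :=
    { carrier := {y | y ∈ 𝐂[z₀] ⊓ 𝐂[x₀] ∧ s * pel ψ y * s⁻¹ = pel ψ (s₀ * y * s₀⁻¹)}
      one_mem' := ⟨one_mem _, by simp⟩
      mul_mem' := fun {a b} ha hb => ⟨mul_mem ha.1 hb.1, by
        rw [pel_mul ψ ha.1.1 hb.1.1, ← conj_mul, ← conj_mul, pel_mul ψ (n2 a ha.1).1 (n2 b hb.1).1, ha.2, hb.2]⟩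
      inv_mem' := fun {a} ha => ⟨inv_mem ha.1, by
        rw [pel_inv ψ ha.1.1, ← conj_inv, ← conj_inv, pel_inv ψ (n2 a ha.1).1, ha.2]⟩ }
  refine ⟨s, fun y hy => ((commutator_le (H₃ := M)).2 (fun a ha b hb => ⟨?_, ?_⟩) hy).2⟩
  · exact mul_mem (mul_mem (mul_mem ha hb) (inv_mem ha)) (inv_mem hb)
  · have := Tri.comm_V (k3 _ (n2 a ha)) (k3 _ (n2 b hb)) (k2 a ha) (k2 b hb) T
    rw [inv_mul_cancel_right, inv_mul_cancel_right] at this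
    rw [conjugate_commutatorElement, commutatorElement_def, commutatorElement_def, pel_comm ψ ha.1 hb.1,
      pel_comm ψ (n2 a ha).1 (n2 b hb).1, ← commutatorElement_def, ← commutatorElement_def, ← this,
      conjugate_commutatorElement]

namespace HI
variable {κ : Hs →* G₀} {ι : Hs →* G} {ψ : ↥𝐂[κ zs] →* G} (H : HI κ ι ψ) (h0 : CT κ) (h : CT ι)
include H

theorem pel_io (u : Hs) : pel ψ (κ u) = ι u := by rw [pel_of_mem ψ (Act.iota u).cent, H.io]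

include h0

theorem pel_cent {g : G₀} (hg : g ∈ 𝐂[κ zs]) : pel ψ g ∈ 𝐂[ι zs] := pel_of_mem ψ hg ▸ H.mem_cent h0 _

include h

theorem pel_inj {g k : G₀} (hg : g ∈ 𝐂[κ zs]) (hk : k ∈ 𝐂[κ zs]) (e : pel ψ g = pel ψ k) : g = k := by
  rw [pel_of_mem ψ hg, pel_of_mem ψ hk] at e
  exact congrArg Subtype.val (H.inj h0 h e)

theorem pel_surj {k : G} (hk : k ∈ 𝐂[ι zs]) : ∃ g ∈ 𝐂[κ zs], pel ψ g = k := by
  obtain ⟨g, rfl⟩ := H.surj h0 h hk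
  exact ⟨g, g.2, pel_coe ψ g⟩

theorem exists_s [Finite G₀] [Finite G] {P₀ : Subgroup G₀} (T₀ : Tri κ.range P₀ (κ zs) (κ (dH 1))) {s₀ : G₀}
    (hs : s₀ ∈ P₀) (e : s₀ * κ zs * s₀⁻¹ = κ zs * κ (dH 1)) : ∃ s : G,
    ∀ y ∈ ⁅𝐂[κ zs] ⊓ 𝐂[κ (dH 1)], 𝐂[κ zs] ⊓ 𝐂[κ (dH 1)]⁆, s * pel ψ y * s⁻¹ = pel ψ (s₀ * y * s₀⁻¹) := by
  obtain ⟨-, P, -, -, T⟩ := h.exists_tri
  refine tri_ext T₀ T (H.pel_io _) (H.pel_io _) (fun g hg e => H.pel_inj h0 h hg Act.z.cent (e.trans (H.pel_io _).symm))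
    (fun k hk => H.pel_surj h0 h hk) (fun t ht => ?_) hs e
  obtain ⟨a, -, ha⟩ := h0.ex t ht
  rw [h0.mem_P_iff T₀ ha, pel_of_mem ψ ht, h.mem_P_iff T (H.act ⟨t, ht⟩ a ha)]

end HI

/-! ### The model -/

/-- the octad stabiliser -/
def SM : Subgroup M24 := SO.subgroupOf M24

theorem mem_SM {σ : M24} : σ ∈ SM ↔ apM (code σ) O0 = O0 :=
  mem_subgroupOf.trans (mem_SO.trans ((and_iff_right σ.2).trans
    (smul_fs_eq_iff _ (by decide +kernel) (by decide +kernel))))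

theorem index_SM : SM.index = 759 := by
  have := SM.card_mul_index
  rw [card_M24, SM, Nat.card_congr (subgroupOfEquivOfLe (H := SO) (K := M24) inf_le_left).toEquiv, card_SO] at this
  rw [SM]; omega

theorem inSO_in {c : ℕ} (h : inSO c = true) : inM24 c = true := by
  rw [inSO, Bool.and_eq_true] at h; exact h.1

/-- an element of the octad stabiliser from its code -/
noncomputable def sm {c : ℕ} (h : inSO c = true) : SM := ⟨m24 (inSO_in h), perm_mem_SO h⟩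

theorem code_sm {c : ℕ} (h : inSO c = true) : code (sm h).1 = c := code_m24 (inSO_in h)

theorem m24_ext {σ τ : M24} (h : code σ = code τ) : σ = τ := Subtype.ext (code_inj h)

theorem code_mul' (σ τ : M24) : code (σ * τ : M24) = Gol.mul (code σ) (code τ) := code_mul _ _

def s0C : ℕ := 0xadaf49c8f073c2c2a80289963221a9
theorem s0_in : inM24 s0C = true := by decide +kernel

theorem M24_gen {K : Subgroup M24} (h1 : SM ≤ K) (h2 : m24 s0_in ∈ K) : K = ⊤ := by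
  have k : ∀ {g a b c d : ℕ} (hg : inM24 g = true), (inSO a && inSO b && inSO c && inSO d &&
      Nat.beq g (Gol.mul (Gol.mul (Gol.mul (Gol.mul (Gol.mul (Gol.mul a s0C) b) s0C) c) s0C) d)) = true →
      perm g ∈ K.map M24.subtype := fun {g a b c d} hg h => by
    simp only [Bool.and_eq_true, beq_iff] at h
    refine ⟨m24 hg, ?_, rfl⟩
    rw [show m24 hg = (sm h.1.1.1.1).1 * m24 s0_in * (sm h.1.1.1.2).1 * m24 s0_in * (sm h.1.1.2).1 * m24 s0_in *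
      (sm h.1.2).1 from m24_ext (by simp only [code_mul', code_sm, code_m24]; exact h.2)]
    exact mul_mem (mul_mem (mul_mem (mul_mem (mul_mem (mul_mem (h1 (sm _).2) h2) (h1 (sm _).2)) h2) (h1 (sm _).2)) h2)
      (h1 (sm _).2)
  refine eq_top_iff.2 fun σ _ => (mem_map_iff_mem M24.subtype_injective).1 ((closure_le _).2 ?_ (M24_le_closure σ.2))
  rintro _ (rfl | rfl)
  · exact k (a := 0x2c1ebad2f62458a321b349c1270c22) (b := 0x3db339070b44ca92135a304b285d7)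
      (c := 0x1492a23414b0e15430cf59cb38bae1) (d := 0x19d95452303388b959a97a813088b7) genA_in (by decide +kernel)
  · exact k (a := 0x2c1ebad2f62458a321b349c1270c22) (b := 0xbeb341aeb900f0a594c2244d1962e)
      (c := 0x1a4722a2ca0db642e159a5cfb8825) (d := 0x21ed9b029914d4a9d445d850bc5c3) genB_in (by decide +kernel)

theorem E1_comm {x y : Spor.Co1} (hx : x ∈ E1) (hy : y ∈ E1) : x * y = y * x := by
  obtain ⟨c, hc, rfl⟩ := mem_E1.1 hx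
  obtain ⟨d, hd, rfl⟩ := mem_E1.1 hy
  exact congrArg QuotientGroup.mk (sgC_comm hc hd)

theorem i0_mem_E1 {m : ℕ} (hm : m < 512) (h : tp m = oneC) : i0 (dH m) ∈ E1 := MR.mem_E1 (h ▸ mr_dH hm)

theorem z_mem_E1 : i0 zs ∈ E1 := i0_zs ▸ mr_eps.mem_E1

theorem E1_le_cent : E1 ≤ 𝐂[i0 zs] := fun _ hx => mem_cent1_iff.2 (E1_comm hx z_mem_E1)

theorem pm1_cent {σ : M24} (h : σ ∈ SM) : pm1 σ ∈ 𝐂[i0 zs] := cent_eps.2 ((mr_pm σ).mem_cent.2 (mem_SM.1 h))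

theorem E1_conj {n x : Spor.Co1} (hn : n ∈ N1) (hx : x ∈ E1) : n * x * n⁻¹ ∈ E1 := conj_mem_of_mem_normalizer (E1_normalIn.2 hn) hx

theorem E1_le_comm : E1 ≤ ⁅𝐂[i0 zs] ⊓ 𝐂[i0 (dH 1)], 𝐂[i0 zs] ⊓ 𝐂[i0 (dH 1)]⁆ := by
  have k0 : ∀ {c k : ℕ}, isCode c = true → (hk : inM24 k = true) → (ckJ 0 k 256 256 && ckJ 0 k 1 1) = true →
      ∃ g : Co0, MR g (Nat.xor c (apM k c)) oneC ∧
      (g : Spor.Co1) ∈ ⁅𝐂[i0 zs] ⊓ 𝐂[i0 (dH 1)], 𝐂[i0 zs] ⊓ 𝐂[i0 (dH 1)]⁆ := fun {c k} hc hk h => by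
    rw [Bool.and_eq_true] at h
    have h1 := code_m24 hk ▸ mr_pm (m24 hk)
    have h2 := (mr_sg hc).mem_E1
    have h3 := fs_mem_CW hc
    have h4 := smul_fs (m24 hk).1 (isCode_lt hc)
    rw [code_m24] at h4
    have h5 := h4 ▸ smul_mem_CW (m24 hk).2 h3
    refine ⟨_, mr_sg (isCode_xor hc ((fs_mem_CW_iff (code_m24 hk ▸ apM_lt _ (isCode_lt hc))).1 h5)), ?_⟩
    rw [fs_xor, ← sgC_mul h3 h5, ← h4, ← pmC_conj_sgC _ h3, ← mul_assoc, ← mul_assoc, ← sgC_inv (fs c)]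
    nth_rewrite 1 [sgC_inv]
    exact commutator_mem_commutator (g₁ := ((sgC (fs c) : Co0) : Spor.Co1)) (g₂ := (pmC (m24 hk) : Co0))
      ⟨E1_le_cent h2, mem_cent1_iff.2 (E1_comm h2 (i0_mem_E1 (by norm_num) (by decide +kernel)))⟩
      ⟨conj_eq_iff_mem_cent1.1 (dH_256 ▸ conj_dH h1 (by norm_num) (by norm_num) h.1),
        conj_eq_iff_mem_cent1.1 (conj_dH h1 (by norm_num) (by norm_num) h.2)⟩
  have k : allLt (fun j => force (fld 24 0x715ffc1f6ff491cff71f6ff491cff71f6ff438affe91cff7ffffff1f6ff4d83ff5ffffff j) fun c =>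
      force (fld 24 0xa6acb1afcfa5c78fbbbabdad216fa60f2ea3cdafe638affe0affe7cbdff0c78fbba9bfb3 j) fun d => isCode c &&
      isCode d && isCode (fld 24 basT j) && (eqc (fld 24 basT j) (Nat.xor (Nat.xor c (apM 0x2c0929a8564c6b45b1e869867005d7 c))
      (apM oneC (Nat.xor d (apM 0x8b0949405338d2aad90b7982db80ae d)))) && Nat.beq oneC (Gol.mul oneC oneC))) 12 = true := by
    decide +kernel
  intro x hx
  obtain ⟨c, hc, rfl⟩ := mem_E1.1 hx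
  refine (CW_induction (P := fun c => c ∈ CW ∧ ((sgC c : Co0) : Spor.Co1) ∈ _) ⟨empty_mem_CW, sgC_empty ▸ one_mem _⟩
    (fun s t hs ht => ⟨symmDiff_mem_CW hs.1 ht.1, sgC_mul hs.1 ht.1 ▸ mul_mem hs.2 ht.2⟩) (fun j hj => ?_) hc).2
  have := allLt_iff.1 k j hj
  rw [force_eq, force_eq, Bool.and_eq_true, Bool.and_eq_true, Bool.and_eq_true] at this
  obtain ⟨g, h1, h2⟩ := k0 (k := 0x2c0929a8564c6b45b1e869867005d7) this.1.1.1 (by decide +kernel) (by decide +kernel)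
  obtain ⟨g', h3, h4⟩ := k0 (k := 0x8b0949405338d2aad90b7982db80ae) this.1.1.2 (by decide +kernel) (by decide +kernel)
  exact ⟨bas_mem_CW hj, (mr_sg this.1.2).mk_eq (h1.mul h3) this.2 ▸ mul_mem h2 h4⟩

theorem exists_tri0 : ∃ P, Tri i0.range P (i0 zs) (i0 (dH 1)) ∧ pm1 (m24 s0_in) ∈ P := by
  have hw : inM24 0xb5cee18a11450854816fa858d9c8ca = true := by decide +kernel
  have h1 := code_m24 hw ▸ mr_pm (m24 hw)
  have e := conj_dH h1 (a := 256) (b := 1) (by norm_num) (by norm_num) (by decide +kernel)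
  rw [dH_256] at e
  refine ⟨cj (pm1 (m24 hw)) i0.range, e ▸ ct0.lq.tri (e ▸ ⟨_, rfl⟩) fun e' => absurd (dH_inj (by norm_num) (by norm_num)
    ((i0_inj (e.symm.trans e')).trans dH_256.symm)) (by norm_num), mem_cj'.2 ⟨_, ⟨dH 16, rfl⟩, ?_⟩⟩
  exact eq_mul_inv_of_mul_eq (((code_m24 s0_in ▸ mr_pm (m24 s0_in)).mul h1).mk_eq (h1.mul (mr_dH (by norm_num)))
    (by decide +kernel))

theorem s0_conj : pm1 (m24 s0_in) * i0 zs * (pm1 (m24 s0_in))⁻¹ = i0 zs * i0 (dH 1) := by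
  rw [← map_mul, ← dH_256, ← dH_hm]
  exact conj_dH (code_m24 s0_in ▸ mr_pm (m24 s0_in)) (by norm_num) (by decide) (by decide +kernel)

def mI (i j : ℕ) : ℕ := Nat.add (Nat.add (Nat.pow 2 (Nat.add 4 i)) (Nat.mod j 16)) (Nat.mul 256 (Nat.div j 16))

theorem eqc_land {c d e f : ℕ} (h : eqc (Nat.xor d e) (Nat.xor c f) = true) (k : Nat.land f O0 = Nat.land d O0) :
    (Nat.beq (Nat.land e O0) (Nat.land c O0) || Nat.beq (Nat.xor (Nat.land e O0) O0) (Nat.land c O0)) = true := by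
  have k0 : Nat.land 16777215 O0 = O0 := by decide +kernel
  simp only [eqc, Bool.or_eq_true, beq_iff] at h ⊢
  refine h.imp (fun h => Nat.eq_of_testBit_eq fun i => ?_) fun h => Nat.eq_of_testBit_eq fun i => ?_ <;>
  have h1 := congrArg (·.testBit i) h <;> have h2 := congrArg (·.testBit i) k <;> have h3 := congrArg (·.testBit i) k0 <;>
  simp only [Nat.xor_eq, Nat.land_eq, Nat.testBit_xor, Nat.testBit_and] at h1 h2 h3 ⊢ <;> grind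

theorem inSO_t {i : ℕ} (hi : i < 4) : inSO (tp (mI i 0)) = true :=
  allLt_iff.1 (by decide +kernel : allLt (fun i => inSO (tp (mI i 0))) 4 = true) i hi

theorem h1_step (α : SM →* Spor.Co1) (h : ∀ σ, α σ * (pm1 σ.1)⁻¹ ∈ E1) {i : ℕ} (hi : i < 4) :
    ∃ j < 32, mI i j < 512 ∧ α (sm (inSO_t hi)) = i0 (dH (mI i j)) := by
  have hm : ∀ {c : ℕ} (hc : inSO c = true), ∃ i < 4096, ∃ g, MR g (enc i) c ∧ α (sm hc) = g := fun hc => by
    obtain ⟨c, k, e⟩ := mem_E1.1 (h (sm hc))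
    obtain ⟨i, hi, rfl⟩ := exists_enc k
    exact ⟨i, hi, _, ⟨isCode_enc hi, _, code_sm hc, rfl⟩, eq_mul_of_mul_inv_eq e⟩
  have h0 : α (sm (inSO_t (i := 0) (by norm_num))) ∈ i0.range := by
    obtain ⟨i, hi, g, hg, eg⟩ := hm (inSO_t (i := 0) (by norm_num))
    have k0 : ∀ l, (inSO l && Nat.beq (Gol.mul l (tp (mI 0 0))) (Gol.mul (tp (mI 0 0)) l)) = true →
        (Nat.beq (Nat.land (apM l (enc i)) O0) (Nat.land (enc i) O0) ||
          Nat.beq (Nat.xor (Nat.land (apM l (enc i)) O0) O0) (Nat.land (enc i) O0)) = true := fun l hl => by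
      rw [Bool.and_eq_true, beq_iff] at hl
      obtain ⟨j, hj, g', hg', eg'⟩ := hm hl.1
      have := (hg'.mul hg).of_mk_eq (hg.mul hg') (by
        rw [QuotientGroup.mk_mul, QuotientGroup.mk_mul, ← eg, ← eg', ← map_mul, ← map_mul]
        exact congrArg α (Subtype.ext (m24_ext (by simp only [coe_mul, code_mul, code_sm]; exact hl.2))))
      rw [Bool.and_eq_true] at this
      exact eqc_land this.1 (beq_iff.1 (allLt_iff.1 (by decide +kernel : allLt (fun j =>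
        Nat.beq (Nat.land (apM (tp (mI 0 0)) (enc j)) O0) (Nat.land (enc j) O0)) 4096 = true) j hj))
    have k1 : allLt (fun i => force (enc i) fun c => !(
        (Nat.beq (Nat.land (apM 0x759aaaa43365e087ca8b3922619440 c) O0) (Nat.land c O0) ||
          Nat.beq (Nat.xor (Nat.land (apM 0x759aaaa43365e087ca8b3922619440 c) O0) O0) (Nat.land c O0)) &&
        (Nat.beq (Nat.land (apM 0xbcde7320b2a049552e166b00913a23 c) O0) (Nat.land c O0) ||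
          Nat.beq (Nat.xor (Nat.land (apM 0xbcde7320b2a049552e166b00913a23 c) O0) O0) (Nat.land c O0))) ||
        anyLt (fun j => force (mI 0 j) fun m => Nat.blt m 512 && (eqc c (cw m) && Nat.beq (tp (mI 0 0)) (tp m))) 32) 4096 =
        true := by decide +kernel
    have := allLt_iff.1 k1 i hi
    rw [force_eq, k0 _ (by decide +kernel), k0 _ (by decide +kernel)] at this
    obtain ⟨j, -, e⟩ := anyLt_iff.1 this
    rw [force_eq, Bool.and_eq_true, blt_iff] at e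
    exact ⟨_, (eg.trans (hg.mk_eq (mr_dH e.1) e.2)).symm⟩
  have k2 := allLt_iff.1 (by decide +kernel : allLt (fun i => force (fld 120 0xb6a99da2855e4c59cc47d050181c50c12692c7568aca4127463c07895d78c28963dd240d5521dab9d8a6b8801bdab49ca307b9ac5a928398a418820 i) fun k => inSO k &&
    Nat.beq (Gol.mul (tp (mI i 0)) k) (Gol.mul k (tp (mI 0 0))) &&
    allLt (fun m => !(Nat.beq (tp m) (tp (mI i 0))) || anyLt (fun j => Nat.beq m (mI i j)) 32) 512) 4 = true) i hi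
  rw [force_eq, Bool.and_eq_true, Bool.and_eq_true, beq_iff] at k2
  obtain ⟨u, e⟩ : α (sm (inSO_t hi)) ∈ i0.range := by
    rw [show sm (inSO_t hi) = sm k2.1.1 * sm (inSO_t (i := 0) (by norm_num)) * (sm k2.1.1)⁻¹ from eq_mul_inv_of_mul_eq
      (Subtype.ext (m24_ext (by simp only [coe_mul, code_mul, code_sm]; exact k2.1.2))), map_mul, map_mul, map_inv]
    refine conj_mem_of_mem_normalizer (ct0.lq.le_norm ?_) h0
    rw [← inv_mul_cancel_right (α _) (pm1 (sm k2.1.1).1)]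
    exact mul_mem (inv_inv (pm1 _) ▸ E1_le_cent (h _)) (pm1_cent (sm _).2)
  obtain ⟨m, hm', rfl⟩ := dH_surj u
  obtain ⟨_, -, g, hg, eg⟩ := hm (inSO_t hi)
  have k3 := (mr_dH hm').of_mk_eq hg (e.trans eg)
  have k4 := allLt_iff.1 k2.2 m hm'
  rw [Bool.and_eq_true] at k3
  rw [k3.2] at k4
  obtain ⟨j, hj, e1⟩ := anyLt_iff.1 k4
  exact ⟨j, hj, beq_iff.1 e1 ▸ hm', beq_iff.1 e1 ▸ e.symm⟩

theorem h1_SM (α : SM →* Spor.Co1) (h : ∀ σ, α σ * (pm1 σ.1)⁻¹ ∈ E1) : ∃ a ∈ E1, ∀ σ, a * α σ * a⁻¹ = pm1 σ.1 := by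
  choose j hj hm e using fun i hi => h1_step α h (i := i) hi
  have k0 := allLt_iff.1 (by decide +kernel : allLt (fun i => Nat.beq (Gol.mul (tp (mI i 0)) (tp (mI i 0))) oneC &&
    (eqc 0 (cw (mI i 0)) && Nat.blt (mI i 0) 512) &&
    allLt (fun j => Nat.beq (Gol.mul (tp (mI i 0)) (tp (mI j 0))) (Gol.mul (tp (mI j 0)) (tp (mI i 0)))) 4) 4 = true)
  simp only [Bool.and_eq_true, beq_iff, allLt_iff, blt_iff] at k0
  have q : ∀ i hi, qC (mI i (j i hi)) = false := fun i hi => by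
    rw [← bz_eq_zero, ← Q_d8, ← dH_v, ← hs_sq_iff]
    refine i0_inj ?_
    rw [map_mul, ← e, ← map_mul, map_one, ← map_one α]
    exact congrArg α (Subtype.ext (m24_ext (by simp only [coe_mul, code_mul, code_sm]; exact (k0 i hi).1.1.trans code_one.symm)))
  have b : ∀ i hi k hk, bC (mI i (j i hi)) (mI k (j k hk)) = false := fun i hi k hk => by
    rw [← bz_eq_zero, ← B_d8, ← dH_v, ← dH_v, ← hs_comm_iff]
    refine i0_inj ?_
    rw [map_mul, map_mul, ← e, ← e, ← map_mul, ← map_mul]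
    exact congrArg α (Subtype.ext (m24_ext (by simp only [coe_mul, code_mul, code_sm]; exact (k0 i hi).2 k hk)))
  have k1 : allLt (fun a => force (mI 0 a) fun m0 => qC m0 || allLt (fun b => force (mI 1 b) fun m1 => qC m1 || bC m0 m1 ||
      allLt (fun c => force (mI 2 c) fun m2 => qC m2 || bC m0 m2 || bC m1 m2 || allLt (fun d => force (mI 3 d) fun m3 =>
      qC m3 || bC m0 m3 || bC m1 m3 || bC m2 m3 || force (Nat.xor
        (Nat.xor (xorSel 0x5d14400000000000000000000000000b540c9d4006cc040d000000 m0 9)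
          (xorSel 0x31135000000000000000000000000075d3d78ea003000000000000 m1 9))
        (Nat.xor (xorSel 0x3da100000000000000000000000000a96009000000000000000000 m2 9)
          (xorSel 0x5481d0000000000000000000000000000000000000000000000000 m3 9))) fun a => isCode a &&
        (ckJ a oneC m0 (mI 0 0) && ckJ a oneC m1 (mI 1 0) && ckJ a oneC m2 (mI 2 0) && ckJ a oneC m3 (mI 3 0)))
      32) 32) 32) 32 = true := by decide +kernel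
  have k2 := allLt_iff.1 k1 _ (hj 0 (by norm_num))
  rw [force_eq, q, Bool.false_or] at k2
  replace k2 := allLt_iff.1 k2 _ (hj 1 (by norm_num))
  rw [force_eq, q, b, Bool.false_or, Bool.false_or] at k2
  replace k2 := allLt_iff.1 k2 _ (hj 2 (by norm_num))
  rw [force_eq, q, b, b, Bool.false_or, Bool.false_or, Bool.false_or] at k2
  replace k2 := allLt_iff.1 k2 _ (hj 3 (by norm_num))
  rw [force_eq, q, b, b, b, Bool.false_or, Bool.false_or, Bool.false_or, Bool.false_or, force_eq, Bool.and_eq_true] at k2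
  obtain ⟨a, ha, k3⟩ : ∃ a ∈ E1, ∀ i (hi : i < 4), a * α (sm (inSO_t hi)) * a⁻¹ = i0 (dH (mI i 0)) := by
    refine ⟨_, (mr_sg k2.1).mem_E1, fun i hi => e i hi ▸ conj_dH (mr_sg k2.1) (hm i hi) (k0 i hi).1.2.2 ?_⟩
    simp only [Bool.and_eq_true] at k2
    interval_cases i
    exacts [k2.2.1.1.1, k2.2.1.1.2, k2.2.1.2, k2.2.2]
  clear k1 k2 q b e hm hj j
  obtain ⟨β, hβ⟩ : ∃ β : SM →* Spor.Co1, ∀ σ, β σ = a * α σ * a⁻¹ := ⟨(MulAut.conj a).toMonoidHom.comp α, fun _ => rfl⟩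
  refine ⟨a, ha, ?_⟩
  simp only [← hβ] at k3 ⊢
  have h1 : ∀ σ, β σ * (pm1 σ.1)⁻¹ ∈ E1 := fun σ => by
    rw [hβ, show a * α σ * a⁻¹ * (pm1 σ.1)⁻¹ = a * (α σ * (pm1 σ.1)⁻¹) * (pm1 σ.1 * a⁻¹ * (pm1 σ.1)⁻¹) by group]
    exact mul_mem (mul_mem ha (h σ)) (E1_conj (pm1_mem _) (inv_mem ha))
  have h2 : ∀ i (hi : i < 4), pm1 (sm (inSO_t hi)).1 = i0 (dH (mI i 0)) := fun i hi =>
    (mr_pm _).mk_eq (mr_dH (k0 i hi).1.2.2) (by rw [(k0 i hi).1.2.1, code_sm, Bool.true_and, beq_iff])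
  have h3 : ∀ τ : SM, pm1 τ.1 ∈ i0.range → β τ = pm1 τ.1 := by
    rintro τ ⟨u, e⟩
    obtain ⟨m, hm, rfl⟩ := dH_surj u
    have k4 := (mr_dH hm).of_mk_eq (mr_pm τ.1) e
    have k5 := allLt_iff.1 (by decide +kernel : allLt (fun m => !(eqc (cw m) 0) ||
      allLt (fun i => !(tb m i) || anyLt (fun k => Nat.beq (mI k 0) (Nat.pow 2 i)) 4) 9) 512 = true) m hm
    rw [Bool.and_eq_true] at k4
    rw [k4.1, Bool.not_true, Bool.false_or] at k5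
    obtain ⟨τ', k6, e'⟩ := dH_mem (K := ((β.eqLocus (pm1.comp SM.subtype)).map (pm1.comp SM.subtype)).comap i0) hm
      fun i hi h => by
        have := allLt_iff.1 k5 i hi
        rw [h] at this
        obtain ⟨k, hk, e⟩ := anyLt_iff.1 this
        exact ⟨_, (k3 k hk).trans (h2 k hk).symm, beq_iff.1 e ▸ h2 k hk⟩
    exact (Subtype.ext (pm1_injective (e'.trans e)) : τ' = τ) ▸ k6
  have h4 : ∀ σ, β σ * (pm1 σ.1)⁻¹ ∈ 𝐂(i0.range) := fun σ => mem_cent_iff'.2 (by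
    rintro _ ⟨u, rfl⟩
    refine mem_cent1_iff.1 (mem_cent1_comm.1 (hs_gen (K := (𝐂[β σ * (pm1 σ.1)⁻¹]).comap i0) (fun i hi => ?_) u))
    rcases Bool.or_eq_true_iff.1 (allLt_iff.1 (by decide +kernel : allLt (fun i => Nat.beq (tp (Nat.pow 2 i)) oneC ||
      anyLt (fun k => Nat.beq (mI k 0) (Nat.pow 2 i)) 4) 9 = true) i hi) with e | e
    · exact mem_cent1_iff.2 (E1_comm (i0_mem_E1 (Nat.pow_lt_pow_right (n := 9) (by norm_num) hi) (beq_iff.1 e)) (h1 σ))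
    · obtain ⟨k, hk, e⟩ := anyLt_iff.1 e
      have := h3 (σ⁻¹ * sm (inSO_t hk) * σ⁻¹⁻¹) (by
        rw [coe_mul, coe_mul, map_mul, map_mul, coe_inv _ σ⁻¹, map_inv, h2 k hk]
        exact conj_mem_of_mem_normalizer (ct0.lq.le_norm (pm1_cent σ⁻¹.2)) ⟨_, rfl⟩)
      rw [inv_inv, coe_mul, coe_mul, map_mul, map_mul, map_mul, map_mul, h2 k hk, k3 k hk, coe_inv, map_inv, map_inv] at this
      rw [mem_comap, ← beq_iff.1 e, mem_cent1_iff]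
      calc _ = β σ * ((β σ)⁻¹ * i0 (dH (mI k 0)) * β σ) * (pm1 σ.1)⁻¹ := by group
        _ = _ := by rw [this]; group)
  have h5 : SO ≤ ((β.eqLocus (pm1.comp SM.subtype)).map SM.subtype).map M24.subtype := by
    refine SO_le fun g hg h3 => ⟨⟨g, hg.1⟩, ⟨⟨⟨g, hg.1⟩, hg⟩, (cent_i0 (h4 _)).elim mul_inv_eq_one.1 fun e => ?_, rfl⟩, rfl⟩
    have e1 : (⟨⟨g, hg.1⟩, hg⟩ : SM) ^ 3 = 1 := Subtype.ext (Subtype.ext (h3 ▸ pow_orderOf_eq_one g))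
    generalize (⟨⟨g, hg.1⟩, hg⟩ : SM) = σ at e e1
    have e2 := congrArg β e1
    rw [map_pow, eq_mul_of_mul_inv_eq e, Commute.mul_pow (mem_cent1_iff.1 (pm1_cent σ.2)).symm, ← map_pow pm1,
      ← coe_pow, e1, coe_one, map_one, map_one, mul_one, pow_succ, _root_.sq, CT.z_sq, one_mul] at e2
    exact absurd e2 ct0.z_ne
  intro σ
  obtain ⟨_, ⟨τ, k4, rfl⟩, e⟩ := h5 σ.2
  exact (Subtype.ext (Subtype.ext e) : τ = σ) ▸ k4

theorem CT.exists_chi [Finite G] {ι : Hs →* G} {ψ : ↥𝐂[i0 zs] →* G} (h : CT ι) (H : HI i0 ι ψ) :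
    ∃ χ : N1 →* G, ∀ n : N1, n.1 ∈ 𝐂[i0 zs] → χ n = pel ψ n := by
  let Γ : Subgroup (G × M24) :=
    { carrier := {p | ∀ e ∈ E1, p.1 * pel ψ e * p.1⁻¹ = pel ψ (pm1 p.2 * e * (pm1 p.2)⁻¹)}
      one_mem' := fun e _ => by simp
      mul_mem' := fun {a b} ha hb e he => by
        rw [Prod.fst_mul, Prod.snd_mul, map_mul, show a.1 * b.1 * pel ψ e * (a.1 * b.1)⁻¹ =
          a.1 * (b.1 * pel ψ e * b.1⁻¹) * a.1⁻¹ by group, hb e he, ha _ (E1_conj (pm1_mem _) he)]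
        congr 1; group
      inv_mem' := fun {a} ha e he => by
        have := ha _ (E1_conj (inv_mem (pm1_mem a.2)) he)
        rw [Prod.fst_inv, Prod.snd_inv, map_inv, ← conj_inv_of this, inv_inv]
        congr 3; group }
  have m1 : ∀ g ∈ 𝐂[i0 zs], ∀ σ : M24, g * (pm1 σ)⁻¹ ∈ E1 → (pel ψ g, σ) ∈ Γ := fun g hg σ k e he => by
    rw [← pel_conj ψ hg (E1_le_cent he), show g * e * g⁻¹ = g * (pm1 σ)⁻¹ * (pm1 σ * e * (pm1 σ)⁻¹) * (g * (pm1 σ)⁻¹)⁻¹ by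
      group, E1_comm k (E1_conj (pm1_mem σ) he), mul_inv_cancel_right]
  have m2 : ∀ p ∈ Γ, p.2 ∈ SM → ∃ g ∈ 𝐂[i0 zs], pel ψ g = p.1 ∧ g * (pm1 p.2)⁻¹ ∈ E1 := fun p hp k => by
    have k1 := pm1_cent k
    obtain ⟨g, hg, e⟩ := H.pel_surj ct0 h (k := p.1) (conj_eq_iff_mem_cent1.1 (by
      rw [← H.pel_io, hp _ z_mem_E1, conj_eq_iff_mem_cent1.2 k1]))
    have k2 : (pm1 p.2)⁻¹ * g ∈ E1 := mem_E1_of_cent (mul_mem (inv_mem k1) hg) fun i hi => by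
      have k3 := i0_mem_E1 (Nat.pow_lt_pow_right (n := 9) (by norm_num) (by omega))
        (beq_iff.1 (allLt_iff.1 (by decide +kernel : allLt (fun i => Nat.beq (tp (Nat.pow 2 i)) oneC) 4 = true) i hi))
      have k4 := hp _ k3
      rw [← e, ← pel_conj ψ hg (E1_le_cent k3)] at k4
      rw [← conj_eq_iff_mem_cent1, mul_inv_rev, ← mul_assoc, mul_assoc _ g, mul_assoc _ (g * _), H.pel_inj ct0 h
        (mul_mem (mul_mem hg (E1_le_cent k3)) (inv_mem hg)) (E1_le_cent (E1_conj (pm1_mem _) k3)) k4]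
      group
    exact ⟨g, hg, e, by simpa [mul_assoc] using E1_conj (pm1_mem p.2) k2⟩
  let π : Γ →* M24 := (MonoidHom.snd _ _).comp Γ.subtype
  have m3 : ∀ x : π.ker, ∃ g ∈ E1, x.1.1 = (pel ψ g, 1) := fun x => by
    obtain ⟨g, -, e, k⟩ := m2 _ x.1.2 ((show x.1.1.2 = 1 from x.2) ▸ one_mem _)
    rw [show x.1.1.2 = 1 from x.2, map_one, inv_one, mul_one] at k
    exact ⟨g, k, Prod.ext e.symm x.2⟩
  haveI : IsMulCommutative π.ker := ⟨⟨fun x y => Subtype.ext (Subtype.ext (by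
    obtain ⟨g, hg, e⟩ := m3 x
    obtain ⟨k, hk, e'⟩ := m3 y
    simp only [coe_mul, e, e', Prod.mk_mul_mk, ← pel_mul ψ (E1_le_cent hg) (E1_le_cent hk),
      ← pel_mul ψ (E1_le_cent hk) (E1_le_cent hg), E1_comm hg hk]))⟩⟩
  obtain ⟨n, hn⟩ := IsPGroup.iff_card.1 (show IsPGroup 2 π.ker from fun x => ⟨1, Subtype.ext (Subtype.ext (by
    obtain ⟨g, hg, e⟩ := m3 x
    simp only [pow_one, _root_.sq, coe_mul, e, Prod.mk_mul_mk, ← pel_mul ψ (E1_le_cent hg) (E1_le_cent hg), E1_sq hg,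
      pel_one, mul_one]
    rfl))⟩)
  have m4 : ∀ σ : SM, (pel ψ (pm1 σ.1), σ.1) ∈ Γ := fun σ => m1 _ (pm1_cent σ.2) _ (by rw [mul_inv_cancel]; exact one_mem _)
  obtain ⟨κ, hκ⟩ := exists_section (π := π) (MonoidHom.range_eq_top.1 (M24_gen (fun σ hσ => ⟨⟨_, m4 ⟨σ, hσ⟩⟩, rfl⟩) (by
      obtain ⟨P, T, hs⟩ := exists_tri0
      obtain ⟨s, e⟩ := H.exists_s ct0 h T hs s0_conj
      exact ⟨⟨(s, _), fun y hy => e y (E1_le_comm hy)⟩, rfl⟩))) (S := SM)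
    (by rw [hn, index_SM]; exact Nat.Coprime.pow_left _ (by norm_num))
    (MonoidHom.mk' (fun σ => ⟨_, m4 σ⟩) fun σ τ => Subtype.ext (Prod.ext
      ((congrArg _ (map_mul pm1 σ.1 τ.1)).trans (pel_mul ψ (pm1_cent σ.2) (pm1_cent τ.2))) rfl)) fun _ => rfl
  replace hκ : ∀ σ, (κ σ).1.2 = σ := hκ
  choose α a1 a2 a3 using fun σ : SM => m2 _ (κ σ).2 ((hκ σ).symm ▸ σ.2)
  simp only [hκ] at a3
  obtain ⟨a, ha, e⟩ := h1_SM (MonoidHom.mk' α fun σ τ => H.pel_inj ct0 h (a1 _) (mul_mem (a1 _) (a1 _)) (by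
    rw [pel_mul ψ (a1 _) (a1 _), a2, a2, a2, coe_mul, map_mul]; rfl)) a3
  obtain ⟨κ', k1, k2⟩ : ∃ κ' : M24 →* G, (∀ σ, (κ' σ, σ) ∈ Γ) ∧ ∀ σ ∈ SM, κ' σ = pel ψ (pm1 σ) := by
    refine ⟨(MulAut.conj (pel ψ a)).toMonoidHom.comp (((MonoidHom.fst _ _).comp Γ.subtype).comp κ), fun σ => ?_, fun σ hσ => ?_⟩
    · have k1 := m1 a (E1_le_cent ha) 1 (by simpa using ha)
      have := mul_mem (mul_mem k1 (κ σ).2) (inv_mem k1)
      rwa [show (pel ψ a, (1 : M24)) * (κ σ).1 * (pel ψ a, 1)⁻¹ = (pel ψ a * (κ σ).1.1 * (pel ψ a)⁻¹, σ) from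
        Prod.ext rfl (by simp [hκ])] at this
    · rw [← e ⟨σ, hσ⟩, MonoidHom.mk'_apply, pel_conj ψ (E1_le_cent ha) (a1 _), a2]; rfl
  have k3 : ∀ n : N1, n.1 * (pm1 (rho n))⁻¹ ∈ E1 := fun n => mem_pker.2 ⟨mul_mem n.2 (inv_mem (pm1_mem _)), by
    rw [pel_mul rho n.2 (inv_mem (pm1_mem _)), pel_inv rho (pm1_mem _), pel_rho_pm1, pel_coe, mul_inv_cancel]⟩
  refine ⟨MonoidHom.mk' (fun n => pel ψ (n.1 * (pm1 (rho n))⁻¹) * κ' (rho n)) fun a b => ?_, fun n hn => ?_⟩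
  · rw [map_mul, map_mul, map_mul, coe_mul, show a.1 * b.1 * (pm1 (rho a) * pm1 (rho b))⁻¹ = a.1 * (pm1 (rho a))⁻¹ *
      (pm1 (rho a) * (b.1 * (pm1 (rho b))⁻¹) * (pm1 (rho a))⁻¹) by group,
      pel_mul ψ (E1_le_cent (k3 a)) (E1_le_cent (E1_conj (pm1_mem _) (k3 b))), ← k1 _ _ (k3 b)]
    group
  · have k4 : pm1 (rho n) ∈ 𝐂[i0 zs] := by
      simpa using mul_mem (inv_mem (E1_le_cent (k3 n))) hn
    rw [MonoidHom.mk'_apply, k2 _ (mem_SM.2 ((mr_pm _).mem_cent.1 (cent_eps.1 k4))), ← pel_mul ψ (E1_le_cent (k3 n)) k4,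
      inv_mul_cancel_right]

end CA.Co
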