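import Cfsg.Agent.Lib.Co.CT8

/-!
Groups of Conway type are isomorphic to `Co1`.
-/

set_option autoImplicit false

namespace CA.Co
open Cfsg CA.Gol CA CA.Ex2 Subgroup
open scoped Matrix Pointwise

theorem lev_eq_zero {g : Co0} : lev g = 0 ↔ g ∈ N0 := by
  rw [lev]
  split_ifs with h
  · simp [h]
  · simp only [h, iff_false, lvv, lvk]
    split_ifs <;> norm_num

theorem rw6_zero : wE (rw6 0) ∈ N0 := lev_eq_zero.1 ((lev_rw6 (by norm_num)).trans (by decide +kernel))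

theorem rw6_one : (wE (rw6 1))⁻¹ * eta ∈ N0 :=
  mem_N0_of_cg (Cg.of_eq (by rw [eta_E8, rw6_E8 (by norm_num)]; exact congrArg vec (by decide +kernel)))

theorem lev_eta : lev eta = 1 := by
  rw [← mul_inv_cancel_left (wE (rw6 1)) eta, lev_right rw6_one, lev_rw6 (by norm_num)]; decide +kernel

namespace CV
variable {P : Type*} [Group P] {δ : N0 →* P} {e : P} {π : P →* Co0} (H : CV δ e π)
include H

theorem map_eq : (δ.range ⊔ zpowers e).map π = ⊤ := by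
  rw [Subgroup.map_sup, MonoidHom.map_zpowers, H.pe, ← co0_gen, MonoidHom.map_range,
    show π.comp δ = N0.subtype from MonoidHom.ext H.pd, range_subtype]

theorem all_Y (g : Co0) : InY g := by
  have k : ∀ g, InY g → InY (g * eta) := by
    rintro _ ⟨j, hj, n, hn, n', hn', rfl⟩
    rcases Nat.eq_zero_or_pos j with rfl | h0
    · exact ⟨1, by norm_num, _, mul_mem (mul_mem hn rw6_zero) hn', _, rw6_one, by group⟩
    · obtain ⟨γ, -, hγ⟩ := H.map_eq.ge (mem_top (wE (rw6 j)))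
      obtain ⟨_, h⟩ := H.rep_all h0 hj hγ
      simpa only [hγ, mul_assoc, mul_one] using (h ⟨n', hn'⟩).1.mul hn (one_mem _)
  have hg := co0_gen.ge (mem_top g)
  rw [← closure_eq N0, zpowers_eq_closure, ← Subgroup.closure_union] at hg
  induction hg using closure_induction_right with
  | one => exact ⟨0, by norm_num, _, inv_mem rw6_zero, 1, one_mem _, by group⟩
  | mul_right x _ y hy ih =>
    rcases hy with hy | rfl
    · simpa using ih.mul (one_mem _) hy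
    · exact k x ih
  | mul_inv_cancel x _ y hy ih =>
    rcases hy with hy | rfl
    · simpa using ih.mul (one_mem _) (inv_mem hy)
    · exact eta_inv.symm ▸ k x ih

theorem mem_range {γ : P} (hγ : γ ∈ δ.range ⊔ zpowers e) (h : π γ ∈ N0) : γ ∈ δ.range := by
  refine cover (l := fun γ => lev (π γ)) H.sq (fun γ n => by rw [map_mul, H.pd, lev_right n.2]) (fun n a => ?_)
    (fun γ a b h1 h2 => ?_) hγ (lev_eq_zero.2 h)
  · rw [H.pi3, H.pd, lev_left (mul_mem n.2 a.2), lev_eta, lev_eq_zero.2 n.2]; norm_num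
  obtain ⟨j, hj, n, hn, n', hn', e1⟩ := H.all_Y (π γ)
  rcases Nat.eq_zero_or_pos j with rfl | h0
  · rw [(lev_eq_zero (g := π γ)).2 (e1 ▸ mul_mem (mul_mem hn rw6_zero) hn')] at h1; omega
  have e2 : π (δ ⟨n, hn⟩⁻¹ * γ * δ ⟨n', hn'⟩⁻¹) = n⁻¹ * π γ * n'⁻¹ := by rw [map_mul, map_mul, H.pd, H.pd]; rfl
  obtain ⟨a0, k⟩ := H.rep_all h0 hj (e2.trans (by rw [e1]; group))
  generalize δ ⟨n, hn⟩⁻¹ * γ * δ ⟨n', hn'⟩⁻¹ = γ0 at e2 k
  have e3 : lev (π γ0) = lev (π γ) := by rw [e2, lev_right (inv_mem hn'), lev_left (inv_mem hn)]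
  have e4 : ∀ c : N0, lev (π (γ0 * δ (⟨n', hn'⟩ * c) * e)) = lev (π (γ * δ c * e)) := fun c => by
    rw [H.pi3, H.pi3, e2, ← lev_left hn, coe_mul]; congr 1; group
  have k1 : ∀ c : N0, lev (π (γ * δ c * e)) ≤ lev (π γ) → Rch δ e (fun γ => lev (π γ)) γ0 a0 (⟨n', hn'⟩ * c) :=
    fun c hc => (k _).2 (by rw [← H.pi3, e4, e3]; exact hc)
  have k2 : Rch δ e (fun γ => lev (π γ)) γ0 _ _ :=
    ((k1 a h1.le).symm H.sq (by simpa only [e4, e3] using h1)).trans (k1 b h2)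
  simpa only [inv_mul_cancel_left] using Rch.map k2 (s := (⟨n', hn'⟩ : N0)⁻¹) (γ' := γ) e3.symm fun c => by
    simpa only [mul_inv_cancel_left] using (e4 ((⟨n', hn'⟩ : N0)⁻¹ * c)).symm

end CV

theorem mi_cent {c q : ℕ} (h : (okM c q && Nat.beq (apM q O0) O0) = true) : mi c q ∈ 𝐂[eps] := by
  simp only [okM, Bool.and_eq_true, beq_iff] at h
  rw [mi, dif_pos h.1.2, coN, map_inv]
  exact mul_mem (sgC_mem_cent (fs_mem_CW h.1.1)) (inv_mem ((mr_pm _).mem_cent.2 (by rw [code_m24]; exact h.2)))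

theorem hj_tri {j : ℕ} (hj : j < 2) : mi (hC j) (hQ j) ∈ 𝐂[eps] ∧ ∃ m ∈ N0, m ∈ 𝐂[eps] ∧
    (m * eta)⁻¹ * (eta * mi (hC j) (hQ j) * eta) ∈ N0 := by
  have k := allLt_iff.1 (by decide +kernel : allLt (fun j => (okM (hC j) (hQ j) && Nat.beq (apM (hQ j) O0) O0) &&
    force (fld 24 0xa181c86f79f8 j) fun c =>
    force (fld 120 0x1d1f33200b48a0aa9256634272ddd189a7051dc860492b26af5b41410cb7 j) fun q =>
    (okM c q && Nat.beq (apM q O0) O0) && pk (repM XM (fld 192 VJ j)) fun W => pk (repN c q V0) (cgP W)) 2 = true) j hj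
  rw [force_eq, force_eq, Bool.and_eq_true] at k
  replace k := And.intro k.1 (Bool.and_eq_true_iff.1 k.2)
  have k1 := mi_spec (Bool.and_eq_true_iff.1 k.2.1).1
  obtain ⟨W, h1, h2⟩ := rep_eta.pk (hj_spec hj).2 k.2.2
  obtain ⟨W', h3, h4⟩ := k1.2.pk eta_E8 h1
  exact ⟨mi_cent k.1, _, k1.1, mi_cent k.2.1, mem_N0_of_cg (by rw [mul_smul, mul_smul, mul_smul, h2, h4]; exact cgP_spec h3)⟩

variable {G : Type*} [Group G] [Finite G] {ι : Hs →* G}

theorem CT.exists_hom {ψ : ↥𝐂[i0 zs] →* G} (h : CT ι) (H : HI i0 ι ψ) : ∃ θ : Spor.Co1 →* G, ∀ u, θ (i0 u) = ι u := by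
  obtain ⟨χ, hχ⟩ := h.exists_chi H
  replace hχ : ∀ n ∈ N1, n ∈ 𝐂[i0 zs] → pel χ n = pel ψ n := fun n hn k => (pel_of_mem χ hn).trans (hχ ⟨n, hn⟩ k)
  let φ : N0 →* G := MonoidHom.mk' (fun n => pel χ (n.1 : Spor.Co1)) fun a b =>
    pel_mul χ (mk_mem_N1.2 a.2) (mk_mem_N1.2 b.2)
  have c0 := et1_cent
  have V : CV (N0.subtype.prod φ) (eta, pel ψ et1) (MonoidHom.fst _ _) :=
    ⟨Prod.ext eta_sq (by rw [Prod.snd_mul, ← pel_mul ψ c0 c0, et1_sq, pel_one]; rfl), fun _ => rfl, rfl,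
      fun k hk => ⟨⟨_, hk⟩, Prod.ext rfl (chi_eta h H hχ (mk_mem_N1.2 k.2) (mk_mem_N1.2 hk))⟩, fun j hj => by
        obtain ⟨h1, m, h2, h3, h4⟩ := hj_tri hj
        refine Or.inr ⟨⟨m, h2⟩, ⟨_, h4⟩, Prod.ext (mul_inv_cancel_left _ _).symm ?_⟩
        have h5 := cent_eps.2 (mul_mem (inv_mem (mul_mem h3 eta_cent)) (mul_mem (mul_mem eta_cent h1) eta_cent))
        have h6 := cent_eps.2 h3
        have h7 := cent_eps.2 h1
        show pel ψ et1 * pel χ _ * pel ψ et1 = pel χ _ * pel ψ et1 * pel χ _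
        rw [hχ _ (mk_mem_N1.2 (hj_spec hj).1) h7, hχ _ (mk_mem_N1.2 h2) h6, hχ _ (mk_mem_N1.2 h4) h5, ← pel_mul ψ c0 h7,
          ← pel_mul ψ (mul_mem c0 h7) c0, ← pel_mul ψ h6 c0, ← pel_mul ψ (mul_mem h6 c0) h5]
        exact congrArg (fun x : Co0 => pel ψ x) (mul_inv_cancel_left (m * eta) _).symm⟩
  let E := MulEquiv.ofBijective ((MonoidHom.fst Co0 G).comp ((N0.subtype.prod φ).range ⊔ zpowers (eta, pel ψ et1)).subtype)
    ⟨(injective_iff_map_eq_one _).2 fun x hx => by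
      obtain ⟨n, e⟩ := V.mem_range x.2 ((show MonoidHom.fst _ _ x.1 = 1 from hx) ▸ one_mem _)
      exact Subtype.ext (by rw [← e, show n = 1 from Subtype.ext ((congrArg Prod.fst e).trans hx), map_one]; rfl),
    fun g => by obtain ⟨γ, h1, h2⟩ := V.map_eq.ge (mem_top g); exact ⟨⟨γ, h1⟩, h2⟩⟩
  let θ : Co0 →* G := ((MonoidHom.snd Co0 G).comp (Subgroup.subtype _)).comp E.symm.toMonoidHom
  have hθ : ∀ n ∈ N0, θ n = pel χ (n : Spor.Co1) := fun n hn =>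
    congrArg (·.1.2) (E.symm_apply_apply ⟨_, mem_sup_left ⟨⟨n, hn⟩, rfl⟩⟩)
  refine ⟨QuotientGroup.lift _ θ fun g hg => ?_, fun u => ?_⟩
  · have := mem_center_iff.1 hg
    rw [MonoidHom.mem_ker, hθ g (mk_mem_N1.1 (mk_eq_one_iff.2 this ▸ one_mem _)), mk_eq_one_iff.2 this, pel_one]
  · exact (hθ _ (mk_mem_N1.1 (i0_mem_N1 u))).trans ((hχ _ (i0_mem_N1 u) (Act.iota u).cent).trans (H.pel_io u))

/-- **Recognition of `Co1`.** -/
theorem CT.exists_equiv (h : CT ι) : ∃ e : Spor.Co1 ≃* G, e (i0 zs) = ι zs ∧ i0.range.map e.toMonoidHom = ι.range := by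
  obtain ⟨ι, e1, e2, h, ψ, H⟩ := h.exists_hi
  obtain ⟨θ, hθ⟩ := h.exists_hom H
  have k1 : θ.ker ⊓ 𝐂[i0 zs] = ⊥ := eq_bot_iff.2 fun g hg => by
    obtain ⟨a, -, ha⟩ := ct0.ex g hg.2
    obtain rfl : a = 1 := MulEquiv.ext fun u => h.inj (by
      have := congrArg θ (ha u)
      rwa [map_mul, map_mul, map_inv, show θ g = 1 from hg.1, hθ, hθ, one_mul, inv_one, mul_one, eq_comm] at this)
    exact (ct0.ker g ha).resolve_right fun e => h.z_ne (by rw [← hθ, ← e]; exact hg.1)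
  have k2 : Function.Injective θ := by
    obtain ⟨g, x, e, hx⟩ := ct0.nwc
    refine θ.ker_eq_bot_iff.1 ((ct0.lq.large_of_conj (e ▸ ⟨x, rfl⟩) fun e' => hx (i0_inj (e.symm.trans e'))).2.2.2 _
      (Nat.not_even_iff_odd.1 fun h2 => ?_) (by rw [normalizer_eq_top]; exact le_top))
    obtain ⟨y, hy⟩ := exists_prime_orderOf_dvd_card' 2 (even_iff_two_dvd.1 h2)
    have h3 := inverts_of_fpf CT.z_sq (by rw [normalizer_eq_top]; exact mem_top _) k1 y.1 y.2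
    have h4 : y * y = 1 := by rw [← _root_.sq, ← hy, pow_orderOf_eq_one]
    rw [inv_eq_of_mul_eq_one_right (congrArg Subtype.val h4)] at h3
    rw [show y = 1 from Subtype.ext (mem_bot.1 (k1 ▸ ⟨y.2, mem_cent1_comm.1 (conj_eq_iff_mem_cent1.1 h3)⟩)), orderOf_one] at hy
    omega
  have k3 : (𝐂[i0 zs]).map θ = 𝐂[ι zs] := eq_of_le_of_card_ge (by
    rintro _ ⟨g, hg, rfl⟩
    rw [mem_cent1_iff, ← hθ, ← map_mul, ← map_mul, mem_cent1_iff.1 hg])
    (by rw [card_map_of_injective k2, h.card_cent, ct0.card_cent])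
  have k4 := range_eq_top' k2 (by rw [← eps, ← i0_zs, hθ, ← k3]; exact map_le_range _ _)
  refine ⟨MulEquiv.ofBijective θ ⟨k2, MonoidHom.range_eq_top.1 k4⟩, (hθ _).trans e1, ?_⟩
  rw [← e2, MonoidHom.map_range]
  exact congrArg _ (MonoidHom.ext hθ)

theorem conway_type {z : G} {Q : Subgroup ↥𝐂[z]} [Q.Normal] (hS : IsExtraspecialCentralizerSetting z Q 4)
    (e : ↥𝐂[z] ⧸ Q ≃* Omega (ZMod 2) (quadFormPlus 4 (ZMod 2))) :
    ∃ e : Spor.Co1 ≃* G, e (i0 zs) = z ∧ i0.range.map e.toMonoidHom = Q.map (𝐂[z]).subtype := by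
  obtain ⟨ι, rfl, h1, h⟩ := exists_ct hS e
  exact h1 ▸ h.exists_equiv

end CA.Co
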