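import Cfsg.Agent.Lib.Co.Obj

/-!
Elements inverting an element of `Co0`; counting conjugates of the central involution.
-/

set_option autoImplicit false

namespace CA.Co
open Cfsg CA.Gol CA Subgroup
open scoped Pointwise Matrix

theorem conj_of_N0 {g : Co0} (hg : g ∈ N0) {σ τ : M24} (e : g * pmC σ = pmC τ * g) : ∃ k : M24, k * σ = τ * k := by
  obtain ⟨c, hc, k, rfl⟩ := hg
  have e1 := mono_mul hc empty_mem_CW k σ
  have e2 := mono_mul empty_mem_CW hc τ k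
  rw [sgC_empty, one_mul] at e1 e2
  rw [e1, e2] at e
  exact ⟨k, (mk_mono_inj (symmDiff_mem_CW hc (smul_mem_CW k.2 empty_mem_CW))
    (symmDiff_mem_CW empty_mem_CW (smul_mem_CW τ.2 hc)) (congrArg _ e)).1⟩

theorem inv_fix {β y : Co0} (hy : y * β = β⁻¹ * y) {v : LL} (hv : Cg (β • v : LL) v) :
    Cg (β • y • v : LL) (y • v : LL) := by
  have := (hv.co (β * y)).symm
  rwa [← mul_smul, mul_assoc, hy, mul_inv_cancel_left, mul_smul] at this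

/-- classes obtained from the standard frame by elements inverting `β` -/
def PI (β : Co0) {n : ℕ} (d : Fin n → LL) (m : ℕ) : Prop :=
  ∃ y : Co0, y * β = β⁻¹ * y ∧ kap d (y • E8 (pt 0)) = bits n m

theorem FX.pI {σ : M24} {g : Co0} {n : ℕ} {u d : Fin n → LL} (h : FX (pmC σ) u d) (hg : g ∈ 𝐂[pmC σ]) {m m' : ℕ}
    (e : FX.am u d g *ᵥ bits n m = bits n m') (hm : PI (pmC σ) d m) : PI (pmC σ) d m' := by
  obtain ⟨y, h1, h2⟩ := hm
  refine ⟨g * y, ?_, ?_⟩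
  · rw [mul_assoc, h1, ← mul_assoc, ← mul_assoc, (Commute.inv_right (mem_cent1_iff.1 hg)).eq]
  · rw [mul_smul, h.kap_smul _ (inv_fix h1 ((mem_N0_iff (pt 0) (pt 0)).1 (pmC_mem_N0 σ))), h2, e]

theorem FX.not_pI {σ : M24} {k : Co0} {n : ℕ} {u d : Fin n → LL} (h : FX (pmC σ) u d) (hk : k ∈ 𝐂[pmC σ])
    (hσ : ∀ g : M24, g * σ ≠ σ⁻¹ * g) {m : ℕ} (hm : PI (pmC σ) d m) : kap d (k • E8 (pt 0)) ≠ bits n m := fun e => by
  obtain ⟨y, h1, h2⟩ := hm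
  have h3 := ((h.cg_iff (inv_fix h1 ((mem_N0_iff (pt 0) (pt 0)).1 (pmC_mem_N0 σ))) (fix_co_E8 hk)).2
    (h2.trans e.symm)).co k⁻¹
  rw [inv_smul_smul, ← mul_smul] at h3
  obtain ⟨g, hg⟩ := conj_of_N0 ((mem_N0_iff (pt 0) (pt 0)).2 h3) (σ := σ) (τ := σ⁻¹) (by
    rw [mul_assoc, h1, map_inv, ← mul_assoc, ← mul_assoc, (Commute.inv_inv (mem_cent1_iff.1 hk)).eq])
  exact hσ g hg

theorem co_ext_gen {g h : Co0} (e : ∀ k < 37, ∀ v : LL, (v : ZV) = vec (fld 192 genV k) →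
    ((g • v : LL) : ZV) = (h • v : LL)) : g = h := co_ext fun v => by
  obtain ⟨w, hw, e'⟩ := leech_le_gen (H := ((coHom g).eqLocus (coHom h)).map leechLattice.subtype)
    (fun k hk => ⟨⟨_, genV_mem hk⟩, Subtype.ext (e k hk _ rfl), rfl⟩) v.2
  obtain rfl : w = v := Subtype.ext e'
  exact hw

/-- check of an equation between products -/
def ckE (F1 F2 F3 F4 : ℕ → ℕ → ℤ) : Bool := allLt (fun k => force (fld 192 genV k) fun U =>
  pk (F2 U) fun W => pk (F4 U) fun X => allLt (fun i => decide (F1 W i = F3 X i)) 24) 37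

theorem mul_eq_of_rep {g1 g2 g3 g4 : Co0} {F1 F2 F3 F4 : ℕ → ℕ → ℤ} (h1 : Rep g1 F1) (h2 : Rep g2 F2)
    (h3 : Rep g3 F3) (h4 : Rep g4 F4) (h : ckE F1 F2 F3 F4 = true) : g1 * g2 = g3 * g4 :=
  co_ext_gen fun k hk v hv => by
    have := allLt_iff.1 h k hk
    rw [force_eq] at this
    obtain ⟨W, a1, a2⟩ := pk_spec this
    obtain ⟨X, a3, a4⟩ := pk_spec a1
    rw [h1.mul h2 hv a2, h3.mul h4 hv a4]
    exact funext fun p => of_decide_eq_true (allLt_iff.1 a3 _ (ix_lt p))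

variable {G : Type*} [Group G] [Finite G] {Q : Subgroup G} {z : G} {π : ↥𝐂[z] →* Spor.Co1} {r : G → LL → Prop}
  {β : Co0} {b : G}

theorem OS.ncard_conj (h : OS Q z π r β b) {n : ℕ} {u d : Fin n → LL} (hF : FX β u d) {Y : Set (V2 n)}
    (hY : ∀ x, x ∈ Y ↔ ∃ v : LL, Cg (β • v : LL) v ∧ sqNorm (v : ZV) = 64 ∧ kap d v = x) :
    Set.ncard {q | q ∈ Q ⊓ 𝐂[b] ∧ IsConj z q} = 2 * Y.ncard + 1 := by
  choose φ hφ using fun x => h.mt.r_ex' (lft u x)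
  have hfix : ∀ x, Cg (β • lft u x : LL) (lft u x) := fun x => hF.comb_fix _
  have key : ∀ {q x x'}, r q (lft u x) → r q (lft u x') → x = x' := fun h1 h2 => by
    simpa [hF.kap_lft] using kap_cg d (h.mt.cg_of h2 h1)
  have hc : ∀ {q x}, x ∈ Y → r q (lft u x) → (q ∈ Q ⊓ 𝐂[b] ∧ IsConj z q) ∧ q ≠ z := fun {q x} hx hq => by
    obtain ⟨v, h1, h2, rfl⟩ := (hY x).1 hx
    have := h.mt.conj_of_type4 (h.mt.r_cg hq (hF.cg_lft h1)) h2
    exact ⟨⟨⟨h.mt.r_mem hq, (h.cent_iff hq).2 (hfix _)⟩, this.1⟩, this.2⟩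
  have e : {q | q ∈ Q ⊓ 𝐂[b] ∧ IsConj z q} = insert z (φ '' Y ∪ (fun x => φ x * z) '' Y) := by
    ext q
    constructor
    · rintro ⟨h1, h2⟩
      by_cases e : q = z
      · exact Or.inl e
      obtain ⟨v, a1, a2⟩ := h.mt.type4_of_conj h1.1 h2 e
      have a3 := (h.cent_iff a1).1 h1.2
      have a4 := (hY _).2 ⟨v, a3, a2, rfl⟩
      rcases (h.mt.cg_iff (hφ _) a1).1 (hF.cg_lft a3) with a5 | a5
      exacts [Or.inr (Or.inl ⟨_, a4, a5.symm⟩), Or.inr (Or.inr ⟨_, a4, a5.symm⟩)]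
    · rintro (rfl | ⟨x, hx, rfl⟩ | ⟨x, hx, rfl⟩)
      exacts [⟨⟨h.mt.ez.mem, h.zb⟩, IsConj.refl _⟩, (hc hx (hφ x)).1, (hc hx (h.mt.r_z (hφ x))).1]
  rw [e, Set.ncard_insert_of_notMem, Set.ncard_union_eq, Set.ncard_image_of_injective,
    Set.ncard_image_of_injective, two_mul]
  · exact fun x x' e => key (h.mt.r_z (hφ x)) ((show φ x' * z = φ x * z from e.symm) ▸ h.mt.r_z (hφ x'))
  · exact fun x x' e => key (hφ x) (e ▸ hφ x')
  · rw [Set.disjoint_left]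
    rintro _ ⟨x, -, rfl⟩ ⟨x', -, e⟩
    obtain rfl := key (hφ x) ((show φ x' * z = φ x from e) ▸ h.mt.r_z (hφ x'))
    exact h.mt.ez.ne_one (mul_eq_left.1 e)
  · rintro (⟨x, hx, e⟩ | ⟨x, hx, e⟩)
    exacts [(hc hx (hφ x)).2 e, (hc hx (h.mt.r_z (hφ x))).2 e]

end CA.Co
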