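import Cfsg.Agent.Lib.Co.CT0
import Cfsg.Agent.Lib.Co.Obj2

/-!
Bit codes for the eight-dimensional orthogonal space and the standard extraspecial group; codes for monomial elements.
-/

set_option autoImplicit false

namespace CA.Co
open Cfsg CA.Gol CA CA.Ex2 CA.Orth Subgroup QuadraticMap
open scoped Matrix Pointwise

/-- a bit as an element of the field with two elements -/
def bz (b : Bool) : ZMod 2 := if b then 1 else 0

theorem bz_xor (a b : Bool) : bz (xor a b) = bz a + bz b := by revert a b; decide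
theorem bz_and (a b : Bool) : bz (a && b) = bz a * bz b := by revert a b; decide
theorem bz_eq_zero {a : Bool} : bz a = 0 ↔ a = false := by revert a; decide
theorem bz_eq_one {a : Bool} : bz a = 1 ↔ a = true := by revert a; decide
theorem bz_inj {a b : Bool} (h : bz a = bz b) : a = b := by revert a b; decide

/-- splitting eight coordinates -/
def c8 : V2 8 ≃+ V8 where
  toFun x := (fun i => x (Fin.castAdd 4 i), fun i => x (Fin.natAdd 4 i), PUnit.unit)
  invFun v := Fin.append v.1 v.2.1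
  left_inv x := Fin.append_castAdd_natAdd (m := 4) (n := 4) (f := x)
  right_inv v := Prod.ext (funext fun i => Fin.append_left _ _ i) (Prod.ext (funext fun i => Fin.append_right _ _ i) rfl)
  map_add' _ _ := rfl

/-- the vector with a given code -/
def d8 (m : ℕ) : V8 := c8 (bits 8 m)

theorem d8_xor (a b : ℕ) : d8 (Nat.xor a b) = d8 a + d8 b := by
  rw [d8, d8, d8, ← map_add, ← bits_xor]; rfl
theorem d8_zero : d8 0 = 0 := by rw [d8, bits_zero, map_zero]
theorem d8_surj (v : V8) : ∃ m < 256, v = d8 m := by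
  obtain ⟨m, hm, e⟩ := bits_surj (c8.symm v)
  exact ⟨m, hm, by rw [d8, ← e, AddEquiv.apply_symm_apply]⟩
theorem d8_inj {a b : ℕ} (ha : a < 256) (hb : b < 256) (h : d8 a = d8 b) : a = b :=
  bits_inj (n := 8) ha hb (c8.injective h)
theorem d8_ne {a : ℕ} (ha : a < 256) (h : a ≠ 0) : d8 a ≠ 0 := fun e => h (d8_inj ha (by norm_num) (e.trans d8_zero.symm))
theorem d8_256 : d8 256 = 0 := by decide +kernel
theorem d8_one : d8 1 = eV PUnit.{1} 0 := by decide +kernel
theorem d8_sixteen : d8 16 = fV PUnit.{1} 0 := by decide +kernel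

/-- the cocycle on codes -/
def bt (a b : ℕ) : Bool :=
  xor (xor (tb a 4 && tb b 0) (tb a 5 && tb b 1)) (xor (tb a 6 && tb b 2) (tb a 7 && tb b 3))

theorem b8_d8 (a b : ℕ) : b8 (d8 a) (d8 b) = bz (bt a b) := by
  simp only [bt, bz_xor, bz_and, tb_eq, b8_apply, dotProduct, Fin.sum_univ_four, add_assoc]; rfl

/-- the quadratic form on codes -/
def qC (a : ℕ) : Bool := bt a a
/-- the polar form on codes -/
def bC (a b : ℕ) : Bool := xor (bt a b) (bt b a)

theorem Q_d8 (a : ℕ) : Q8 (d8 a) = bz (qC a) := by rw [← b8_self, b8_d8]; rfl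
theorem B_d8 (a b : ℕ) : polar Q8 (d8 a) (d8 b) = bz (bC a b) := by rw [← b8_polar, b8_d8, b8_d8, bC, bz_xor]

/-- scalar multiple on codes -/
def sC (b : Bool) (w : ℕ) : ℕ := Bool.rec 0 w b

theorem d8_sC (b : Bool) (w : ℕ) : d8 (sC b w) = bz b • d8 w := by
  cases b
  · exact d8_zero.trans (zero_smul _ _).symm
  · exact (one_smul _ _).symm

/-- Siegel transformation on codes -/
def eC (u w v : ℕ) : ℕ := Nat.xor (Nat.xor v (sC (bC v u) w)) (sC (xor (bC v w) (qC w && bC v u)) u)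

theorem v8_neg (v : V8) : -v = v := neg_eq_of_add_eq_zero_left (v8_two v)
theorem v8_sub (v w : V8) : v - w = v + w := by rw [sub_eq_add_neg, v8_neg]

theorem eich_d8 {u w : ℕ} (hu : qC u = false) (hw : bC u w = false) (v : ℕ) :
    (eich Q8 (d8 u) (d8 w)).1 (d8 v) = d8 (eC u w v) := by
  rw [eich_apply (by rw [Q_d8, hu]; rfl) (by rw [B_d8, hw]; rfl), eC, d8_xor, d8_xor, d8_sC, d8_sC, bz_xor, bz_and,
    B_d8, B_d8, Q_d8, v8_sub, v8_sub, add_smul, add_assoc]

theorem xorSel_ind {P : ℕ → Prop} (h0 : P 0) (hx : ∀ a b, P a → P b → P (Nat.xor a b)) {T : ℕ} (m : ℕ) {k : ℕ}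
    (hT : ∀ i < k, P (fld 24 T i)) : P (xorSel T m k) := by
  induction k with
  | zero => exact h0
  | succ k ih =>
    refine hx _ _ (ih fun i hi => hT i (by omega)) ?_
    cases tb m k
    · exact h0
    · exact hT k (by omega)

theorem v8_ind {P : V8 → Prop} (h0 : P 0) (ha : ∀ a b, P a → P b → P (a + b)) (h : ∀ i < 8, P (d8 (Nat.pow 2 i)))
    (v : V8) : P v := by
  obtain ⟨m, hm, rfl⟩ := d8_surj v
  have k : (allLt (fun m => Nat.beq (xorSel 0x80000040000020000010000008000004000002000001 m 8) m) 256 &&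
    allLt (fun i => Nat.beq (fld 24 0x80000040000020000010000008000004000002000001 i) (Nat.pow 2 i)) 8) = true := by
    decide +kernel
  rw [Bool.and_eq_true, allLt_iff, allLt_iff] at k
  rw [← beq_iff.1 (k.1 m hm)]
  exact xorSel_ind (P := fun m => P (d8 m)) (d8_zero ▸ h0) (fun a b h1 h2 => d8_xor a b ▸ ha _ _ h1 h2) m
    fun i hi => by rw [beq_iff.1 (k.2 i hi)]; exact h i hi

theorem ext8 {g h : O Q8} (e : ∀ i < 8, g.1 (d8 (Nat.pow 2 i)) = h.1 (d8 (Nat.pow 2 i))) : g = h :=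
  O.ext (v8_ind (by simp) (fun a b h1 h2 => by rw [map_add, map_add, h1, h2]) e)

/-- `f` computes the isometry `g` on codes -/
def R8 (g : O Q8) (f : ℕ → ℕ) : Prop := ∀ m, g.1 (d8 m) = d8 (f m)

theorem R8.one : R8 1 fun m => m := fun _ => rfl
theorem R8.mul {g h : O Q8} {f f' : ℕ → ℕ} (h1 : R8 g f) (h2 : R8 h f') : R8 (g * h) fun m => force (f' m) f :=
  fun m => by rw [O.mul_apply, h2, h1]; simp only [force_eq]
theorem R8.ext {g h : O Q8} {f f' : ℕ → ℕ} (h1 : R8 g f) (h2 : R8 h f')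
    (e : allLt (fun i => Nat.beq (f (Nat.pow 2 i)) (f' (Nat.pow 2 i))) 8 = true) : g = h :=
  ext8 fun i hi => by rw [h1, h2, beq_iff.1 (allLt_iff.1 e i hi)]
theorem r8_eich {u w : ℕ} (h : (!(qC u) && !(bC u w)) = true) : R8 (eich Q8 (d8 u) (d8 w)) (eC u w) :=
  eich_d8 (by simp only [Bool.and_eq_true, Bool.not_eq_true'] at h; exact h.1)
    (by simp only [Bool.and_eq_true, Bool.not_eq_true'] at h; exact h.2)

theorem ncard_sing : {v : V8 | Q8 v = 0 ∧ v ≠ 0}.ncard = 135 := by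
  have : {v : V8 | Q8 v = 0 ∧ v ≠ 0} = c8 '' bset 8 fun m => !(qC m) && !(Nat.beq m 0) := by
    ext v
    obtain ⟨m, hm, rfl⟩ := d8_surj v
    rw [d8, c8.injective.mem_set_image, bits_mem_bset hm, Set.mem_ofPred_eq, ← d8, Q_d8, bz_eq_zero]
    simp only [Bool.and_eq_true, Bool.not_eq_true', beq_false_iff]
    exact and_congr_right fun _ => ⟨fun h e => h (e ▸ d8_zero), d8_ne hm⟩
  rw [this, Set.ncard_image_of_injective _ c8.injective, ncard_bset]
  decide +kernel

/-- the element of the standard group with a given code -/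
def dH (m : ℕ) : Hs := ⟨d8 m, bz (tb m 8)⟩
/-- multiplication of codes -/
def hm (a b : ℕ) : ℕ := Nat.xor a (Nat.xor b (sC (bt a b) 256))

@[simp] theorem dH_v (m : ℕ) : (dH m).v = d8 m := rfl

theorem tb_xor (a b i : ℕ) : tb (Nat.xor a b) i = xor (tb a i) (tb b i) := by
  rw [tb_eq, tb_eq, tb_eq]; exact Nat.testBit_xor a b i

theorem dH_hm (a b : ℕ) : dH (hm a b) = dH a * dH b := by
  ext1
  · rw [Heis.mul_v, dH_v, hm, d8_xor, d8_xor, d8_sC, d8_256, smul_zero, add_zero]; rfl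
  · rw [Heis.mul_a, dH_v, dH_v, b8_d8]
    show bz (tb _ 8) = bz _ + bz _ + _
    rw [hm, tb_xor, tb_xor, bz_xor, bz_xor, add_assoc]
    cases bt a b <;> rfl

theorem dH_zero : dH 0 = 1 := Heis.ext d8_zero rfl
theorem dH_256 : dH 256 = zs := Heis.ext d8_256 rfl

theorem hm_lt {a b : ℕ} (ha : a < 512) (hb : b < 512) : hm a b < 512 :=
  Nat.xor_lt_two_pow (n := 9) ha (Nat.xor_lt_two_pow hb (by cases bt a b <;> decide))

theorem dH_inj {a b : ℕ} (ha : a < 512) (hb : b < 512) (h : dH a = dH b) : a = b := by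
  refine bits_inj (n := 9) ha hb (funext fun j => ?_)
  by_cases hj : (j : ℕ) < 8
  · exact congrFun (c8.injective (congrArg Heis.v h)) ⟨j, hj⟩
  · have := congrArg Heis.a h
    rw [show j = 8 from Fin.ext (by have := j.2; simp; omega)]
    simpa [dH, tb_eq, bz, bits] using this

theorem dH_surj (x : Hs) : ∃ m < 512, x = dH m := by
  obtain ⟨m, e⟩ := ((Nat.bijective_iff_injective_and_card fun m : Fin 512 => dH m).2
    ⟨fun a b h => Fin.ext (dH_inj a.2 b.2 h), by rw [card_Hs]; simp⟩).2 x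
  exact ⟨m, m.2, e.symm⟩

theorem hs_gen {K : Subgroup Hs} (h : ∀ i < 9, dH (Nat.pow 2 i) ∈ K) (x : Hs) : x ∈ K := by
  have hz : zs ∈ K := dH_256 ▸ h 8 (by norm_num)
  have k : ∀ y : Hs, y.v = x.v → y ∈ K → x ∈ K := fun y e hy => by
    rcases eq_or_of_v e.symm with rfl | rfl
    · exact hy
    · exact mul_mem hy hz
  obtain ⟨y, e, hy⟩ := v8_ind (P := fun v => ∃ y : Hs, y.v = v ∧ y ∈ K) ⟨1, rfl, one_mem _⟩
    (by rintro _ _ ⟨a, rfl, ha⟩ ⟨b, rfl, hb⟩; exact ⟨a * b, rfl, mul_mem ha hb⟩)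
    (fun i hi => ⟨_, rfl, h i (by omega)⟩) x.v
  exact k y e hy

theorem hs_hom_ext {G : Type*} [Group G] {f g : Hs →* G} (h : ∀ i < 9, f (dH (Nat.pow 2 i)) = g (dH (Nat.pow 2 i))) :
    f = g := MonoidHom.ext fun x => hs_gen (K := f.eqLocus g) h x

/-- the code of an element -/
noncomputable def nH (x : Hs) : ℕ := (dH_surj x).choose
theorem nH_lt (x : Hs) : nH x < 512 := (dH_surj x).choose_spec.1
theorem dH_nH (x : Hs) : dH (nH x) = x := (dH_surj x).choose_spec.2.symm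
theorem nH_dH {m : ℕ} (h : m < 512) : nH (dH m) = m := dH_inj (nH_lt _) h (dH_nH _)
theorem nH_mul (x y : Hs) : nH (x * y) = hm (nH x) (nH y) := by
  rw [← nH_dH (hm_lt (nH_lt x) (nH_lt y)), dH_hm, dH_nH, dH_nH]

/-- `g` is the monomial element with sign code `c` and permutation code `p` -/
def MR (g : Co0) (c p : ℕ) : Prop := isCode c = true ∧ ∃ σ : M24, code σ = p ∧ g = sgC (fs c) * pmC σ

section MR
variable {g h : Co0} {c p d q : ℕ}

theorem MR.mul (h1 : MR g c p) (h2 : MR h d q) : MR (g * h) (Nat.xor c (apM p d)) (Gol.mul p q) := by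
  obtain ⟨hc, σ, rfl, rfl⟩ := h1
  obtain ⟨hd, τ, rfl, rfl⟩ := h2
  have e := smul_fs σ.1 (isCode_lt hd)
  refine ⟨isCode_xor hc ((fs_mem_CW_iff (apM_lt _ (isCode_lt hd))).1 (e ▸ smul_mem_CW σ.2 (fs_mem_CW hd))), σ * τ,
    code_mul _ _, ?_⟩
  rw [mono_mul (fs_mem_CW hc) (fs_mem_CW hd), fs_xor, e]

theorem MR.eq (h1 : MR g c p) (h2 : MR h c p) : g = h := by
  obtain ⟨-, σ, e1, rfl⟩ := h1
  obtain ⟨-, τ, e2, rfl⟩ := h2
  rw [Subtype.ext (code_inj (e1.trans e2.symm))]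

theorem MR.neg (h1 : MR g c p) : MR (negC * g) (Nat.xor c 16777215) p := by
  obtain ⟨hc, σ, e, rfl⟩ := h1
  exact ⟨isCode_xor hc (by decide +kernel), σ, e, by rw [← mul_assoc, negC_mul_sgC (fs_mem_CW hc), fs_compl]⟩

/-- equality of sign codes up to complement -/
def eqc (c d : ℕ) : Bool := Nat.beq c d || Nat.beq (Nat.xor c 16777215) d

theorem MR.mk_eq (h1 : MR g c p) (h2 : MR h d q) (e : (eqc c d && Nat.beq p q) = true) : (g : Spor.Co1) = h := by
  simp only [eqc, Bool.and_eq_true, Bool.or_eq_true, beq_iff] at e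
  obtain ⟨rfl | rfl, rfl⟩ := e
  · rw [h1.eq h2]
  · rw [← h1.neg.eq h2, mk_negC_mul]

theorem MR.inj (h1 : MR g c p) (h2 : MR g d q) : c = d ∧ p = q := by
  obtain ⟨hc, σ, rfl, rfl⟩ := h1
  obtain ⟨hd, τ, rfl, e⟩ := h2
  obtain ⟨e1, rfl⟩ := mono_inj (fs_mem_CW hc) (fs_mem_CW hd) e
  exact ⟨fs_inj (isCode_lt hc) (isCode_lt hd) e1, rfl⟩

theorem MR.of_mk_eq (h1 : MR g c p) (h2 : MR h d q) (e : (g : Spor.Co1) = h) : (eqc c d && Nat.beq p q) = true := by
  simp only [eqc, Bool.and_eq_true, Bool.or_eq_true, beq_iff]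
  rcases mk_eq_iff.1 e with rfl | rfl
  · exact ⟨Or.inl (h1.inj h2).1, (h1.inj h2).2⟩
  · exact ⟨Or.inr (h1.neg.inj h2).1, (h1.neg.inj h2).2⟩

theorem MR.mem (h1 : MR g c p) : g ∈ N0 := by
  obtain ⟨hc, σ, -, rfl⟩ := h1
  exact ⟨_, fs_mem_CW hc, σ, rfl⟩

theorem exists_mr (hg : g ∈ N0) : ∃ i < 4096, ∃ σ : M24, MR g (enc i) (code σ) := by
  obtain ⟨s, hs, σ, rfl⟩ := hg
  obtain ⟨i, hi, rfl⟩ := exists_enc hs
  exact ⟨i, hi, σ, isCode_enc hi, σ, rfl, rfl⟩

theorem mr_sg (hc : isCode c = true) : MR (sgC (fs c)) c oneC := ⟨hc, 1, code_one, by simp⟩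
theorem mr_pm (σ : M24) : MR (pmC σ) 0 (code σ) := ⟨by decide +kernel, σ, rfl, by rw [fs_zero, sgC_empty, one_mul]⟩
theorem mr_one : MR 1 0 oneC := by simpa [code_one] using mr_pm 1

/-- the monomial element with given codes -/
noncomputable def mo (c p : ℕ) : Co0 := sgC (fs c) * pmC (if h : inM24 p = true then m24 h else 1)

theorem mr_mo (hc : isCode c = true) (hp : inM24 p = true) : MR (mo c p) c p :=
  ⟨hc, m24 hp, code_m24 hp, by rw [mo, dif_pos hp]⟩

theorem MR.rep (h1 : MR g c p) (h2 : valid q = true) (e : Gol.mul p q = oneC) : Rep g (repN c q) := by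
  obtain ⟨hc, σ, rfl, rfl⟩ := h1
  have e1 : perm q = (σ⁻¹ : M24) := by
    rw [← code_perm h2, ← code_mul, code_eq_one_iff] at e
    exact eq_inv_of_mul_eq_one_right e
  have h3 : inM24 q = true := by rw [← code_perm h2, ← mem_M24_iff_code, e1]; exact (σ⁻¹).2
  have := rep_coN hc h3
  rwa [coN, show m24 h3 = σ⁻¹ from Subtype.ext e1, inv_inv] at this

end MR

end CA.Co
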