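import Cfsg.Agent.Lib.Co.Frame
import Cfsg.Agent.Lib.Golay.Mod

/-!
The stabiliser `Co2` of `u = (4,4,0^22)` acting on `u^⊥ / u` modulo two: faithfulness and the absence of normal subgroups with
fixed points.
-/

set_option autoImplicit false

namespace CA.Co
open Cfsg CA.Gol
open scoped Pointwise

/-- the short vector `u` -/
abbrev UU : LL := Spor.leechU

theorem coe_UU : (UU : ZV) = (4 : ℤ) • iz {pt 23, pt 0} := by decide +kernel

theorem norm_UU : sqNorm (UU : ZV) = 32 := by decide +kernel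

theorem dot_UU (x : ZV) : dotInt x UU = 4 * (x (pt 23) + x (pt 0)) := by
  rw [coe_UU, dot_smul, dot_iz, Finset.sum_pair (by decide)]

/-- congruent to `0` or to `u` -/
def KU (x : ZV) : Prop := Cg x 0 ∨ Cg x UU

theorem KU.add {x y : ZV} (hx : KU x) (hy : KU y) : KU (x + y) := by
  rcases hx with h | h <;> rcases hy with h' | h'
  · left; simpa using h.add h'
  · right; simpa using h.add h'
  · right; simpa using h.add h'
  · exact Or.inl ((h.add h').trans (cg_add_self UU.2))

theorem KU.of_cg {x y : ZV} (h : Cg x y) (hy : KU y) : KU x := hy.imp h.trans h.trans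

theorem KU.mem {x : ZV} (h : KU x) : x ∈ leechLattice := h.elim (fun h => h.mem (zero_mem _)) fun h => h.mem UU.2

theorem KU.neg {x : ZV} (h : KU x) : KU (-x) := h.of_cg (cg_neg h.mem)

theorem KU.co {v : LL} (h : KU v) {g : Co0} (hg : g • UU = UU) : KU (g • v : LL) := by
  rcases h with h | h
  · left; simpa [co_zero] using Cg.co (v := v) (w := 0) h g
  · right; simpa [hg] using Cg.co (v := v) (w := UU) h g

theorem four_pair_mem {x y : GolayPt} (h : x ≠ y) : (4 : ℤ) • iz {x, y} ∈ leechLattice :=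
  four_mem (by rw [sum_iz, Finset.card_pair h]; simp)

/-- an element fixing `u` and the classes of `4 (e_x + e_y)` modulo `u` is trivial -/
theorem co2_fix {t : Co0} (ht : t • UU = UU)
    (h : ∀ x y, (hxy : x ≠ y) → x ∉ ({pt 23, pt 0} : Finset GolayPt) → y ∉ ({pt 23, pt 0} : Finset GolayPt) →
      KU ((t • (⟨_, four_pair_mem hxy⟩ : LL) : LL) - (4 : ℤ) • iz {x, y})) : t = 1 := by
  have h1 : ∀ x y, (hxy : x ≠ y) → x ∉ ({pt 23, pt 0} : Finset GolayPt) → y ∉ ({pt 23, pt 0} : Finset GolayPt) →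
      Cg (t • (⟨_, four_pair_mem hxy⟩ : LL) : LL) ((4 : ℤ) • iz {x, y}) := fun x y hxy hx hy => by
    rcases h x y hxy hx hy with k | k
    · exact cg_iff_sub.2 k
    · have k1 : Cg (t • (⟨_, four_pair_mem hxy⟩ : LL) : LL) ((4 : ℤ) • iz {x, y} + (UU : ZV)) := by
        simpa [add_comm] using k.add (Cg.refl ((4 : ℤ) • iz {x, y}))
      have n1 : sqNorm ((4 : ℤ) • iz {x, y} + (UU : ZV)) = 64 := by
        rw [sqNorm_add, norm_four_iz, norm_UU, dot_UU, Finset.card_pair hxy]
        simp only [Finset.mem_insert, Finset.mem_singleton, not_or] at hx hy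
        simp [iz, Ne.symm hx.1, Ne.symm hx.2, Ne.symm hy.1, Ne.symm hy.2]
      have n2 : sqNorm ((t • (⟨_, four_pair_mem hxy⟩ : LL) : LL) : ZV) = 32 := by
        rw [co_norm, norm_four_iz, Finset.card_pair hxy]; rfl
      have := k1.norm_eq (add_mem (four_pair_mem hxy) UU.2) (by omega) n1.le
      omega
  have h2 : Cg (t • E8 (pt 1) : LL) (e8 (pt 1)) := by
    have e : E8 (pt 1) = ⟨_, four_pair_mem (x := pt 1) (y := pt 2) (by decide)⟩ +
        ⟨_, four_pair_mem (x := pt 1) (y := pt 3) (by decide)⟩ -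
        ⟨_, four_pair_mem (x := pt 2) (y := pt 3) (by decide)⟩ := Subtype.ext (by decide +kernel)
    have e' := congrArg Subtype.val e
    rw [e, co_sub, co_add]
    rw [coe_E8] at e'
    rw [e']
    exact ((h1 _ _ (by decide) (by decide) (by decide)).add (h1 _ _ (by decide) (by decide) (by decide))).sub
      (h1 _ _ (by decide) (by decide) (by decide))
  obtain ⟨c, hc, σ, rfl⟩ := frame_stab h2
  have h3 : ∀ x y, x ≠ y → x ∉ ({pt 23, pt 0} : Finset GolayPt) → y ∉ ({pt 23, pt 0} : Finset GolayPt) →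
      (σ.1 x = x ∨ σ.1 x = y) ∧ (σ.1 x ∈ c ↔ σ.1 y ∈ c) := fun x y hxy hx hy => by
    have k := (h1 x y hxy hx hy).eq_or (four_pair_mem hxy)
      (by rw [co_norm, norm_four_iz, Finset.card_pair hxy]; norm_num)
      (by rw [norm_four_iz, Finset.card_pair hxy]; norm_num)
    have kx := mono_smul hc σ ⟨_, four_pair_mem hxy⟩ x
    have ky := mono_smul hc σ ⟨_, four_pair_mem hxy⟩ y
    have ex : iz {x, y} x = 1 := by simp [iz]
    have ey : iz {x, y} y = 1 := by simp [iz]
    have hm : σ.1 x ∈ ({x, y} : Finset GolayPt) := by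
      rcases iz_cases {x, y} (σ.1 x) with h | h
      · exact h.1
      · rcases k with k | k <;> rw [k] at kx <;>
          simp only [Pi.smul_apply, Pi.neg_apply, smul_eq_mul, ex, h.2] at kx <;> split_ifs at kx <;> omega
    refine ⟨by simpa using hm, ?_⟩
    have h1 := iz_cases {x, y} (σ.1 x)
    have h2 := iz_cases {x, y} (σ.1 y)
    rcases k with k | k <;> rw [k] at kx ky <;>
      simp only [Pi.smul_apply, Pi.neg_apply, smul_eq_mul, ex, ey] at kx ky <;>
      by_cases a1 : σ.1 x ∈ c <;> by_cases a2 : σ.1 y ∈ c <;>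
      simp only [a1, a2, if_true, if_false, iff_true, iff_false, not_true, false_iff] at kx ky ⊢ <;> omega
  have h4 : ∀ x, x ∉ ({pt 23, pt 0} : Finset GolayPt) → σ.1 x = x := fun x hx => by
    obtain ⟨y, hy⟩ := exists_notMem (s := {pt 23, pt 0, x}) (Finset.card_le_three.trans_lt (by norm_num))
    obtain ⟨w, hw⟩ := exists_notMem (s := insert y {pt 23, pt 0, x})
      ((Finset.card_insert_le _ _).trans_lt (by have := Finset.card_le_three (a := pt 23) (b := pt 0) (c := x); omega))
    simp only [Finset.mem_insert, Finset.mem_singleton, not_or] at hy hw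
    have k1 := (h3 x y (Ne.symm hy.2.2) hx (by simp [hy.1, hy.2.1])).1
    have k2 := (h3 x w (Ne.symm hw.2.2.2) hx (by simp [hw.2.1, hw.2.2.1])).1
    rcases k1 with k1 | k1
    · exact k1
    · exact k2.resolve_right fun k2 => hw.1 (k2.symm.trans k1)
  have h5 : σ = 1 := by
    have k0 : σ.1 • fs 0xd4b004 = fs 0xd4b004 :=
      smul_octad_eq σ.2 (fs_mem_octads (by decide +kernel)) (fs_mem_octads (by decide +kernel)) (F := fs 0x54b004)
        (by rw [card_fs]; decide +kernel) (by decide +kernel) fun p hp => by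
          rw [h4 p (by revert p; decide +kernel)]; revert p; decide +kernel
    have k1 : σ.1 (pt 23) ∈ fs 0xd4b004 := by rw [← k0]; exact apply_mem_smul.2 (by decide +kernel)
    have k2 : σ.1 (pt 23) = pt 23 := by
      by_contra hne
      have := h4 (σ.1 (pt 23)) (by
        simp only [Finset.mem_insert, Finset.mem_singleton, not_or]
        exact ⟨hne, fun e => by rw [e] at k1; revert k1; decide +kernel⟩)
      exact hne (σ.1.injective this)
    have k3 : σ.1 (pt 0) = pt 0 := by
      by_contra hne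
      have := h4 (σ.1 (pt 0)) (by
        simp only [Finset.mem_insert, Finset.mem_singleton, not_or]
        exact ⟨fun e => absurd (σ.1.injective (e.trans k2.symm)) (by decide), hne⟩)
      exact hne (σ.1.injective this)
    refine Subtype.ext (Equiv.ext fun p => ?_)
    by_cases hp : p ∈ ({pt 23, pt 0} : Finset GolayPt)
    · simp only [Finset.mem_insert, Finset.mem_singleton] at hp
      rcases hp with rfl | rfl
      · exact k2
      · exact k3
    · exact h4 p hp
  subst h5
  have h6 : ∀ p ∈ ({pt 23, pt 0} : Finset GolayPt), p ∉ c := fun p hp hpc => by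
    have := mono_smul hc 1 UU p
    rw [ht, coe_UU] at this
    simp [iz, hp, hpc] at this
  rcases c.eq_empty_or_nonempty with rfl | ⟨a, ha⟩
  · rw [sgC_empty, map_one, mul_one]
  · have e : c = Finset.univ \ {pt 23, pt 0} := Finset.ext fun p => by
      simp only [Finset.mem_sdiff, Finset.mem_univ, true_and]
      refine ⟨fun hp h => h6 p h hp, fun hp => ?_⟩
      by_cases e : p = a
      · exact e ▸ ha
      · exact (h3 p a e hp fun h => h6 a h ha).2.2 ha
    have := card_CW hc
    rw [e, Finset.card_univ_sdiff, card_golayPt, Finset.card_pair (by decide)] at this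
    omega

/-- `Co2` is faithful on `u^⊥ / u` -/
theorem co2_faithful {t : Co0} (ht : t • UU = UU)
    (h : ∀ v : LL, 16 ∣ dotInt (v : ZV) UU → KU ((t • v : LL) - v)) : t = 1 :=
  co2_fix ht fun x y hxy hx hy => h ⟨_, four_pair_mem hxy⟩ (by
    rw [dot_UU]
    simp only [Finset.mem_insert, Finset.mem_singleton, not_or] at hx hy
    simp [iz, Ne.symm hx.1, Ne.symm hx.2, Ne.symm hy.1, Ne.symm hy.2])

/-- a basis of the code words avoiding the support of `u` -/
def cabT : ℕ := 0x3718046564047b42003da1001ed08038704462d0244f80146e300849f002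

theorem cab_check : allLt (fun j => isOct (fld 24 cabT j) && Nat.beq (Nat.land (fld 24 cabT j) 0x800001) 0) 10 = true := by
  decide +kernel

theorem cab_mem {j : ℕ} (hj : j < 10) : fs (fld 24 cabT j) ∈ octads ∧ pt 23 ∉ fs (fld 24 cabT j) ∧
    pt 0 ∉ fs (fld 24 cabT j) := by
  have := allLt_iff.1 cab_check j hj
  simp only [Bool.and_eq_true, beq_iff] at this
  have h := (fs_disjoint_iff (fld_lt 24 cabT j)).2 this.2
  exact ⟨fs_mem_octads this.1, fun k => Finset.disjoint_left.1 h k (by decide +kernel),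
    fun k => Finset.disjoint_left.1 h k (by decide +kernel)⟩

theorem cab_dual : allLt (fun j => force (Nat.mul j 4096) fun m => isCode m || isCode (Nat.xor m 0x800001) ||
    tb (popc m) 0 || anyLt (fun k => tb (popc (Nat.land m (fld 24 cabT k))) 0) 10) 4096 = true := by
  decide +kernel

theorem cab_tri : allLt (fun i => force (enc i) fun m => Nat.beq m 0 || Nat.beq m 16777215 ||
    tb (popc (Nat.land m 0x800001)) 0 ||
    anyLt (fun k => force (Nat.land m (fld 24 cabT k)) fun m' =>
      anyLt (fun l => tb (popc (Nat.land m' (fld 24 cabT l))) 0) 10) 10) 4096 = true := by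
  decide +kernel

theorem odd_of_tb {n : ℕ} (h : tb n 0 = true) : ¬ Even n := by
  rw [tb_eq, Nat.testBit_zero] at h
  simpa [Nat.even_iff] using h

/-- subgroups between `2Λ + ℤu` and `Λ` invariant under `Co2` -/
structure InvU (M : AddSubgroup ZV) : Prop where
  ku : ∀ x, KU x → x ∈ M
  le : M ≤ leechLattice
  inv : ∀ g : Co0, g • UU = UU → ∀ v : LL, (v : ZV) ∈ M → ((g • v : LL) : ZV) ∈ M

namespace InvU
variable {M : AddSubgroup ZV} (h : InvU M)
include h

theorem of_cg {x y : ZV} (e : Cg x y) (hy : y ∈ M) : x ∈ M := by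
  have := add_mem (h.ku _ (Or.inl (cg_iff_sub.1 e))) hy
  rwa [sub_add_cancel] at this

theorem sgd {x : ZV} (hx : x ∈ M) {j : ℕ} (hj : j < 10) :
    (fun p => 2 * (iz (fs (fld 24 cabT j)) p * x p)) ∈ M := by
  obtain ⟨h1, h2, h3⟩ := cab_mem hj
  have k := h.inv (sgC (fs (fld 24 cabT j))) (Subtype.ext (by
    rw [sgC_smul h1.1, coe_UU]; funext p
    simp only [sg, Pi.smul_apply, iz, Finset.mem_insert, Finset.mem_singleton]
    split_ifs with k1 k2
    · rcases k2 with rfl | rfl <;> contradiction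
    all_goals rfl)) ⟨x, h.le hx⟩ hx
  rw [sgC_smul h1.1] at k
  convert sub_mem hx k using 1
  funext p; simp [sg_eq]

theorem e8_of_four {y : ZV} (hy : (4 : ℤ) • y ∈ M) {j : ℕ} (hj : j < 10)
    (ho : ¬ Even (oddSet y ∩ fs (fld 24 cabT j)).card) (q : GolayPt) : e8 q ∈ M := by
  have k := h.sgd hy hj
  refine h.of_cg (cg_eight_odd (y := fun p => iz (fs (fld 24 cabT j)) p * y p) ?_ q).symm ?_
  · have := sum_parity (fun p => iz (fs (fld 24 cabT j)) p * y p) (oddSet y ∩ fs (fld 24 cabT j)) fun p => by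
      rw [← iz_mul]
      have := oddSet_spec y p
      rcases iz_cases (fs (fld 24 cabT j)) p with h | h <;> rw [h.2] <;> omega
    rw [even_iff_two_dvd] at ho
    omega
  · convert k using 1
    funext p; simp only [Pi.smul_apply, smul_eq_mul]; ring

theorem e8_of_four' {y : ZV} (hy : (4 : ℤ) • y ∈ M) (he : 2 ∣ ∑ p, y p) (hn : ¬ KU ((4 : ℤ) • y)) (q : GolayPt) :
    e8 q ∈ M := by
  obtain ⟨j, hj, hc⟩ := exists_high_rep (oddSet y)
  have k := allLt_iff.1 cab_dual j hj
  simp only [force_eq, Bool.or_eq_true, anyLt_iff] at k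
  rcases k with ((k | k) | k) | ⟨l, hl, k⟩
  · have : symmDiff (oddSet y) ∅ ∈ CW := by
      have := symmDiff_mem_CW hc (fs_mem_CW k)
      rwa [symmDiff_assoc, symmDiff_self] at this
    rcases cg_four this q with e | e
    · exact absurd (Or.inl (e.trans (Cg.of_eq (by funext p; simp [iz])))) hn
    · exact h.of_cg (e.trans (Cg.of_eq (by funext p; simp [iz]))).symm hy
  · have : symmDiff (oddSet y) {pt 23, pt 0} ∈ CW := by
      have := symmDiff_mem_CW hc (fs_mem_CW k)
      rwa [fs_xor, symmDiff_assoc, ← symmDiff_assoc (fs _), symmDiff_self, bot_symmDiff,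
        show fs 0x800001 = {pt 23, pt 0} by decide +kernel] at this
    rcases cg_four this q with e | e
    · exact absurd (Or.inr (coe_UU ▸ e)) hn
    · rw [← coe_UU] at e
      have := sub_mem (h.of_cg e.symm hy) (h.ku _ (Or.inr (Cg.refl _)))
      simpa using this
  · have h1 := odd_of_tb k
    rw [← card_fs, even_iff_two_dvd] at h1
    have h2 := card_symmDiff_add (oddSet y) (fs (Nat.mul j 4096))
    have h3 := four_dvd_card hc
    have h4 := sum_parity y _ (oddSet_spec y)
    omega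
  · refine h.e8_of_four hy hl ?_ q
    have h1 := odd_of_tb k
    rw [← card_fs, fs_land] at h1
    have h2 := card_symmDiff_inter (oddSet y) (fs (Nat.mul j 4096)) (fs (fld 24 cabT l))
    have h3 := even_card_inter hc (cab_mem hl).1.1
    rw [Nat.even_iff] at h1 h3 ⊢
    omega

theorem e8_of_two {x : ZV} (hx : x ∈ M) {d : Finset GolayPt} (hd : d ∈ CW) (e : ∀ p, 4 ∣ x p - 2 * iz d p)
    (h0 : d ≠ ∅) (h1 : d ≠ Finset.univ) (h2 : Even (d ∩ {pt 23, pt 0}).card) (q : GolayPt) : e8 q ∈ M := by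
  obtain ⟨i, hi, rfl⟩ := exists_enc hd
  have k := allLt_iff.1 cab_tri i hi
  simp only [force_eq, Bool.or_eq_true, anyLt_iff, beq_iff] at k
  rcases k with ((k | k) | k) | ⟨l, hl, l', hl', k⟩
  · exact absurd (k ▸ fs_zero) h0
  · exact absurd (k ▸ fs_full) h1
  · have := odd_of_tb k
    rw [← card_fs, fs_land, show fs 0x800001 = {pt 23, pt 0} by decide +kernel] at this
    exact absurd h2 this
  · have h3 := odd_of_tb k
    rw [← card_fs, fs_land, fs_land] at h3
    refine h.e8_of_four (y := fun p => iz (fs (fld 24 cabT l)) p * (x p / 2)) ?_ hl' ?_ q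
    · convert h.sgd hx hl using 1
      funext p
      have := e p
      simp only [Pi.smul_apply, smul_eq_mul]
      rcases iz_cases (fs (fld 24 cabT l)) p with h | h <;> rw [h.2] <;> omega
    · convert h3 using 4
      ext p
      have := e p
      simp only [oddSet, Finset.mem_filter, Finset.mem_univ, true_and, Finset.mem_inter]
      rcases iz_cases (fs (fld 24 cabT l)) p with h | h <;> rcases iz_cases (fs (enc i)) p with h' | h' <;>
        simp only [h.1, h.2, h'.1, and_true, and_false, iff_true, iff_false, not_not] <;> omega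

theorem e8_mem' {x : ZV} (hx : x ∈ M) (hd : 16 ∣ dotInt x UU) (hn : ¬ KU x) (q : GolayPt) : e8 q ∈ M := by
  have hL := h.le hx
  by_cases h0 : 2 ∣ x (pt 0)
  · obtain ⟨c, hc, y, e, hy⟩ := even_form hL h0
    by_cases k0 : c = ∅
    · have : x = (4 : ℤ) • y := funext fun p => by rw [e p, k0]; simp [iz]
      exact h.e8_of_four' (this ▸ hx) hy (this ▸ hn) q
    · by_cases k1 : c = Finset.univ
      · have k : Cg x ((4 : ℤ) • (y + (2 : ℤ) • iz {pt 0})) := ⟨v0, v0_mem, by
          funext p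
          simp only [Pi.sub_apply, Pi.smul_apply, Pi.add_apply, smul_eq_mul, e p, k1, v0_eq]
          rw [show iz Finset.univ p = 1 by simp [iz]]; ring⟩
        refine h.e8_of_four' (h.of_cg k.symm hx) ?_ (fun k' => hn (k'.of_cg k)) q
        simp only [Pi.add_apply, Pi.smul_apply, smul_eq_mul, Finset.sum_add_distrib, ← Finset.mul_sum]
        omega
      · refine h.e8_of_two hx hc (fun p => by rw [e p]; omega) k0 k1 ?_ q
        rw [dot_UU, e, e] at hd
        rcases iz_cases c (pt 23) with h | h <;> rcases iz_cases c (pt 0) with h' | h'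
        · rw [Finset.inter_eq_right.2 (by simp [Finset.insert_subset_iff, h.1, h'.1]), Finset.card_pair (by decide)]
          simp
        · omega
        · omega
        · rw [Finset.disjoint_iff_inter_eq_empty.1 (by simp [h.1, h'.1])]; simp
  · obtain ⟨h1, h2, h3⟩ := cab_mem (j := 0) (by norm_num)
    refine h.e8_of_two (h.sgd hx (j := 0) (by norm_num)) h1.1 (fun p => ?_) (by decide +kernel) (by decide +kernel) ?_ q
    · have := same_parity hL p (pt 0)
      rcases iz_cases (fs (fld 24 cabT 0)) p with h | h <;> rw [h.2] <;> omega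
    · rw [Finset.disjoint_iff_inter_eq_empty.1 (by simp [h2, h3])]; simp

theorem pair_mem (h8 : ∀ q, e8 q ∈ M) {x y : GolayPt} (hxy : x ≠ y) (hx : x ∉ ({pt 23, pt 0} : Finset GolayPt))
    (hy : y ∉ ({pt 23, pt 0} : Finset GolayPt)) : (4 : ℤ) • iz {x, y} ∈ M := by
  simp only [Finset.mem_insert, Finset.mem_singleton, not_or] at hx hy
  obtain ⟨τ, hτ, t1, t2⟩ : ∃ τ ∈ M24, τ (pt 23) = pt 0 ∧ τ (pt 0) = pt 1 := by
    obtain ⟨g, hg, e⟩ := trans_tuple (ι := Fin 2) (by simp) (x := ![pt 23, pt 0]) (y := ![pt 0, pt 1])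
      (by decide) (by decide)
    exact ⟨g, hg, e 0, e 1⟩
  obtain ⟨ρ, hρ, r1, r2, r3, r4⟩ : ∃ ρ ∈ M24, ρ (pt 2) = pt 23 ∧ ρ (pt 3) = pt 0 ∧ ρ (pt 0) = x ∧ ρ (pt 1) = y := by
    obtain ⟨g, hg, e1, e2, e3, e4⟩ := trans4 (a := pt 2) (b := pt 3) (c := pt 0) (d := pt 1) (by decide) (by decide)
      (by decide) (by decide) (by decide) (by decide)
    obtain ⟨k, hk, f1, f2, f3, f4⟩ := trans4 (a := pt 23) (b := pt 0) (c := x) (d := y) (by decide) (Ne.symm hx.1)
      (Ne.symm hx.2) (Ne.symm hy.1) (Ne.symm hy.2) hxy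
    refine ⟨k⁻¹ * g, mul_mem (inv_mem hk) hg, ?_⟩
    simp only [Equiv.Perm.mul_apply, e1, e2, e3, e4, Equiv.Perm.inv_eq_iff_eq]
    exact ⟨f1.symm, f2.symm, f3.symm, f4.symm⟩
  have k := h.inv (pmC ⟨ρ, hρ⟩ * coOf isCo_xi * pmC ⟨τ, hτ⟩) (Subtype.ext (by
    rw [mul_smul, mul_smul, pmC_smul, coOf_smul, pmC_smul, coe_UU, pm_smul, pm_iz]
    simp only [Finset.smul_finset_insert, Finset.smul_finset_singleton, Equiv.Perm.smul_def, t1, t2]
    rw [show xi ((4 : ℤ) • iz {pt 0, pt 1}) = (4 : ℤ) • iz {pt 2, pt 3} by decide +kernel, pm_smul, pm_iz]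
    simp only [Finset.smul_finset_insert, Finset.smul_finset_singleton, Equiv.Perm.smul_def, r1, r2]))
    (E8 (pt 23)) (h8 _)
  rw [mul_smul, mul_smul, pmC_smul, coOf_smul, pmC_smul, coe_E8, e8, pm_smul, pm_iz] at k
  simp only [Finset.smul_finset_singleton, Equiv.Perm.smul_def, t1] at k
  rw [show xi ((8 : ℤ) • iz {pt 0}) = (4 : ℤ) • iz {pt 0, pt 1} + (4 : ℤ) • iz {pt 2, pt 3} - (8 : ℤ) • iz {pt 0} by
    decide +kernel] at k
  have e : pm ρ ((4 : ℤ) • iz {pt 0, pt 1} + (4 : ℤ) • iz {pt 2, pt 3} - (8 : ℤ) • iz {pt 0}) =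
      pm ρ ((4 : ℤ) • iz {pt 0, pt 1}) + pm ρ ((4 : ℤ) • iz {pt 2, pt 3}) - pm ρ ((8 : ℤ) • iz {pt 0}) := rfl
  rw [e, pm_smul, pm_smul, pm_smul, pm_iz, pm_iz, pm_iz] at k
  simp only [Finset.smul_finset_insert, Finset.smul_finset_singleton, Equiv.Perm.smul_def, r1, r2, r3, r4] at k
  rw [← coe_UU] at k
  have := sub_mem (add_mem k (h8 x)) (h.ku _ (Or.inr (Cg.refl _)))
  simpa [e8] using this

end InvU

/-- a normal subset of `Co2` with a nontrivial fixed point on `u^⊥ / u` is trivial -/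
theorem co2_core {T : Set Co0} (hT : ∀ t ∈ T, t • UU = UU)
    (hn : ∀ g : Co0, g • UU = UU → ∀ t ∈ T, g⁻¹ * t * g ∈ T) {x : LL} (hd : 16 ∣ dotInt (x : ZV) UU) (hx : ¬ KU x)
    (hf : ∀ t ∈ T, KU ((t • x : LL) - x)) : ∀ t ∈ T, t = 1 := by
  let M : AddSubgroup LL :=
    { carrier := {v | ∀ t ∈ T, KU ((t • v : LL) - v)}
      zero_mem' := fun t _ => Or.inl (Cg.of_eq (by simp [co_zero]))
      add_mem' := fun {a b} ha hb t ht => by
        convert (ha t ht).add (hb t ht) using 1
        rw [co_add]; push_cast; abel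
      neg_mem' := fun {a} ha t ht => by
        convert (ha t ht).neg using 1
        rw [co_neg]; push_cast; abel }
  have hM : InvU (M.map leechLattice.subtype) := by
    refine ⟨fun x hx => ⟨⟨x, hx.mem⟩, fun t ht => ?_, rfl⟩, ?_, ?_⟩
    · rw [sub_eq_add_neg]; exact (KU.co (v := ⟨x, hx.mem⟩) hx (hT t ht)).add hx.neg
    · rintro _ ⟨v, -, rfl⟩; exact v.2
    · rintro g hg v ⟨w, hw, e⟩
      obtain rfl : w = v := Subtype.ext e
      refine ⟨g • w, fun t ht => ?_, rfl⟩
      have := KU.co (v := (g⁻¹ * t * g) • w - w) (hw _ (hn g hg t ht)) hg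
      rwa [co_sub, mul_smul, mul_smul, smul_inv_smul] at this
  have h8 := hM.e8_mem' ⟨x, hf, rfl⟩ hd hx
  refine fun t ht => co2_fix (hT t ht) fun a b hab ha hb => ?_
  obtain ⟨w, hw, e⟩ := hM.pair_mem h8 hab ha hb
  obtain rfl : w = ⟨_, four_pair_mem hab⟩ := Subtype.ext e
  exact hw t ht

end CA.Co
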