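import Cfsg.Agent.Lib.Co.MType2
import Cfsg.Agent.Lib.Co.Sect
import Cfsg.Agent.Lib.G.Coprime

/-!
Centralisers of elements of odd prime order in groups of Monster type: reduction to data in `Co0`.
-/

set_option autoImplicit false

namespace CA.Co
open Cfsg CA.Gol CA CA.Ex2 CA.Core Subgroup
open scoped Pointwise commutatorElement

theorem abs_le_of_norm {x : ZV} (h : sqNorm x ≤ 64) (p : GolayPt) : x p ∈ Set.Icc (-8 : ℤ) 8 := by
  have := card_mul_le_sqNorm x {p} (x p ^ 2) (by simp)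
  simp only [Finset.card_singleton, Nat.cast_one, one_mul] at this
  constructor <;> nlinarith

instance finite_Co0 : Finite Co0 :=
  Finite.of_injective (fun (g : Co0) (p q : GolayPt) =>
    (⟨(g • E8 p : LL).1 q, abs_le_of_norm (by rw [co_norm, coe_E8, norm_e8]) q⟩ : Set.Icc (-8 : ℤ) 8))
    fun _ _ e => co_ext8 fun p => Subtype.ext (funext fun q => congrArg Subtype.val (congrFun (congrFun e p) q))

theorem le_of_normal_pgroup {L : Type*} [Group L] [Finite L] {p : ℕ} (hp : p.Prime) {P H : Subgroup L} [P.Normal]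
    (hP : IsPGroup p P) (hH : ¬ p ∣ H.index) : P ≤ H := by
  haveI := Fact.mk hp
  obtain ⟨k, hk⟩ := hP.index (H.subgroupOf P)
  have h1 : H.relIndex P ∣ H.index := by
    rw [← relIndex_sup_of_norm' (A := H) (B := P) (by rw [normalizer_eq_top]; exact le_top)]
    exact relIndex_dvd_index_of_le le_sup_left
  rcases k with _ | k
  · exact relIndex_eq_one.1 hk
  · exact absurd ((Dvd.intro_left _ (pow_succ p k).symm).trans (hk ▸ h1)) hH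

/-- the subgroup generated by `β` and `-1` -/
noncomputable def KK (β : Co0) : Subgroup Co0 := zpowers β ⊔ zpowers negC

theorem mem_KK {β g : Co0} : g ∈ KK β ↔ ∃ k : ℤ, g = β ^ k ∨ g = negC * β ^ k := by
  rw [KK, sup_comm, mem_sup_of_norm_right (norms_zpowers_of_cent1 (zpowers_le.2 (mem_cent1_iff.2 (negC_comm β))))]
  constructor
  · rintro ⟨a, ha, _, ⟨k, rfl⟩, rfl⟩
    rcases (mem_zp2 negC_sq).1 ha with rfl | rfl
    · exact ⟨k, Or.inl (one_mul _)⟩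
    · exact ⟨k, Or.inr rfl⟩
  · rintro ⟨k, rfl | rfl⟩
    · exact ⟨1, one_mem _, _, ⟨k, rfl⟩, one_mul _⟩
    · exact ⟨_, mem_zpowers _, _, ⟨k, rfl⟩, rfl⟩

theorem negC_mem_cent (β : Co0) : negC ∈ 𝐂[β] := mem_cent1_iff.2 (negC_comm β).symm

theorem KK_le (β : Co0) : KK β ≤ 𝐂[β] :=
  sup_le (zpowers_le.2 (self_mem_cent1 β)) (zpowers_le.2 (negC_mem_cent β))

theorem KK_normalIn (β : Co0) : KK β ⊴ 𝐂[β] :=
  ⟨KK_le β, norms_sup (norms_zpowers_of_cent1 le_rfl)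
    (norms_zpowers_of_cent1 fun g _ => mem_cent1_iff.2 (negC_comm g))⟩

instance KK_normal (β : Co0) : ((KK β).subgroupOf 𝐂[β]).Normal := (KK_normalIn β).normal_subgroupOf

theorem negC_mem_N0 : negC ∈ N0 := ⟨_, univ_mem_CW, 1, by simp [negC]⟩

theorem orderOf_negC : orderOf negC = 2 := Inv.orderOf_eq_two negC_sq negC_ne_one

theorem negC_not_mem {β : Co0} (ho : Odd (orderOf β)) : negC ∉ zpowers β := fun h => by
  have := orderOf_dvd_of_mem_zpowers h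
  rw [orderOf_negC] at this
  exact (Nat.not_even_iff_odd.2 ho) (even_iff_two_dvd.2 this)

theorem card_KK {β : Co0} (ho : Odd (orderOf β)) : Nat.card (KK β) = 2 * orderOf β := by
  rw [KK, card_sup_of_disjoint (Or.inr (norms_zpowers_of_cent1 (zpowers_le.2 (mem_cent1_iff.2 (negC_comm β))))),
    Nat.card_zpowers, card_zp2 orderOf_negC, mul_comm]
  rw [inf_comm]
  exact inf_eq_bot_of_odd (isPGroup_two_zpowers negC_sq) (by rwa [Nat.card_zpowers])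

/-- an element normalising `β` modulo `±1` -/
theorem eq_of_mk_eq {β γ : Co0} (ho : Odd (orderOf β)) (ho' : orderOf γ = orderOf β)
    (e : (β : Spor.Co1) = γ) : γ = β := by
  rcases mk_eq_iff.1 e with k | k
  · exact k
  · exfalso
    have h1 : γ ^ orderOf β = 1 := ho' ▸ pow_orderOf_eq_one γ
    rw [k, (show Commute negC β from (negC_comm β).symm).mul_pow, pow_orderOf_eq_one, mul_one] at h1
    have := orderOf_dvd_of_pow_eq_one h1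
    rw [orderOf_negC] at this
    exact (Nat.not_even_iff_odd.2 ho) (even_iff_two_dvd.2 this)

/-- the data needed about the centraliser of `β` in `Co0` -/
structure CD (β : Co0) (p n : ℕ) : Prop where
  prime : p.Prime
  odd : Odd p
  ord : orderOf β = p
  mem : β ∈ N0
  faith : ∀ g ∈ 𝐂[β], (∀ k ∈ 𝐂[β], Cg (g • k • E8 (pt 0) : LL) (k • E8 (pt 0) : LL)) → g ∈ KK β
  oddi : Odd (N0.relIndex 𝐂[β])
  cnt : ∃ e : Fin (2 ^ n) → LL, (∀ i, Cg (β • e i : LL) (e i)) ∧ (∀ i j, Cg (e i) (e j) → i = j) ∧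
    ∀ v : LL, Cg (β • v : LL) v → ∃ i, Cg v (e i)

theorem CD.KK_le_N0 {β : Co0} {p n : ℕ} (h : CD β p n) : KK β ≤ N0 :=
  sup_le (zpowers_le.2 h.mem) (zpowers_le.2 negC_mem_N0)

theorem CD.pCore_eq {β : Co0} {p n : ℕ} (h : CD β p n) {L : Type*} [Group L] (θ : ↥𝐂[β] →* L)
    (hθ : Function.Surjective θ) (hk : ∀ g, θ g = 1 ↔ g.1 ∈ KK β) : pCore 2 L = ⊥ := by
  haveI : Finite L := Finite.of_surjective θ hθ
  have hK : θ.ker ≤ N0.subgroupOf 𝐂[β] := fun g hg => h.KK_le_N0 ((hk g).1 hg)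
  have h1 : pCore 2 L ≤ (N0.subgroupOf 𝐂[β]).map θ := le_of_normal_pgroup Nat.prime_two (pCore_isPGroup 2 L) (by
    rw [index_map_eq _ hθ hK]
    exact fun e => (Nat.not_even_iff_odd.2 h.oddi) (even_iff_two_dvd.2 e))
  rw [eq_bot_iff]
  intro x hx
  obtain ⟨g, rfl⟩ := hθ x
  refine (hk g).2 (h.faith g g.2 fun k hk' => ?_)
  have h2 := h1 ((inferInstance : (pCore 2 L).Normal).conj_mem _ hx (θ ⟨k, hk'⟩)⁻¹)
  rw [inv_inv, ← map_inv, ← map_mul, ← map_mul, ← mem_comap, comap_map_eq_self hK] at h2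
  have h3 := ((mem_N0_iff (pt 0) (pt 0)).1 h2)
  have h4 := Cg.co (v := (k⁻¹ * g * k) • E8 (pt 0)) (w := E8 (pt 0)) h3 k
  rwa [mul_smul, mul_smul, smul_inv_smul] at h4

variable {G : Type*} [Group G]

/-- an element `b` of odd prime order of `C(z)` mapping onto `β` -/
structure OS (Q : Subgroup G) (z : G) (π : ↥𝐂[z] →* Spor.Co1) (r : G → LL → Prop) (β : Co0) (b : G) : Prop where
  mt : MT Q z π r
  odd : Odd (orderOf b)
  bz : b ∈ 𝐂[z]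
  pb : pel π b = β
  ob : orderOf β = orderOf b

namespace OS
variable {Q : Subgroup G} {z : G} {π : ↥𝐂[z] →* Spor.Co1} {r : G → LL → Prop} {β : Co0} {b : G}
  (h : OS Q z π r β b) {q q' s y : G} {v : LL} {g : Co0} {p n : ℕ}
include h

theorem zb : z ∈ 𝐂[b] := mem_cent1_comm.1 h.bz

theorem oddβ : Odd (orderOf β) := h.ob ▸ h.odd

theorem oddB : Odd (Nat.card (zpowers b)) := by rw [Nat.card_zpowers]; exact h.odd

variable [Finite G]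

theorem inf_B : Q ⊓ zpowers b = ⊥ := inf_eq_bot_of_odd h.mt.ez.pg h.oddB

theorem cent_iff (hr : r q v) : q ∈ 𝐂[b] ↔ Cg (β • v : LL) v := by
  rw [h.mt.cg_iff hr (h.mt.equi h.bz h.pb hr), mem_cent1_comm, conj_eq_iff_mem_cent1, or_iff_left]
  intro e
  have hz := conj_eq_iff_mem_cent1.2 h.bz
  have key : ∀ k : ℕ, b ^ (2 * k + 1) * q * (b ^ (2 * k + 1))⁻¹ = q * z := fun k => by
    induction k with
    | zero => simpa using e
    | succ k ih =>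
      rw [show b ^ (2 * (k + 1) + 1) * q * (b ^ (2 * (k + 1) + 1))⁻¹ =
        b * (b * (b ^ (2 * k + 1) * q * (b ^ (2 * k + 1))⁻¹) * b⁻¹) * b⁻¹ by group, ih,
        show b * (q * z) * b⁻¹ = (b * q * b⁻¹) * (b * z * b⁻¹) by group, e, hz, mul_assoc q, h.mt.ez.sq, mul_one, e]
  obtain ⟨k, hk⟩ := h.odd
  have := key k
  rw [← hk, pow_orderOf_eq_one] at this
  exact h.mt.ez.ne_one (by simpa using this)

omit [Finite G] in
theorem exists_co (hy : y ∈ 𝐂[z] ⊓ 𝐂[b]) : ∃ g ∈ 𝐂[β], pel π y = g := by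
  obtain ⟨g, e⟩ := MT.exists_co π y
  refine ⟨g, conj_eq_iff_mem_cent1.1 (eq_of_mk_eq h.oddβ ((MulAut.conj g).orderOf_eq β) ?_), e⟩
  rw [QuotientGroup.mk_mul, QuotientGroup.mk_mul, QuotientGroup.mk_inv, ← e, ← h.pb, ← pel_conj π hy.1 h.bz,
    conj_eq_iff_mem_cent1.2 hy.2]

theorem cop : CopAct Q (zpowers b) :=
  copAct_zpowers (h.mt.lq.le_norm h.bz) (by rw [← Nat.card_zpowers]; exact coprime_of_odd h.mt.ez.pg h.oddB)

theorem lift (hg : g ∈ 𝐂[β]) : ∃ y ∈ 𝐂[z] ⊓ 𝐂[b], pel π y = g := by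
  have := CopAct.pmap_inf_cent_ker (f := π) (A := zpowers b) (H := 𝐂[z]) (h.mt.ker.symm ▸ h.cop)
    (zpowers_le.2 h.bz) (norms_self_of_le (zpowers_le.2 h.bz))
  rw [cent_zpowers, pmap_zpowers π h.bz, cent_zpowers, pmap_dom, MonoidHom.range_eq_top.2 h.mt.surj, top_inf_eq,
    h.pb] at this
  refine (mem_pmap_of_le inf_le_left).1 (this.ge (mem_cent1_iff.2 ?_))
  rw [← QuotientGroup.mk_mul, ← QuotientGroup.mk_mul, mem_cent1_iff.1 hg]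

theorem card_R (hc : CD β p n) : Nat.card ↥(Q ⊓ 𝐂[b]) = 2 ^ (n + 1) := by
  obtain ⟨e, h1, h2, h3⟩ := hc.cnt
  choose F hF using h.mt.r_ex'
  have hz : zpowers z ≤ Q ⊓ 𝐂[b] := zpowers_le.2 (mem_inf.2 ⟨h.mt.ez.mem, h.zb⟩)
  have hr : ∀ i (t : zpowers z), r (F (e i) * t) (e i) := fun i t => by
    rcases h.mt.ez.mem_zp.1 t.2 with k | k <;> rw [k]
    · simpa using hF _
    · exact h.mt.r_z (hF _)
  rw [← Nat.card_congr (Equiv.ofBijective (fun x : Fin (2 ^ n) × zpowers z => (⟨F (e x.1) * x.2,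
    mul_mem (mem_inf.2 ⟨h.mt.r_mem (hF _), (h.cent_iff (hF _)).2 (h1 _)⟩) (hz x.2.2)⟩ : ↥(Q ⊓ 𝐂[b]))) ⟨?_, ?_⟩),
    Nat.card_prod, h.mt.ez.card_zp, Nat.card_eq_fintype_card, Fintype.card_fin, pow_succ]
  · rintro ⟨i, t⟩ ⟨j, u⟩ k
    have k1 : F (e i) * t = F (e j) * u := congrArg Subtype.val k
    obtain rfl : i = j := h2 _ _ (h.mt.cg_of (hr j u) (k1 ▸ hr i t))
    exact Prod.ext rfl (Subtype.ext (mul_left_cancel k1))
  · rintro ⟨q, hq⟩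
    obtain ⟨v, hv⟩ := h.mt.r_ex hq.1
    obtain ⟨i, hi⟩ := h3 v ((h.cent_iff hv).1 hq.2)
    rcases (h.mt.cg_iff (hF (e i)) hv).1 hi with k | k
    · exact ⟨(i, 1), Subtype.ext (by simp [k])⟩
    · exact ⟨(i, ⟨z, mem_zpowers z⟩), Subtype.ext k.symm⟩

omit [Finite G] in
theorem mem_KK_iff (hy : y ∈ 𝐂[z] ⊓ 𝐂[b]) (e : pel π y = g) : g ∈ KK β ↔ y ∈ zpowers b ⊔ (Q ⊓ 𝐂[b]) := by
  have hb : ∀ k : ℤ, b ^ k ∈ 𝐂[z] ⊓ 𝐂[b] := fun k => zpow_mem (mem_inf.2 ⟨h.bz, self_mem_cent1 b⟩) k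
  have hp : ∀ k : ℤ, pel π (b ^ k) = (β ^ k : Co0) := fun k => by rw [pel_zpow π h.bz, h.pb]; rfl
  rw [mem_KK, mem_sup_of_norm_right (norms_zpowers_of_cent1 inf_le_right)]
  constructor
  · rintro ⟨k, hk⟩
    refine ⟨b ^ k, ⟨k, rfl⟩, (b ^ k)⁻¹ * y, ⟨h.mt.mem_of_pel (mul_mem (inv_mem (hb k).1) hy.1) ?_,
      (mul_mem (inv_mem (hb k)) hy).2⟩, by group⟩
    rw [pel_mul π (inv_mem (hb k).1) hy.1, pel_inv π (hb k).1, hp, e, inv_mul_eq_one, mk_eq_iff]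
    exact hk
  · rintro ⟨_, ⟨k, rfl⟩, a, ha, rfl⟩
    rw [pel_mul π (hb k).1 (h.mt.le_C ha.1), h.mt.pel_eq_one ha.1, mul_one, hp, mk_eq_iff] at e
    exact ⟨k, e⟩

theorem ez_R (hq : q ∈ Q ⊓ 𝐂[b]) (h1 : q ∉ zpowers z) : EZ (Q ⊓ 𝐂[b]) z := by
  have := h.mt.ez.odd_cent_or (zpowers_le.2 (h.mt.lq.le_norm h.bz)) h.oddB
  rw [cent_zpowers] at this
  exact this.resolve_left fun e => h1 (e ▸ hq)

/-- conjugates of `z` in `C_Q(b)` are conjugate to `z` in `C(b)` -/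
theorem swap (hq : q ∈ Q ⊓ 𝐂[b]) (hc : IsConj z q) (hne : q ≠ z) :
    ∃ x ∈ 𝐂[b], x * z * x⁻¹ = q ∧ x * q * x⁻¹ = z := by
  obtain ⟨k, rfl⟩ := isConj_iff.1 hc
  have ht := h.mt.lq.tri hq.1 hne
  have hR := h.ez_R hq ht.not_mem
  have hP : EZ (cj k Q ⊓ 𝐂[b]) (k * z * k⁻¹) := by
    have := ht.r.ez.odd_cent_or (zpowers_le.2 (ht.r.le_norm (mem_cent1_comm.1 hq.2))) h.oddB
    rw [cent_zpowers] at this
    exact this.resolve_left fun e => ht.symm.not_mem (e ▸ mem_inf.2 ⟨ht.mem', h.zb⟩)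
  obtain ⟨c, hc, e1⟩ := hP.exists_conj (mem_inf.2 ⟨ht.mem', h.zb⟩) ht.symm.not_mem
  obtain ⟨a, ha, e2⟩ := LQ.exists_swap hR hq ht.not_mem (hP.conj_z hc) hP.sq e1
  exact ⟨_, mul_mem (mul_mem hc.2 ha.2) (inv_mem hc.2), e2⟩

theorem frame_mem (hc : β ∈ N0) (hs : r s (E8 (pt 0))) : s ∈ Q ⊓ 𝐂[b] :=
  ⟨h.mt.r_mem hs, (h.cent_iff hs).2 ((mem_N0_iff (pt 0) (pt 0)).1 hc)⟩

/-- an element of `C(b)` centralising `C_Q(b)` modulo `z` lies in `⟨b⟩ C_Q(b)` -/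
theorem mem_of_faith (hc : CD β p n) (hy : y ∈ 𝐂[z] ⊓ 𝐂[b])
    (hx : ∀ q ∈ Q ⊓ 𝐂[b], y * q * y⁻¹ * q⁻¹ ∈ zpowers z) : y ∈ zpowers b ⊔ (Q ⊓ 𝐂[b]) := by
  obtain ⟨g, hg, e⟩ := h.exists_co hy
  refine (h.mem_KK_iff hy e).1 (hc.faith g hg fun k hk => ?_)
  obtain ⟨q, hq⟩ := h.mt.r_ex' (k • E8 (pt 0))
  have h1 : q ∈ Q ⊓ 𝐂[b] := ⟨h.mt.r_mem hq, (h.cent_iff hq).2 (by
    rw [← mul_smul, ← mem_cent1_iff.1 hk, mul_smul]
    exact Cg.co (w := E8 (pt 0)) ((mem_N0_iff (pt 0) (pt 0)).1 hc.mem) k)⟩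
  have := (h.mt.r_iff (h.mt.r_mul (h.mt.equi hy.1 e hq) (h.mt.r_inv hq))).1 (hx q h1)
  exact (cg_iff_add (k • E8 (pt 0) : LL).2).2 this

section quot
variable {H : Type*} [Group H] {D : Subgroup G} {f : D →* H} (hD : D = 𝐂[b]) (hf : Function.Surjective f)
  (hk : pker f = zpowers b)
include hD hk

omit [Finite G] in
theorem eq_of_pel (hx : q ∈ D) (hy : y ∈ D) (h2 : q * q = 1) (h2' : y * y = 1) (e : pel f q = pel f y) : q = y := by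
  subst hD
  rw [pel_eq_iff f hx hy, hk] at e
  have h1 : q * y⁻¹ * y = y * (q * y⁻¹) := by
    obtain ⟨k, hk⟩ := e
    rw [← hk]
    exact ((show Commute y b from mem_cent1_iff.1 hy).zpow_right k).symm
  have h3 : (q * y⁻¹) ^ 2 = 1 := by
    rw [inv_eq_of_mul_eq_one_right h2'] at h1 ⊢
    rw [mul_assoc, h2', mul_one] at h1
    rw [sq, mul_assoc, ← h1, h2]
  have h4 := orderOf_dvd_of_pow_eq_one h3
  have h5 := orderOf_dvd_of_mem_zpowers e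
  rw [← mul_inv_eq_one, ← orderOf_eq_one_iff]
  exact Nat.eq_one_of_dvd_coprimes ((Nat.coprime_two_left).2 h.odd) h4 h5

omit [Finite G] in
theorem conj_of_pel (hx : y ∈ D) (hq : q ∈ D) (h2 : q * q = 1) (e : pel f y * pel f z * (pel f y)⁻¹ = pel f q) :
    y * z * y⁻¹ = q := by
  have hz : z ∈ D := hD ▸ h.zb
  rw [← pel_conj f hx hz] at e
  exact h.eq_of_pel hD hk (mul_mem (mul_mem hx hz) (inv_mem hx)) hq
    (by rw [show y * z * y⁻¹ * (y * z * y⁻¹) = y * (z * z) * y⁻¹ by group, h.mt.ez.sq]; group) h2 e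

include hf

omit [Finite G] in
theorem pmap_C : pmap f (𝐂[z] ⊓ 𝐂[b]) = 𝐂[pel f z] := by
  have hz : z ∈ D := hD ▸ h.zb
  refine le_antisymm ((pmap_mono f inf_le_left).trans (pmap_cent1 f hz)) fun y hy => ?_
  obtain ⟨m, hm, rfl⟩ := exists_pel f hf y
  exact pel_mem_pmap f ⟨conj_eq_iff_mem_cent1.1
    (h.conj_of_pel hD hk hm hz h.mt.ez.sq (conj_eq_iff_mem_cent1.2 hy)), hD ▸ hm⟩

theorem lq (hc : CD β p n) (hs : r s (E8 (pt 0))) : LQ (pmap f (Q ⊓ 𝐂[b])) (pel f z) := by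
  haveI : Finite H := Finite.of_surjective f hf
  have hz : z ∈ D := hD ▸ h.zb
  have hsR := h.frame_mem hc.mem hs
  have hR := h.ez_R hsR fun k => MT.not_cg_zero (v := E8 (pt 0)) (by rw [coe_E8, norm_e8]; norm_num) (norm_e8 _).le
    ((h.mt.r_iff hs).1 k)
  have hzm : ∀ m ∈ D, m * z * m⁻¹ * z⁻¹ ∈ pker f → m ∈ 𝐂[z] := fun m hm e =>
    conj_eq_iff_mem_cent1.1 (h.conj_of_pel hD hk hm hz h.mt.ez.sq (by
      rw [← pel_conj f hm hz, pel_eq_iff f (mul_mem (mul_mem hm hz) (inv_mem hm)) hz]; exact e))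
  refine lq_pmap f hf h.mt.ez inf_le_left (hD ▸ inf_le_right) hR.mem ?_ hR.not_abelian (fun m hm e => ?_)
    fun m hm e => ⟨m, ⟨hm, norms_inf (inf_le_left.trans h.mt.lq.le_norm) (norms_cent1 inf_le_right)
      (mem_inf.2 ⟨hzm m hm e, hD ▸ hm⟩)⟩, rfl⟩
  · rw [hk]
    exact fun e => h.mt.ez.ne_one (mem_bot.1 (h.inf_B ▸ mem_inf.2 ⟨h.mt.ez.mem, e⟩))
  · have hmz := hzm m hm (e z hR.mem)
    have hmR : ∀ q ∈ Q ⊓ 𝐂[b], m * q * m⁻¹ * q⁻¹ = 1 := fun q hq => mem_bot.1 (h.inf_B ▸ mem_inf.2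
      ⟨mul_mem (conj_mem_of_mem_normalizer (h.mt.lq.le_norm hmz) hq.1) (inv_mem hq.1), hk ▸ e q hq⟩)
    obtain ⟨c, hc', a, ha, rfl⟩ := (mem_sup_of_norm_right (norms_zpowers_of_cent1 inf_le_right)).1
      (h.mem_of_faith hc (mem_inf.2 ⟨hmz, hD ▸ hm⟩) fun q hq => by rw [hmR q hq]; exact one_mem _)
    rw [hk]
    refine mul_mem (mem_sup_left hc') (mem_sup_right (hR.mem_zp_of_cent ha ?_))
    have h1 : c ∈ 𝐂(Q ⊓ 𝐂[b]) := cents_symm (inf_le_right.trans (cent_zpowers b).ge) hc'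
    have h2 : c * a ∈ 𝐂(Q ⊓ 𝐂[b]) := mem_cent_iff'.2 fun q hq => by
      have := hmR q hq
      rwa [mul_inv_eq_one, mul_inv_eq_iff_eq_mul] at this
    simpa using mul_mem (inv_mem h1) h2

omit hf in
theorem card_pmap_R (hc : CD β p n) : Nat.card (pmap f (Q ⊓ 𝐂[b])) = 2 ^ (n + 1) := by
  rw [card_pmap_of_inj (hD ▸ inf_le_right), h.card_R hc]
  rw [hk, ← inf_assoc, inf_comm _ Q, h.inf_B, bot_inf_eq]

theorem exists_equiv [((pmap f (Q ⊓ 𝐂[b])).subgroupOf 𝐂[pel f z]).Normal] {L : Type*} [Group L] (θ : ↥𝐂[β] →* L)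
    (hθ : Function.Surjective θ) (hθ' : ∀ g, θ g = 1 ↔ g.1 ∈ KK β) :
    Nonempty (↥𝐂[pel f z] ⧸ (pmap f (Q ⊓ 𝐂[b])).subgroupOf 𝐂[pel f z] ≃* L) := by
  choose γ h1 h2 using fun y : ↥(𝐂[z] ⊓ 𝐂[b]) => h.exists_co y.2
  have key : ∀ (y : ↥(𝐂[z] ⊓ 𝐂[b])) (g : ↥𝐂[β]), pel π y = g.1 → θ ⟨γ y, h1 y⟩ = θ g := fun y g e => by
    rw [h2, mk_eq_iff] at e
    rw [eq_comm, ← mul_inv_eq_one, ← map_inv, ← map_mul, hθ', mem_KK]
    refine ⟨0, e.imp (fun k => ?_) fun k => ?_⟩ <;> simp [k]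
  let θ' : ↥(𝐂[z] ⊓ 𝐂[b]) →* L := MonoidHom.mk' (fun y => θ ⟨γ y, h1 y⟩) fun x y => by
    rw [← map_mul]
    exact key _ _ (by rw [coe_mul, pel_mul π x.2.1 y.2.1, h2, h2]; rfl)
  obtain ⟨e, -⟩ := exists_quot_equiv f (hD ▸ inf_le_right) (h.pmap_C hD hf hk) (S := pmap f (Q ⊓ 𝐂[b])) θ'
    (fun l => by
      obtain ⟨g, rfl⟩ := hθ l
      obtain ⟨y, hy, e⟩ := h.lift g.2
      exact ⟨⟨y, hy⟩, key ⟨y, hy⟩ g e⟩)
    fun y => by
      refine Iff.trans ?_ ((hθ' ⟨γ y, h1 y⟩).trans (h.mem_KK_iff y.2 (h2 y))).symm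
      rw [← hk, ← pcomap_pmap f (hD ▸ inf_le_right), mem_pcomap]
      exact (and_iff_right (hD ▸ y.2.2)).symm
  exact ⟨e⟩

theorem setting {w : ℕ} (hc : CD β p (2 * w)) (hs : r s (E8 (pt 0))) :
    IsExtraspecialCentralizerSetting (pel f z) ((pmap f (Q ⊓ 𝐂[b])).subgroupOf 𝐂[pel f z]) w := by
  haveI : Finite H := Finite.of_surjective f hf
  have hl := h.lq hD hf hk hc hs
  haveI := hl.normalIn.normal_subgroupOf
  have hq : ∀ g : ↥𝐂[β], QuotientGroup.mk' ((KK β).subgroupOf 𝐂[β]) g = 1 ↔ g.1 ∈ KK β := fun g =>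
    QuotientGroup.eq_one_iff g
  obtain ⟨e⟩ := h.exists_equiv hD hf hk _ (QuotientGroup.mk'_surjective _) hq
  have hsR := h.frame_mem hc.mem hs
  obtain ⟨c1, c2⟩ := h.mt.conj_of_type4 hs (norm_e8 _)
  obtain ⟨x, hx, e1, -⟩ := h.swap hsR c1 c2
  have hz : z ∈ D := hD ▸ h.zb
  refine setting_of_lq hl (oP_le_of_equiv hl.normalIn.1 e (hc.pCore_eq _ (QuotientGroup.mk'_surjective _) hq))
    (h.card_pmap_R hD hk hc) ⟨pel f x, ?_, fun e2 => c2 ?_⟩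
  · rw [← pel_conj f (hD ▸ hx) hz, e1]; exact pel_mem_pmap f hsR
  · rw [← e1]; exact h.conj_of_pel hD hk (hD ▸ hx) hz h.mt.ez.sq e2

/-- the conjugates of `z` in the section -/
theorem isConj_iff' (hq : q ∈ Q ⊓ 𝐂[b]) : IsConj (pel f z) (pel f q) ↔ IsConj z q := by
  have hz : z ∈ D := hD ▸ h.zb
  constructor
  · intro e
    obtain ⟨y, e⟩ := isConj_iff.1 e
    obtain ⟨m, hm, rfl⟩ := exists_pel f hf y
    have hqD : q ∈ D := hD ▸ hq.2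
    refine isConj_iff.2 ⟨m, h.conj_of_pel hD hk hm hqD ?_ e⟩
    have h1 : q * q ∈ pker f := mem_pker.2 ⟨mul_mem hqD hqD, by
      rw [pel_mul f hqD hqD, ← e, show ∀ a c : H, a * c * a⁻¹ * (a * c * a⁻¹) = a * (c * c) * a⁻¹ by
        intro a c; group, ← pel_mul f hz hz, h.mt.ez.sq]; simp⟩
    exact mem_bot.1 (h.inf_B ▸ mem_inf.2 ⟨mul_mem hq.1 hq.1, hk ▸ h1⟩)
  · intro e
    by_cases hne : q = z
    · rw [hne]
    · obtain ⟨x, hx, e1, -⟩ := h.swap hq e hne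
      exact isConj_iff.2 ⟨pel f x, by rw [← pel_conj f (hD ▸ hx) hz, e1]⟩

end quot

end OS

end CA.Co
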