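import Cfsg.Agent.Lib.Co.Calc
import Cfsg.Agent.Lib.Co.Odd

/-!
Coordinates on the classes modulo two fixed by an element of odd order, and counting lemmas.
-/

set_option autoImplicit false

namespace CA.Co
open Cfsg CA.Gol CA Subgroup
open scoped Pointwise Matrix

section abstract
variable {C V J P : Type*} [Group C] [Group P]

theorem orbit_count [Finite C] (ρ : C →* Equiv.Perm V) (x : V) {H : Subgroup C} (hH : ∀ g, g ∈ H ↔ ρ g x = x)
    {X : Set V} (hX : X.Finite) (h1 : ∀ g, ρ g x ∈ X) {a b : ℕ} (ha : X.ncard ≤ a) (hb : Nat.card H ≤ b) :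
    Nat.card C ≤ a * b ∧ (a * b ≤ Nat.card C → H.index = a ∧ ∀ y ∈ X, ∃ g, ρ g x = y) := by
  letI := MulAction.compHom V ρ
  have e : H = MulAction.stabilizer C x := Subgroup.ext hH
  have h2 : H.index = (MulAction.orbit C x).ncard := e ▸ MulAction.index_stabilizer C x
  have h3 : MulAction.orbit C x ⊆ X := by rintro _ ⟨g, rfl⟩; exact h1 g
  have h4 := Set.ncard_le_ncard h3 hX
  have h5 := H.index_mul_card
  refine ⟨h5 ▸ Nat.mul_le_mul (by omega) hb, fun k => ?_⟩
  have h6 : a ≤ H.index := by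
    by_contra hc
    have : H.index * Nat.card H < a * b := Nat.mul_lt_mul_of_lt_of_le (by omega) hb (Nat.card_pos.trans_le hb)
    omega
  exact ⟨by omega, fun y hy => (Set.eq_of_subset_of_ncard_le h3 (by omega) hX).ge hy⟩

theorem exists_obj_hom (ρ : C →* Equiv.Perm V) {ob : J → Set V} (hi : Function.Injective ob) :
    ∃ (S : Subgroup C) (Θ : S →* Equiv.Perm J), (∀ g (σ : Equiv.Perm J), (∀ j x, ρ g x ∈ ob (σ j) ↔ x ∈ ob j) →
      ∃ hg : g ∈ S, Θ ⟨g, hg⟩ = σ) ∧ ∀ (g : S) j x, ρ g x ∈ ob (Θ g j) ↔ x ∈ ob j := by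
  let S : Subgroup C :=
    { carrier := {g | ∃ σ : Equiv.Perm J, ∀ j x, ρ g x ∈ ob (σ j) ↔ x ∈ ob j}
      one_mem' := ⟨1, by simp⟩
      mul_mem' := by
        rintro a b ⟨σ, ha⟩ ⟨τ, hb⟩
        exact ⟨σ * τ, fun j x => by rw [map_mul, Equiv.Perm.mul_apply, Equiv.Perm.mul_apply, ha, hb]⟩
      inv_mem' := by
        rintro a ⟨σ, ha⟩
        exact ⟨σ⁻¹, fun j x => by rw [← ha]; simp⟩ }
  have u : ∀ (g : C) (σ τ : Equiv.Perm J), (∀ j x, ρ g x ∈ ob (σ j) ↔ x ∈ ob j) →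
      (∀ j x, ρ g x ∈ ob (τ j) ↔ x ∈ ob j) → σ = τ := fun g σ τ h1 h2 => Equiv.ext fun j => hi (Set.ext fun y => by
    obtain ⟨x, rfl⟩ := (ρ g).surjective y
    rw [h1, h2])
  refine ⟨S, MonoidHom.mk' (fun g => g.2.choose) fun a b => u (a * b) _ _ (a * b).2.choose_spec fun j x => ?_,
    fun g σ h => ⟨⟨σ, h⟩, u g _ _ (Exists.choose_spec (⟨σ, h⟩ : g ∈ S)) h⟩, fun g => g.2.choose_spec⟩
  rw [map_mul, Equiv.Perm.mul_apply, Equiv.Perm.mul_apply, a.2.choose_spec, b.2.choose_spec]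

theorem exists_onto [Finite C] {S K : Subgroup C} (Θ : S →* P) {T : Subgroup P} (hK : ∀ g ∈ K, ∃ hg : g ∈ S,
    Θ ⟨g, hg⟩ = 1) (hT : T ≤ Θ.range) (hc : Nat.card C ≤ Nat.card K * Nat.card T) :
    Nat.card C = Nat.card K * Nat.card T ∧ ∃ θ : C →* T, Function.Surjective θ ∧ (∀ g, θ g = 1 ↔ g ∈ K) ∧
      ∀ g, ∃ hg : g ∈ S, (θ g : P) = Θ ⟨g, hg⟩ := by
  have h1 : K ≤ Θ.ker.map S.subtype := fun g hg => by obtain ⟨h, e⟩ := hK g hg; exact ⟨⟨g, h⟩, e, rfl⟩
  have h2 := card_le_of_le' h1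
  rw [card_map_subtype] at h2
  haveI : Finite Θ.range := Finite.of_surjective _ Θ.rangeRestrict_surjective
  have h3 : Nat.card T ≤ Nat.card Θ.range := Nat.card_le_card_of_injective _ (inclusion_injective hT)
  have h4 : Nat.card Θ.ker * Nat.card Θ.range = Nat.card S := by
    rw [← index_ker, card_mul_index]
  have h5 : Nat.card S ≤ Nat.card C := card_le_card_group S
  have h6 := Nat.mul_le_mul h2 h3
  have h7 : Nat.card Θ.ker ≤ Nat.card K := by
    by_contra h
    have := Nat.mul_lt_mul_of_lt_of_le (not_le.1 h) h3 Nat.card_pos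
    omega
  have h8 : Nat.card Θ.range ≤ Nat.card T := by
    by_contra h
    have := Nat.mul_lt_mul_of_le_of_lt h2 (not_le.1 h) Nat.card_pos
    omega
  have e1 : S = ⊤ := eq_top_of_le_card _ (by omega)
  have e2 : T = Θ.range := eq_of_le_of_card_ge hT h8
  have e3 : K = Θ.ker.map S.subtype := eq_of_le_of_card_le h1 (by rwa [card_map_subtype])
  subst e1 e2
  refine ⟨by omega, Θ.rangeRestrict.comp (topEquiv (G := C)).symm.toMonoidHom,
    Θ.rangeRestrict_surjective.comp (topEquiv (G := C)).symm.surjective, fun g => ?_, fun g => ⟨mem_top g, rfl⟩⟩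
  rw [e3, Subtype.ext_iff]
  exact ⟨fun h => ⟨⟨g, mem_top g⟩, h, rfl⟩, by rintro ⟨x, h, rfl⟩; exact h⟩

/-- the complete identification of a group acting on a family of objects -/
theorem ident_obj [Finite C] (ρ : C →* Equiv.Perm V) {ob : J → Set V} (hi : Function.Injective ob) {K : Subgroup C}
    (hK : ∀ g ∈ K, ρ g = 1) {T : Subgroup (Equiv.Perm J)}
    (hT : ∀ R : Subgroup (Equiv.Perm J), (∀ g (σ : Equiv.Perm J), (∀ j x, ρ g x ∈ ob (σ j) ↔ x ∈ ob j) → σ ∈ R) → T ≤ R)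
    (hc : Nat.card C ≤ Nat.card K * Nat.card T) :
    Nat.card C = Nat.card K * Nat.card T ∧ ∃ θ : C →* T, Function.Surjective θ ∧ (∀ g, θ g = 1 ↔ g ∈ K) ∧
      (∀ g j x, ρ g x ∈ ob ((θ g).1 j) ↔ x ∈ ob j) ∧ ∀ g, (∀ j, ∀ x ∈ ob j, ρ g x = x) → g ∈ K := by
  obtain ⟨S, Θ, h1, h2⟩ := exists_obj_hom ρ hi
  obtain ⟨h3, θ, h4, h5, h6⟩ := exists_onto Θ (K := K) (fun g hg => h1 g 1 (by simp [hK g hg]))
    (hT _ fun g σ h => by obtain ⟨hg, e⟩ := h1 g σ h; exact ⟨_, e⟩) hc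
  have h7 : ∀ g j x, ρ g x ∈ ob ((θ g).1 j) ↔ x ∈ ob j := fun g j x => by
    obtain ⟨hg, e⟩ := h6 g
    rw [e]; exact h2 ⟨g, hg⟩ j x
  refine ⟨h3, θ, h4, h5, h7, fun g h => (h5 g).1 (Subtype.ext (Equiv.ext fun j => hi (Set.ext fun x => ?_)))⟩
  exact ⟨fun k => (h7 g j x).1 (by rwa [h _ x k]), fun k => by rw [← h _ x k]; exact (h7 g j x).2 k⟩

theorem alternating_le {α : Type*} [Fintype α] [DecidableEq α] {c : Equiv.Perm α} (h1 : c.IsCycle)
    (h2 : c.support = Finset.univ) (h3 : c ∈ alternatingGroup α) (x : α) {R : Subgroup (Equiv.Perm α)} (hc : c ∈ R)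
    (hc' : Equiv.swap x (c x) * c * Equiv.swap x (c x) ∈ R) : alternatingGroup α ≤ R := by
  set t := Equiv.swap x (c x) with ht
  have htt : t * t = 1 := Equiv.swap_mul_self _ _
  have hti : t⁻¹ = t := inv_eq_of_mul_eq_one_right htt
  let H : Subgroup (Equiv.Perm α) := closure {c, t * c * t}
  have hn : t ∈ 𝐍(H) := norms_closure (X := zpowers t) (fun g hg y hy => by
    rcases (Ex2.mem_zp2 htt).1 hg with rfl | rfl
    · simpa using hy
    · rcases hy with rfl | rfl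
      · rw [hti]; simp
      · rw [hti, show t * (t * c * t) * t = t * t * c * (t * t) by group, htt]; simp) (mem_zpowers t)
  have hA : H ≤ alternatingGroup α := (closure_le _).2 (by
    rintro _ (rfl | rfl)
    · exact h3
    · nth_rewrite 2 [← hti]; exact (alternatingGroup.normal).conj_mem _ h3 t)
  have hs : H ⊔ zpowers t = ⊤ := eq_top_iff.2 ((Equiv.Perm.closure_cycle_adjacent_swap h1 h2 x).ge.trans
    ((closure_le _).2 (by
      rintro _ (rfl | rfl)
      · exact mem_sup_left (subset_closure (Or.inl rfl))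
      · exact mem_sup_right (mem_zpowers _))))
  intro g hg
  obtain ⟨a, ha, b, hb, rfl⟩ := (mem_sup_of_norm_right (zpowers_le.2 hn)).1 (hs.ge (mem_top g))
  have hR : H ≤ R := (closure_le _).2 (by rintro _ (rfl | rfl) <;> assumption)
  rcases (Ex2.mem_zp2 htt).1 hb with rfl | rfl
  · simpa using hR ha
  · have := mul_mem (inv_mem (hA ha)) hg
    rw [inv_mul_cancel_left, Equiv.Perm.mem_alternatingGroup, Equiv.Perm.sign_swap
      (Equiv.Perm.mem_support.1 (h2 ▸ Finset.mem_univ x)).symm] at this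
    exact absurd this (by decide)

end abstract

/-- vectors over the field with two elements -/
abbrev V2 (n : ℕ) : Type := Fin n → ZMod 2

/-- the vector of binary digits -/
def bits (n m : ℕ) : V2 n := fun j => if m.testBit j then 1 else 0

theorem bits_xor (n a b : ℕ) : bits n (a ^^^ b) = bits n a + bits n b := by
  funext j
  simp only [bits, Nat.testBit_xor, Pi.add_apply]
  cases a.testBit j <;> cases b.testBit j <;> decide

theorem bits_zero (n : ℕ) : bits n 0 = 0 := by funext j; simp [bits]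

theorem bits_inj {n a b : ℕ} (ha : a < 2 ^ n) (hb : b < 2 ^ n) (h : bits n a = bits n b) : a = b := by
  refine Nat.eq_of_testBit_eq fun j => ?_
  by_cases hj : j < n
  · have := congrFun h ⟨j, hj⟩
    simp only [bits] at this
    revert this
    cases a.testBit j <;> cases b.testBit j <;> decide
  · have := Nat.pow_le_pow_right (by norm_num : 0 < 2) (not_lt.1 hj)
    rw [Nat.testBit_lt_two_pow (by omega), Nat.testBit_lt_two_pow (by omega)]

theorem bits_bij (n : ℕ) : Function.Bijective fun m : Fin (2 ^ n) => bits n m :=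
  (Fintype.bijective_iff_injective_and_card _).2 ⟨fun a b h => Fin.ext (bits_inj a.2 b.2 h), by simp⟩

theorem bits_surj {n : ℕ} (x : V2 n) : ∃ m < 2 ^ n, x = bits n m := by
  obtain ⟨m, rfl⟩ := (bits_bij n).2 x
  exact ⟨m, m.2, rfl⟩

theorem bits_xorSel (n T m k : ℕ) : bits n (xorSel T m k) =
    ∑ i ∈ Finset.range k, (if m.testBit i then (1 : ZMod 2) else 0) • bits n (fld 24 T i) := by
  induction k with
  | zero => exact bits_zero n
  | succ k ih =>
    rw [Finset.sum_range_succ, ← ih, xorSel, tb_eq]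
    refine (bits_xor _ _ _).trans ?_
    cases m.testBit k
    · simp [bits_zero]
    · simp

theorem mulVec_bits {n T : ℕ} {A : Matrix (Fin n) (Fin n) (ZMod 2)} (h : ∀ j i, A j i = bits n (fld 24 T i) j) (m : ℕ) :
    A *ᵥ bits n m = bits n (xorSel T m n) := by
  rw [bits_xorSel, ← Fin.sum_univ_eq_sum_range (fun i => (if m.testBit i then (1 : ZMod 2) else 0) • bits n (fld 24 T i))]
  funext j
  simp only [Matrix.mulVec, dotProduct, h, Finset.sum_apply, Pi.smul_apply, smul_eq_mul, mul_comm]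
  rfl

/-- the set of vectors selected by a test -/
def bset (n : ℕ) (f : ℕ → Bool) : Set (V2 n) := {x | ∃ m < 2 ^ n, f m = true ∧ x = bits n m}

theorem bits_mem_bset {n m : ℕ} {f : ℕ → Bool} (hm : m < 2 ^ n) : bits n m ∈ bset n f ↔ f m = true :=
  ⟨fun ⟨_, h1, h2, h3⟩ => bits_inj hm h1 h3 ▸ h2, fun h => ⟨m, hm, h, rfl⟩⟩

theorem ncard_bset (n : ℕ) (f : ℕ → Bool) : (bset n f).ncard = countLt f (2 ^ n) := by
  rw [countLt_eq, ← Set.ncard_coe_finset, ← Set.InjOn.ncard_image (f := bits n) fun a ha b hb =>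
    bits_inj (by simp at ha; exact ha.1) (by simp at hb; exact hb.1)]
  congr 1
  ext x
  simp only [bset, Set.mem_ofPred_eq, Set.mem_image, Finset.coe_filter, Finset.mem_range, and_assoc, eq_comm]

theorem dot_add_left (x y u : ZV) : dotInt (x + y) u = dotInt x u + dotInt y u := dotInt_add_left x y u

/-- coordinates -/
def kap {n : ℕ} (d : Fin n → LL) : LL →+ V2 n :=
  AddMonoidHom.mk' (fun v j => ((dotInt (v : ZV) (d j) / 8 : ℤ) : ZMod 2)) fun v w => by
    funext j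
    rw [Pi.add_apply, AddSubgroup.coe_add, dot_add_left, Int.add_ediv_of_dvd_left (eight_dvd_dot v.2 (d j).2),
      Int.cast_add]

theorem kap_apply {n : ℕ} (d : Fin n → LL) (v : LL) (j : Fin n) :
    kap d v j = ((dotInt (v : ZV) (d j) / 8 : ℤ) : ZMod 2) := rfl

theorem kap_cg {n : ℕ} (d : Fin n → LL) {v w : LL} (h : Cg v w) : kap d v = kap d w := by
  funext j
  rw [kap_apply, kap_apply, ZMod.intCast_eq_intCast_iff_dvd_sub]
  have := h.dot (d j).2
  have := eight_dvd_dot v.2 (d j).2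
  have := eight_dvd_dot w.2 (d j).2
  omega

theorem cg_sum {ι : Type*} (s : Finset ι) {f g : ι → ZV} (h : ∀ i ∈ s, Cg (f i) (g i)) :
    Cg (∑ i ∈ s, f i) (∑ i ∈ s, g i) := by
  classical
  induction s using Finset.induction_on with
  | empty => simpa using Cg.refl 0
  | insert a s ha ih =>
    rw [Finset.sum_insert ha, Finset.sum_insert ha]
    exact (h a (by simp)).add (ih fun i hi => h i (by simp [hi]))

theorem cg_zsmul {a b : ℤ} (h : (a : ZMod 2) = b) {x y : ZV} (hy : y ∈ leechLattice) (e : Cg x y) :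
    Cg (a • x) (b • y) := by
  obtain ⟨k, hk⟩ := (ZMod.intCast_eq_intCast_iff_dvd_sub _ _ _).1 h
  obtain ⟨w, hw, e⟩ := e
  refine ⟨a • w - k • y, sub_mem (zsmul_mem hw _) (zsmul_mem hy _), ?_⟩
  rw [sub_eq_iff_eq_add.1 e, sub_eq_iff_eq_add.1 hk]
  push_cast
  module

/-- integral linear combinations -/
def comb {n : ℕ} (u : Fin n → LL) (a : Fin n → ℤ) : LL := ∑ i, a i • u i

theorem coe_comb {n : ℕ} (u : Fin n → LL) (a : Fin n → ℤ) : (comb u a : ZV) = ∑ i, a i • (u i : ZV) := by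
  simp [comb]

theorem cg_comb {n : ℕ} (u : Fin n → LL) {a b : Fin n → ℤ} (h : ∀ i, (a i : ZMod 2) = b i) :
    Cg (comb u a) (comb u b) := by
  rw [coe_comb, coe_comb]
  exact cg_sum _ fun i _ => cg_zsmul (h i) (u i).2 (Cg.refl _)

theorem co_comb {n : ℕ} (g : Co0) (u : Fin n → LL) (a : Fin n → ℤ) : g • comb u a = comb (fun i => g • u i) a := by
  show coHom g _ = _
  rw [comb, map_sum]
  exact Finset.sum_congr rfl fun i _ => map_zsmul _ _ _

/-- lift of a coordinate vector -/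
def lft {n : ℕ} (u : Fin n → LL) (x : V2 n) : LL := comb u fun i => (x i).val

/-- coordinates on the classes fixed by `β` -/
structure FX (β : Co0) {n : ℕ} (u d : Fin n → LL) : Prop where
  fix : ∀ i, Cg (β • u i : LL) (u i)
  dual : ∀ i j, kap d (u i) j = if i = j then 1 else 0
  span : ∀ v : LL, Cg (β • v : LL) v → ∃ a, Cg v (comb u a)

theorem cent_fix {β g : Co0} (hg : g ∈ 𝐂[β]) {v : LL} (hv : Cg (β • v : LL) v) : Cg (β • g • v : LL) (g • v : LL) := by
  rw [← mul_smul, ← mem_cent1_iff.1 hg, mul_smul]; exact hv.co g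

namespace FX
variable {β : Co0} {n : ℕ} {u d : Fin n → LL} (h : FX β u d) {v w : LL}
include h

theorem kap_comb (a : Fin n → ℤ) : kap d (comb u a) = fun j => (a j : ZMod 2) := by
  funext j
  rw [comb, map_sum, Finset.sum_apply, Finset.sum_eq_single j]
  · simp [h.dual]
  · intro i _ hi; simp [h.dual, hi]
  · simp

theorem kap_lft (x : V2 n) : kap d (lft u x) = x := by
  rw [lft, h.kap_comb]; simp

theorem comb_fix (a : Fin n → ℤ) : Cg (β • comb u a : LL) (comb u a) := by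
  rw [co_comb, coe_comb, coe_comb]
  exact cg_sum _ fun i _ => cg_zsmul rfl (u i).2 (h.fix i)

theorem cg_lft (hv : Cg (β • v : LL) v) : Cg v (lft u (kap d v)) := by
  obtain ⟨a, ha⟩ := h.span v hv
  exact ha.trans (cg_comb u fun i => by rw [kap_cg d ha, h.kap_comb]; simp)

theorem cg_iff (hv : Cg (β • v : LL) v) (hw : Cg (β • w : LL) w) : Cg v w ↔ kap d v = kap d w :=
  ⟨kap_cg d, fun e => (h.cg_lft hv).trans (e ▸ (h.cg_lft hw).symm)⟩

theorem cnt : ∃ e : Fin (2 ^ n) → LL, (∀ i, Cg (β • e i : LL) (e i)) ∧ (∀ i j, Cg (e i) (e j) → i = j) ∧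
    ∀ v : LL, Cg (β • v : LL) v → ∃ i, Cg v (e i) := by
  refine ⟨fun m => lft u (bits n m), fun _ => h.comb_fix _, fun i j e => (bits_bij n).1 ?_, fun v hv => ?_⟩
  · simpa only [h.kap_lft] using kap_cg d e
  · obtain ⟨m, hm⟩ := (bits_bij n).2 (kap d v)
    exact ⟨m, by simpa only [← hm] using h.cg_lft hv⟩

omit h in
/-- the matrix of the action -/
def am (u d : Fin n → LL) (g : Co0) : Matrix (Fin n) (Fin n) (ZMod 2) := fun j i => kap d (g • u i) j

theorem kap_smul (g : Co0) (hv : Cg (β • v : LL) v) : kap d (g • v) = am u d g *ᵥ kap d v := by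
  rw [kap_cg d ((h.cg_lft hv).co g), lft, co_comb, comb, map_sum]
  funext j
  simp only [map_zsmul, Finset.sum_apply, Pi.smul_apply]
  simp only [zsmul_eq_mul, Int.cast_natCast, ZMod.natCast_zmod_val, Matrix.mulVec, dotProduct, am, mul_comm]

/-- the action on the coordinates -/
@[instance_reducible] def act : MulAction ↥𝐂[β] (V2 n) where
  smul g x := am u d g *ᵥ x
  one_smul x := by
    show am u d 1 *ᵥ x = x
    rw [← h.kap_lft x, lft, ← h.kap_smul 1 (h.comb_fix _), one_smul]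
  mul_smul a b x := by
    show am u d (a * b) *ᵥ x = am u d a *ᵥ (am u d b *ᵥ x)
    rw [← h.kap_lft x, lft, ← h.kap_smul _ (h.comb_fix _), ← h.kap_smul _ (h.comb_fix _),
      ← h.kap_smul _ (cent_fix b.2 (h.comb_fix _)), mul_smul]

/-- the action on the coordinates -/
def rho : ↥𝐂[β] →* Equiv.Perm (V2 n) := @MulAction.toPermHom _ _ _ h.act

theorem rho_apply (g : ↥𝐂[β]) (x : V2 n) : h.rho g x = am u d g *ᵥ x := rfl

theorem rho_kap (g : ↥𝐂[β]) (hv : Cg (β • v : LL) v) : h.rho g (kap d v) = kap d (g.1 • v) :=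
  (h.kap_smul g hv).symm

theorem rho_eq_one {g : ↥𝐂[β]} : h.rho g = 1 ↔ ∀ v : LL, Cg (β • v : LL) v → Cg (g.1 • v : LL) v := by
  refine ⟨fun e v hv => (h.cg_iff (cent_fix g.2 hv) hv).2 (by rw [← h.rho_kap g hv, e]; rfl), fun e => ?_⟩
  ext1 x
  rw [← h.kap_lft x, lft, h.rho_kap g (h.comb_fix _)]
  exact kap_cg d (e _ (h.comb_fix _))

theorem rho_KK (g : ↥𝐂[β]) (hg : g ∈ (KK β).subgroupOf 𝐂[β]) : h.rho g = 1 := by
  have : KK β ≤ h.rho.ker.map (𝐂[β]).subtype := sup_le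
    (zpowers_le.2 ⟨⟨β, self_mem_cent1 β⟩, h.rho_eq_one.2 fun v hv => hv, rfl⟩)
    (zpowers_le.2 ⟨⟨_, negC_mem_cent β⟩, h.rho_eq_one.2 fun v _ => by
      show Cg (negC • v : LL) v
      rw [negC_smul]; exact cg_neg v.2, rfl⟩)
  obtain ⟨x, hx, e⟩ := this hg
  rwa [← show x = g from Subtype.ext e]

theorem count (hN : β ∈ N0) {f : ℕ → Bool} (hX : ∀ k ∈ 𝐂[β], kap d (k • E8 (pt 0)) ∈ bset n f) {a b : ℕ}
    (ha : countLt f (2 ^ n) = a) (hb : Nat.card ↥(N0 ⊓ 𝐂[β]) ≤ b) : Nat.card ↥𝐂[β] ≤ a * b ∧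
      (a * b ≤ Nat.card ↥𝐂[β] → N0.relIndex 𝐂[β] = a ∧ ∀ y ∈ bset n f, ∃ k ∈ 𝐂[β], kap d (k • E8 (pt 0)) = y) := by
  have h0 : Cg (β • E8 (pt 0) : LL) (E8 (pt 0)) := (mem_N0_iff (pt 0) (pt 0)).1 hN
  obtain ⟨h1, h2⟩ := orbit_count h.rho (kap d (E8 (pt 0))) (H := N0.subgroupOf 𝐂[β]) (fun g => by
    rw [h.rho_kap g h0, ← h.cg_iff (cent_fix g.2 h0) h0]; exact mem_N0_iff (pt 0) (pt 0)) (Set.toFinite (bset n f))
    (fun g => by rw [h.rho_kap g h0]; exact hX g g.2) ((ncard_bset n f).trans ha).le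
    (b := b) (by rwa [card_subgroupOf])
  refine ⟨h1, fun k => ⟨(h2 k).1, fun y hy => ?_⟩⟩
  obtain ⟨g, e⟩ := (h2 k).2 y hy
  exact ⟨g, g.2, by rwa [← h.rho_kap g h0]⟩

theorem cd {p : ℕ} (hp : p.Prime) (ho : Odd p) (hβ : orderOf β = p) (hN : β ∈ N0) (hi : Odd (N0.relIndex 𝐂[β]))
    {X : Set (V2 n)} (hX : ∀ y ∈ X, ∃ k ∈ 𝐂[β], kap d (k • E8 (pt 0)) = y)
    (hf : ∀ g : ↥𝐂[β], (∀ y ∈ X, h.rho g y = y) → g.1 ∈ KK β) : CD β p n := by
  have h0 : Cg (β • E8 (pt 0) : LL) (E8 (pt 0)) := (mem_N0_iff (pt 0) (pt 0)).1 hN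
  refine ⟨hp, ho, hβ, hN, fun g hg e => hf ⟨g, hg⟩ fun y hy => ?_, hi, h.cnt⟩
  obtain ⟨k, hk, rfl⟩ := hX y hy
  rw [h.rho_kap _ (cent_fix hk h0)]
  exact kap_cg d (e k hk)

end FX

theorem card_stab_le (σ : M24) {c : ℕ} (hc : code σ = c) : Nat.card ↥(N0 ⊓ 𝐂[pmC σ]) ≤
    countLt (fun i => force (enc i) fun m => Nat.beq (apM c m) m) 4096 * Nat.card ↥𝐂[σ] := by
  subst hc
  have key : ∀ g : ↥(N0 ⊓ 𝐂[pmC σ]), ∃ i ∈ (Finset.range 4096).filter fun i =>
      (force (enc i) fun m => Nat.beq (apM (code σ) m) m) = true, ∃ τ ∈ 𝐂[σ], g.1 = sgC (fs (enc i)) * pmC τ := by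
    rintro ⟨g, ⟨s, hs, τ, rfl⟩, h2⟩
    obtain ⟨i, hi, rfl⟩ := exists_enc hs
    have e := mem_cent1_iff.1 h2
    rw [mul_assoc, ← map_mul, ← mul_assoc, pmC_mul_sgC σ hs, mul_assoc, ← map_mul] at e
    obtain ⟨e1, e2⟩ := mono_inj hs (smul_mem_CW σ.2 hs) e
    refine ⟨i, Finset.mem_filter.2 ⟨Finset.mem_range.2 hi, ?_⟩, τ, mem_cent1_iff.2 e2, rfl⟩
    rw [force_eq, beq_iff]
    exact (smul_fs_eq_iff _ (enc_lt hi) (enc_lt hi)).1 e1.symm
  choose i hi τ hτ e using key
  rw [countLt_eq, ← Nat.card_eq_finsetCard, ← Nat.card_prod]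
  exact Nat.card_le_card_of_injective (fun g => (⟨i g, hi g⟩, ⟨τ g, hτ g⟩)) fun a b k => Subtype.ext (by
    rw [e a, e b, show i a = i b from congrArg (·.1.1) k, show τ a = τ b from congrArg (·.2.1) k])

/-! ### Checks -/

open Classical in
/-- a packed lattice vector -/
noncomputable def lv (U : ℕ) : LL := if h : vec U ∈ leechLattice then ⟨vec U, h⟩ else 0

theorem coe_lv {U : ℕ} (h : isLP U = true) : (lv U : ZV) = vec U := by rw [lv, dif_pos (isLP_mem h)]

/-- a table of lattice vectors -/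
noncomputable def tv (n T : ℕ) : Fin n → LL := fun i => lv (fld 192 T i)

/-- integer sums -/
def sumZ (f : ℕ → ℤ) (n : ℕ) : ℤ := Nat.rec 0 (fun i ih => Int.add ih (f i)) n

theorem sumZ_eq (f : ℕ → ℤ) (n : ℕ) : sumZ f n = ∑ i ∈ Finset.range n, f i := by
  induction n with
  | zero => rfl
  | succ n ih => rw [Finset.sum_range_succ, ← ih]; rfl

/-- iterated permutation -/
def itr (c e j : ℕ) : ℕ := Nat.rec j (fun _ ih => ap c ih) e

theorem itr_code (σ : Equiv.Perm GolayPt) (e : ℕ) (p : GolayPt) : itr (code σ) e (ix p) = ix ((σ ^ e) p) := by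
  induction e with
  | zero => rfl
  | succ e ih => rw [pow_succ', Equiv.Perm.mul_apply, ← ap_code_ix, ← ih]; rfl

/-- the coordinates of a packed vector -/
def ckK (n DT W m : ℕ) : Bool :=
  allLt (fun j => decide (Int.emod (Int.ediv (dz W (fld 192 DT j)) 8) 2 = Bool.rec 0 1 (tb m j))) n

theorem ckK_spec {n DT W m : ℕ} (hD : allLt (fun i => isLP (fld 192 DT i)) n = true) (h : ckK n DT W m = true) {v : LL}
    (hv : (v : ZV) = vec W) : kap (tv n DT) v = bits n m := by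
  funext j
  have : dz W (fld 192 DT j) / 8 % 2 = _ := of_decide_eq_true (allLt_iff.1 h j j.2)
  rw [kap_apply, tv, coe_lv (allLt_iff.1 hD j j.2), hv, dot_vec, ← ZMod.intCast_mod _ 2, Nat.cast_ofNat, this,
    bits, tb_eq]
  cases m.testBit j <;> rfl

/-- invariance of a packed vector -/
def ckI (c U : ℕ) : Bool := allLt (fun j => Nat.beq (fld 8 U (ap c j)) (fld 8 U j)) 24

theorem ckI_spec {σ : M24} {U : ℕ} (h : ckI (code σ) U = true) {v : LL} (hv : (v : ZV) = vec U) : pmC σ • v = v := by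
  refine Subtype.ext (funext fun p => ?_)
  obtain ⟨p, rfl⟩ := σ.1.surjective p
  have := beq_iff.1 (allLt_iff.1 h _ (ix_lt p))
  rw [ap_code_ix] at this
  rw [pmC_smul, pm, hv, vec, vec, vz, vz, this]; simp

/-- check for coordinates on the fixed classes -/
def ckF (c p n UT DT MT : ℕ) : Bool :=
  allLt (fun i => isLP (fld 192 UT i)) n && allLt (fun i => isLP (fld 192 DT i)) n &&
  allLt (fun i => force (fld 192 UT i) fun U => ckI c U && ckK n DT U (Nat.pow 2 i)) n &&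
  allLt (fun k => force (fld 192 genV k) fun g => force (fld 24 MT k) fun m => cg0 fun j =>
    Int.sub (sumZ (fun e => vz g (itr c e j)) p) (sumZ (fun i => Bool.rec 0 (vz (fld 192 UT i) j) (tb m i)) n)) 37

theorem coe_lft_bits {n UT : ℕ} (hU : allLt (fun i => isLP (fld 192 UT i)) n = true) (m : ℕ) (p : GolayPt) :
    (lft (tv n UT) (bits n m) : ZV) p = sumZ (fun i => Bool.rec 0 (vz (fld 192 UT i) (ix p)) (tb m i)) n := by
  rw [lft, coe_comb, sumZ_eq, Finset.sum_apply, ← Fin.sum_univ_eq_sum_range]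
  refine Finset.sum_congr rfl fun i _ => ?_
  rw [tv, coe_lv (allLt_iff.1 hU i i.2), bits, tb_eq]
  cases m.testBit i
  · simp
  · simp [vec, ZMod.val_one]

theorem fx_of {σ : M24} {c p n UT DT MT : ℕ} (hc : code σ = c) (hp : Odd p) (h : ckF c p n UT DT MT = true) :
    FX (pmC σ) (tv n UT) (tv n DT) := by
  subst hc
  simp only [ckF, Bool.and_eq_true, force_eq] at h
  obtain ⟨⟨⟨h1, h2⟩, h3⟩, h4⟩ := h
  have hu : ∀ i : Fin n, (tv n UT i : ZV) = vec (fld 192 UT i) := fun i => coe_lv (allLt_iff.1 h1 i i.2)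
  have h5 := fun i : Fin n => Bool.and_eq_true _ _ ▸ allLt_iff.1 h3 i i.2
  refine ⟨fun i => Cg.of_eq (congrArg _ (ckI_spec (h5 i).1 (hu i))), fun i j => ?_, fun v hv => ?_⟩
  · rw [ckK_spec h2 (h5 i).2 (hu i), bits]
    show (if (2 ^ (i : ℕ)).testBit j then (1 : ZMod 2) else 0) = _
    simp [Nat.testBit_two_pow, Fin.ext_iff]
  let tr : LL →+ LL := ∑ e ∈ Finset.range p, coHom (pmC σ ^ e)⁻¹
  have htr : ∀ w : LL, (tr w : ZV) = ∑ e ∈ Finset.range p, (((pmC σ ^ e)⁻¹ • w : LL) : ZV) := fun w => by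
    simp only [tr, AddMonoidHom.finsetSum_apply, AddSubmonoidClass.coe_finsetSum]; rfl
  let S : AddSubgroup LL :=
    { carrier := {w | ∃ a, Cg (tr w) (comb (tv n UT) a)}
      zero_mem' := ⟨0, by simpa [comb] using Cg.refl 0⟩
      add_mem' := by
        rintro a b ⟨x, hx⟩ ⟨y, hy⟩
        exact ⟨x + y, by simpa [comb, add_smul, Finset.sum_add_distrib] using hx.add hy⟩
      neg_mem' := by
        rintro a ⟨x, hx⟩
        exact ⟨-x, by simpa [comb] using hx.neg⟩ }
  obtain ⟨w, ⟨a, ha⟩, e⟩ := leech_le_gen (H := S.map leechLattice.subtype) (fun k hk => by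
    refine ⟨⟨_, genV_mem hk⟩, ⟨_, cg_iff_sub.2 (?_ : Cg (_ - lft (tv n UT) (bits n (fld 24 MT k))) 0)⟩, rfl⟩
    convert cg0_spec (allLt_iff.1 h4 k hk) using 1
    funext q
    rw [Pi.sub_apply, coe_lft_bits h1, htr, Finset.sum_apply]
    congr 1
    rw [sumZ_eq]
    refine Finset.sum_congr rfl fun e _ => ?_
    rw [← map_pow, ← map_inv, pmC_smul, itr_code]
    simp [pm, vec]) v.2
  obtain rfl : w = v := Subtype.ext e
  refine ⟨a, Cg.trans ?_ ha⟩
  have k1 : ∀ e : ℕ, Cg ((pmC σ ^ e)⁻¹ • w : LL) w := fun e => by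
    induction e with
    | zero => simpa using Cg.refl _
    | succ e ih =>
      refine Cg.trans ?_ ih
      have := (hv.co (pmC σ ^ (e + 1))⁻¹).symm
      rwa [← mul_smul, show (pmC σ ^ (e + 1))⁻¹ * pmC σ = (pmC σ ^ e)⁻¹ by group] at this
  rw [htr]
  refine Cg.trans ?_ (cg_sum _ fun e _ => k1 e).symm
  rw [Finset.sum_const, Finset.card_range, ← natCast_zsmul]
  simpa using cg_zsmul (a := 1) (b := p) (by simpa using ((ZMod.natCast_eq_one_iff_odd).2 hp).symm) w.2 (Cg.refl _)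

/-- check for the matrix of the action -/
def ckA (F : ℕ → ℕ → ℤ) (n UT DT T : ℕ) : Bool :=
  allLt (fun i => force (fld 192 UT i) fun U => pk (F U) fun W => ckK n DT W (fld 24 T i)) n

theorem am_mulVec {g : Co0} {F : ℕ → ℕ → ℤ} (hg : Rep g F) {c p n UT DT MT T : ℕ} (h : ckF c p n UT DT MT = true)
    (ha : ckA F n UT DT T = true) (m : ℕ) :
    FX.am (tv n UT) (tv n DT) g *ᵥ bits n m = bits n (xorSel T m n) := by
  simp only [ckF, Bool.and_eq_true] at h
  refine mulVec_bits (fun j i => ?_) m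
  obtain ⟨W, h1, h2⟩ := pk_spec (force_eq _ _ ▸ allLt_iff.1 ha i i.2)
  rw [FX.am, ckK_spec h.1.1.2 h1 ((hg _ (tv n UT i) (coe_lv (allLt_iff.1 h.1.1.1 i i.2))).trans h2.symm)]

/-- the quadratic form on the coordinates -/
def qf (n RT m : ℕ) : ℕ := sumLt (fun i => Bool.rec 0 (popc (Nat.land m (fld 24 RT i))) (tb m i)) n

/-- check for the quadratic form -/
def ckQ (n UT RT : ℕ) : Bool := allLt (fun i => allLt (fun j => decide (32 ∣
  (if i = j then 1 else 2) * dz (fld 192 UT i) (fld 192 UT j) - 16 * ((if tb (fld 24 RT i) j = true then 1 else 0) +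
    if i = j then 0 else if tb (fld 24 RT j) i = true then 1 else 0))) n) n

theorem dvd_sum_sum {k : ℤ} {f : ℕ → ℕ → ℤ} {n : ℕ} (h1 : ∀ i < n, k ∣ f i i)
    (h2 : ∀ i < n, ∀ j < n, i ≠ j → k ∣ f i j + f j i) :
    k ∣ ∑ i ∈ Finset.range n, ∑ j ∈ Finset.range n, f i j := by
  induction n with
  | zero => simp
  | succ n ih =>
    simp only [Finset.sum_range_succ, Finset.sum_add_distrib]
    rw [add_assoc, ← add_assoc (∑ i ∈ Finset.range n, f n i), add_comm (∑ i ∈ Finset.range n, f n i),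
      ← Finset.sum_add_distrib]
    exact dvd_add (ih (fun i hi => h1 i (by omega)) fun i hi j hj => h2 i (by omega) j (by omega))
      (dvd_add (Finset.dvd_sum fun i hi => h2 i (by have := Finset.mem_range.1 hi; omega) n (by omega)
        (Finset.mem_range.1 hi).ne) (h1 n (by omega)))

theorem popc_eq (m : ℕ) : popc m = ∑ j ∈ Finset.range 24, if m.testBit j then 1 else 0 := by
  rw [← card_fs, fs, Finset.card_filter, sum_pt]
  exact Finset.sum_congr rfl fun j hj => by rw [ix_pt (Finset.mem_range.1 hj)]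

theorem dot_sum {ι : Type*} (s : Finset ι) (x : ZV) (f : ι → ZV) :
    dotInt x (∑ i ∈ s, f i) = ∑ i ∈ s, dotInt x (f i) := by
  simp only [dotInt, Finset.sum_apply, Finset.mul_sum]; exact Finset.sum_comm

theorem norm_lft {n UT RT m : ℕ} (hn : n ≤ 24) (hU : allLt (fun i => isLP (fld 192 UT i)) n = true)
    (h : ckQ n UT RT = true) (hm : m < 2 ^ n) :
    32 ∣ sqNorm (lft (tv n UT) (bits n m) : ZV) - 16 * (qf n RT m : ℤ) := by
  let b : ℕ → ℤ := fun i => if m.testBit i then 1 else 0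
  let r : ℕ → ℕ → ℤ := fun i j => if tb (fld 24 RT i) j = true then 1 else 0
  have e1 : (lft (tv n UT) (bits n m) : ZV) = ∑ i ∈ Finset.range n, b i • vec (fld 192 UT i) := by
    rw [lft, coe_comb, ← Fin.sum_univ_eq_sum_range (fun i => b i • vec (fld 192 UT i))]
    refine Finset.sum_congr rfl fun i _ => ?_
    rw [tv, coe_lv (allLt_iff.1 hU i i.2), bits]
    simp only [b]
    cases m.testBit i <;> simp [ZMod.val_one]
  have e2 : (qf n RT m : ℤ) = ∑ i ∈ Finset.range n, ∑ j ∈ Finset.range n, b i * b j * r i j := by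
    rw [qf, sumLt_eq, Nat.cast_sum]
    refine Finset.sum_congr rfl fun i _ => ?_
    rw [tb_eq]
    rcases e : m.testBit i with _ | _
    · simp [b, e]
    · show ((popc (m &&& fld 24 RT i) : ℕ) : ℤ) = _
      rw [popc_eq, Nat.cast_sum, ← Finset.sum_subset (Finset.range_subset_range.2 hn)]
      · refine Finset.sum_congr rfl fun j _ => ?_
        simp only [b, r, e, tb_eq, Nat.testBit_and]
        cases m.testBit j <;> cases (fld 24 RT i).testBit j <;> simp
      · intro j _ hj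
        rw [Nat.testBit_and, Nat.testBit_lt_two_pow (hm.trans_le (Nat.pow_le_pow_right (by norm_num)
          (by simpa using hj)))]
        simp
  have e3 : sqNorm (∑ i ∈ Finset.range n, b i • vec (fld 192 UT i)) = ∑ i ∈ Finset.range n, ∑ j ∈ Finset.range n,
      b i * b j * dz (fld 192 UT i) (fld 192 UT j) := by
    rw [sqNorm_eq_dot, dot_sum]
    refine Finset.sum_congr rfl fun i _ => ?_
    rw [dot_smul, dot_comm, dot_sum, Finset.mul_sum]
    exact Finset.sum_congr rfl fun j _ => by rw [dot_smul, dot_vec, mul_assoc]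
  rw [e1, e2, e3]
  simp only [Finset.mul_sum, ← Finset.sum_sub_distrib]
  have key := fun i hi j hj => of_decide_eq_true (allLt_iff.1 (allLt_iff.1 h i hi) j hj)
  refine dvd_sum_sum (fun i hi => ?_) fun i hi j hj hij => ?_
  · have := (key i hi i hi).mul_left (b i * b i)
    simp only [if_true] at this
    refine (dvd_iff_dvd_of_dvd_sub (a := 32) ?_).1 this
    simp only [r]; ring_nf; exact dvd_zero _
  · have := (key i hi j hj).mul_left (b i * b j)
    simp only [if_neg hij] at this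
    refine (dvd_iff_dvd_of_dvd_sub (a := 32) ?_).1 this
    rw [← dot_vec (fld 192 UT j), dot_comm, dot_vec]; simp only [r]; ring_nf; exact dvd_zero _

/-- classes containing a vector of type two -/
def P2 (β : Co0) {n : ℕ} (d : Fin n → LL) (m : ℕ) : Prop :=
  ∃ v : LL, Cg (β • v : LL) v ∧ sqNorm (v : ZV) = 32 ∧ kap d v = bits n m

theorem FX.p2 {β g : Co0} {n : ℕ} {u d : Fin n → LL} (h : FX β u d) (hg : g ∈ 𝐂[β]) {m m' : ℕ}
    (e : FX.am u d g *ᵥ bits n m = bits n m') (hm : P2 β d m) : P2 β d m' := by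
  obtain ⟨v, h1, h2, h3⟩ := hm
  exact ⟨g • v, cent_fix hg h1, by rwa [co_norm], by rw [h.kap_smul g h1, h3, e]⟩

/-- the test for classes of type four -/
def t4 (n RT T m : ℕ) : Bool := !(Nat.beq m 0) && !(tb T m) && !(tb (qf n RT m) 0)

theorem mem_t4 {β : Co0} {c p n UT DT MT RT T : ℕ} (hn : n ≤ 24) (hF : FX β (tv n UT) (tv n DT))
    (h : ckF c p n UT DT MT = true) (hq : ckQ n UT RT = true) (hT : ∀ m, tb T m = true → P2 β (tv n DT) m) {v : LL}
    (hv : Cg (β • v : LL) v) (h64 : sqNorm (v : ZV) = 64) : kap (tv n DT) v ∈ bset n (t4 n RT T) := by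
  simp only [ckF, Bool.and_eq_true] at h
  obtain ⟨m, hm, e⟩ := bits_surj (kap (tv n DT) v)
  refine ⟨m, hm, ?_, e⟩
  have h1 := hF.cg_lft hv
  rw [e] at h1
  simp only [t4, Bool.and_eq_true, Bool.not_eq_true', beq_false_iff]
  refine ⟨⟨?_, ?_⟩, ?_⟩
  · rintro rfl
    refine CA.Co.MT.not_cg_zero (v := v) (by omega) (by omega) ?_
    simpa [bits_zero, lft, comb] using h1
  · by_contra k
    obtain ⟨w, a1, a2, a3⟩ := hT m (by simpa using k)
    have := ((hF.cg_iff hv a1).2 (e.trans a3.symm)).norm_eq w.2 (by omega) (by omega)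
    omega
  · have a1 := h1.norm (lft _ _).2
    have a2 := norm_lft hn h.1.1.1 hq hm
    rw [tb_eq, Nat.testBit_zero, decide_eq_false_iff_not]
    omega

theorem tb_orl {e : ℕ → ℕ} {n T m : ℕ} (h : orl (fun t => Nat.pow 2 (e t)) n = T) (hm : tb T m = true) :
    ∃ t < n, e t = m := by
  rw [← h, tb_eq, testBit_orl] at hm
  obtain ⟨t, ht, k⟩ := hm
  have : (2 ^ e t).testBit m = true := k
  exact ⟨t, ht, by rwa [Nat.testBit_two_pow, decide_eq_true_eq] at this⟩

/-- check that a map permutes the objects -/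
def ckO (n T O O' : ℕ) : Bool :=
  allLt (fun m => force (xorSel T m n) fun m' => Nat.blt m' (Nat.pow 2 n) && (tb O' m' == tb O m)) (Nat.pow 2 n)

theorem ckO_spec {n T O O' : ℕ} (h : ckO n T O O' = true) {A : Matrix (Fin n) (Fin n) (ZMod 2)}
    (hA : ∀ m, A *ᵥ bits n m = bits n (xorSel T m n)) (x : V2 n) : A *ᵥ x ∈ bset n (tb O') ↔ x ∈ bset n (tb O) := by
  obtain ⟨m, hm, rfl⟩ := bits_surj x
  have := allLt_iff.1 h m hm
  simp only [force_eq, Bool.and_eq_true, blt_iff, beq_iff_eq] at this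
  rw [hA, bits_mem_bset hm, bits_mem_bset this.1, this.2]

theorem bset_subset {n : ℕ} {f g : ℕ → Bool} (h : allLt (fun m => !(f m) || g m) (Nat.pow 2 n) = true) :
    bset n f ⊆ bset n g := by
  rintro _ ⟨m, hm, k, rfl⟩
  exact ⟨m, hm, by simpa [k] using allLt_iff.1 h m hm, rfl⟩

theorem bset_inj {n O O' : ℕ} (h : O < 2 ^ 2 ^ n) (h' : O' < 2 ^ 2 ^ n) (e : bset n (tb O) = bset n (tb O')) :
    O = O' := by
  refine Nat.eq_of_testBit_eq fun m => ?_
  by_cases hm : m < 2 ^ n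
  · rw [Bool.eq_iff_iff, ← tb_eq, ← tb_eq, ← bits_mem_bset hm, ← bits_mem_bset hm, e]
  · have := Nat.pow_le_pow_right (by norm_num : 0 < 2) (not_lt.1 hm)
    rw [Nat.testBit_lt_two_pow (by omega), Nat.testBit_lt_two_pow (by omega)]

end CA.Co
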