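import Cfsg.Agent.Lib.Co.Short

/-!
The monomial subgroup of `Co0` is the stabiliser of the standard frame; the centre of `Co0`.
-/

set_option autoImplicit false

namespace CA.Co
open Cfsg CA.Gol
open scoped Pointwise

/-- the element of `Co0` given by a map -/
noncomputable def coOf {f : ZV → ZV} (h : IsCo f) : Co0 := h.choose

theorem coOf_smul {f : ZV → ZV} (h : IsCo f) (v : LL) : ((coOf h • v : LL) : ZV) = f v := h.choose_spec v

theorem co_ext {g h : Co0} (e : ∀ v : LL, g • v = h • v) : g = h := Subtype.ext (Equiv.ext e)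

theorem co_ext' {g h : Co0} (e : ∀ v : LL, ((g • v : LL) : ZV) = (h • v : LL)) : g = h :=
  co_ext fun v => Subtype.ext (e v)

/-- `e8 p` in the lattice -/
def E8 (p : GolayPt) : LL := ⟨e8 p, e8_mem p⟩

@[simp] theorem coe_E8 (p : GolayPt) : (E8 p : ZV) = e8 p := rfl

theorem dot_neg_left (x y : ZV) : dotInt (-x) y = -dotInt x y := by rw [dot_comm, dot_neg, dot_comm]

theorem co_apply_of {g : Co0} {p q : GolayPt} {ε : ℤ} (h : ((g • E8 p : LL) : ZV) = ε • e8 q) (v : LL) :
    (v : ZV) p = ε * (g • v : LL).1 q := by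
  have := co_dot g v (E8 p)
  rw [h, dot_smul, dot_e8, coe_E8, dot_e8] at this
  linarith

theorem co_ext8 {g h : Co0} (e : ∀ p, g • E8 p = h • E8 p) : g = h := by
  have key : ∀ k : Co0, (∀ p, k • E8 p = E8 p) → k = 1 := fun k hk => co_ext' fun v => funext fun p => by
    have := co_apply_of (g := k) (p := p) (q := p) (ε := 1) (by rw [hk]; simp) v
    simp [this]
  have := key (h⁻¹ * g) fun p => by rw [mul_smul, e, inv_smul_smul]
  rw [inv_mul_eq_one] at this
  exact this.symm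

/-- coordinate permutations -/
noncomputable def pmC : M24 →* Co0 := MonoidHom.mk' (fun σ => coOf (isCo_pm σ.2)) fun σ τ => co_ext' fun v => by
  rw [mul_smul, coOf_smul, coOf_smul, coOf_smul]; rfl

theorem pmC_smul (σ : M24) (v : LL) : ((pmC σ • v : LL) : ZV) = pm σ v := coOf_smul (isCo_pm σ.2) v

open Classical in
/-- sign changes -/
noncomputable def sgC (c : Finset GolayPt) : Co0 := if hc : c ∈ CW then coOf (isCo_sg hc) else 1

theorem sgC_smul {c : Finset GolayPt} (hc : c ∈ CW) (v : LL) : ((sgC c • v : LL) : ZV) = sg c v := by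
  rw [sgC, dif_pos hc, coOf_smul]

theorem sgC_mul {c d : Finset GolayPt} (hc : c ∈ CW) (hd : d ∈ CW) : sgC c * sgC d = sgC (symmDiff c d) :=
  co_ext' fun v => by
    rw [mul_smul, sgC_smul hc, sgC_smul hd, sgC_smul (symmDiff_mem_CW hc hd)]
    funext p
    by_cases h1 : p ∈ c <;> by_cases h2 : p ∈ d <;> simp [sg, Finset.mem_symmDiff, h1, h2]

theorem sgC_empty : sgC ∅ = 1 := co_ext' fun v => by
  rw [sgC_smul empty_mem_CW]; funext p; simp [sg]

theorem sgC_sq (c : Finset GolayPt) : sgC c * sgC c = 1 := by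
  by_cases hc : c ∈ CW
  · rw [sgC_mul hc hc, symmDiff_self]; exact sgC_empty
  · simp [sgC, hc]

theorem sgC_inv (c : Finset GolayPt) : (sgC c)⁻¹ = sgC c := inv_eq_of_mul_eq_one_right (sgC_sq c)

theorem mem_smul_iff' {σ : Equiv.Perm GolayPt} {c : Finset GolayPt} {p : GolayPt} : p ∈ σ • c ↔ σ⁻¹ p ∈ c := by
  rw [← apply_mem_smul (g := σ) (p := σ⁻¹ p)]; simp

theorem pmC_mul_sgC (σ : M24) {c : Finset GolayPt} (hc : c ∈ CW) :
    pmC σ * sgC c = sgC ((σ : Equiv.Perm GolayPt) • c) * pmC σ := co_ext' fun v => by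
  rw [mul_smul, mul_smul, pmC_smul, sgC_smul hc, sgC_smul (smul_mem_CW σ.2 hc), pmC_smul]
  funext p
  simp only [pm, sg, mem_smul_iff']

theorem pmC_conj_sgC (σ : M24) {c : Finset GolayPt} (hc : c ∈ CW) :
    pmC σ * sgC c * (pmC σ)⁻¹ = sgC ((σ : Equiv.Perm GolayPt) • c) := by
  rw [pmC_mul_sgC σ hc, mul_inv_cancel_right]

/-- negation -/
noncomputable def negC : Co0 := sgC Finset.univ

theorem negC_smul (v : LL) : negC • v = -v := Subtype.ext (by
  rw [negC, sgC_smul univ_mem_CW]; funext p; simp [sg])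

theorem negC_sq : negC * negC = 1 := sgC_sq _

theorem negC_comm (g : Co0) : g * negC = negC * g := co_ext fun v => by
  rw [mul_smul, mul_smul, negC_smul, negC_smul, co_neg]

theorem negC_mem_center : negC ∈ Subgroup.center Co0 := Subgroup.mem_center_iff.2 negC_comm

theorem mono_smul {c : Finset GolayPt} (hc : c ∈ CW) (σ : M24) (v : LL) (p : GolayPt) :
    ((sgC c * pmC σ) • v : LL).1 (σ.1 p) = if σ.1 p ∈ c then -v.1 p else v.1 p := by
  rw [mul_smul, sgC_smul hc, pmC_smul]
  simp [sg, pm]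

theorem mono_E8 {c : Finset GolayPt} (hc : c ∈ CW) (σ : M24) (p : GolayPt) :
    (((sgC c * pmC σ) • E8 p : LL) : ZV) = (if σ.1 p ∈ c then -1 else 1 : ℤ) • e8 (σ.1 p) := by
  funext q
  obtain ⟨r, rfl⟩ := σ.1.surjective q
  rw [mono_smul hc, coe_E8]
  by_cases h : r = p
  · subst h; split_ifs <;> simp [e8_apply]
  · simp [e8_apply, h]

theorem smul_e8_inj {ε ε' : ℤ} {p q : GolayPt} (h0 : ε ≠ 0) (h : ε • e8 p = ε' • e8 q) : p = q ∧ ε = ε' := by
  have := congrFun h p
  simp only [Pi.smul_apply, e8_apply, if_true, smul_eq_mul] at this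
  split_ifs at this with h1
  · exact ⟨h1, by omega⟩
  · omega

theorem mono_inj {c d : Finset GolayPt} (hc : c ∈ CW) (hd : d ∈ CW) {σ τ : M24}
    (h : sgC c * pmC σ = sgC d * pmC τ) : c = d ∧ σ = τ := by
  have key : ∀ p, σ.1 p = τ.1 p ∧ (σ.1 p ∈ c ↔ τ.1 p ∈ d) := fun p => by
    have h1 := mono_E8 hc σ p
    rw [h, mono_E8 hd] at h1
    have := smul_e8_inj (by split_ifs <;> simp) h1
    refine ⟨this.1.symm, ?_⟩
    have h2 := this.2
    by_cases k1 : σ.1 p ∈ c <;> by_cases k2 : τ.1 p ∈ d <;> simp [k1, k2] at h2 ⊢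
  refine ⟨Finset.ext fun q => ?_, Subtype.ext (Equiv.ext fun p => (key p).1)⟩
  obtain ⟨p, rfl⟩ := σ.1.surjective q
  rw [(key p).2, (key p).1]

theorem sgC_inj {c d : Finset GolayPt} (hc : c ∈ CW) (hd : d ∈ CW) (h : sgC c = sgC d) : c = d :=
  (mono_inj hc hd (σ := 1) (τ := 1) (by rw [h])).1

theorem pmC_injective : Function.Injective pmC := fun σ τ h =>
  (mono_inj empty_mem_CW empty_mem_CW (by rw [h])).2

theorem negC_ne_one : negC ≠ 1 := fun h => by
  have := sgC_inj univ_mem_CW empty_mem_CW (h.trans sgC_empty.symm)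
  exact Finset.univ_nonempty.ne_empty this

theorem CW_of_mem {x : ZV} (hx : x ∈ leechLattice) {s : Finset GolayPt} (h : ∀ p, 4 ∣ x p - 2 * iz s p) : s ∈ CW := by
  obtain ⟨c, hc, y, e, -⟩ := even_form hx (q := pt 0) (by have := h (pt 0); omega)
  convert hc
  ext p
  have h1 := h p
  have h2 := e p
  rcases iz_cases s p with k | k <;> rcases iz_cases c p with k' | k' <;> simp only [k.1, k'.1] <;> omega

theorem eq_e8_of_cg {x : ZV} (hn : sqNorm x = 64) {p : GolayPt} (h : Cg x (e8 p)) :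
    ∃ q, x = e8 q ∨ x = -e8 q := by
  obtain ⟨q, hq⟩ : ∃ q, x q ≠ 0 := by
    by_contra hc
    push Not at hc
    rw [show x = 0 from funext hc] at hn
    revert hn; decide +kernel
  refine ⟨q, ?_⟩
  rcases (h.trans (cg_e8 p q)).short (e8_mem q) hn.le (norm_e8 q).le with e | e | e
  · exact Or.inl e
  · exact Or.inr e
  · rw [dot_e8] at e; omega

/-- the stabiliser of the standard frame is monomial -/
theorem frame_stab {g : Co0} {p q : GolayPt} (h : Cg (g • E8 p : LL) (e8 q)) :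
    ∃ c ∈ CW, ∃ σ : M24, g = sgC c * pmC σ := by
  have h1 : ∀ r, ∃ s, ∃ ε : ℤ, (ε = 1 ∨ ε = -1) ∧ ((g • E8 r : LL) : ZV) = ε • e8 s := fun r => by
    obtain ⟨s, e | e⟩ := eq_e8_of_cg (x := (g • E8 r : LL)) (by rw [co_norm]; exact norm_e8 r)
      ((Cg.co (v := E8 r) (w := E8 p) (cg_e8 r p) g).trans h)
    · exact ⟨s, 1, Or.inl rfl, by simpa using e⟩
    · exact ⟨s, -1, Or.inr rfl, by simpa using e⟩
  choose f ε hε hf using h1
  have hinj : Function.Injective f := fun r r' e => by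
    by_contra hne
    have k1 := co_apply_of (hf r) (E8 r')
    rw [hf r', e] at k1
    simp only [coe_E8, e8_apply, hne, if_false, Pi.smul_apply, if_true, smul_eq_mul] at k1
    rcases hε r with h | h <;> rcases hε r' with h' | h' <;> rw [h, h'] at k1 <;> omega
  let σ : Equiv.Perm GolayPt := Equiv.ofBijective f (Finite.injective_iff_bijective.1 hinj)
  let c : Finset GolayPt := Finset.univ.filter fun s => ε (σ⁻¹ s) = -1
  have key : ∀ v : LL, ((g • v : LL) : ZV) = sg c (pm σ v) := fun v => funext fun s => by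
    obtain ⟨r, rfl⟩ := σ.surjective s
    have k1 := co_apply_of (hf r) v
    have k2 : σ r = f r := rfl
    simp only [sg, pm, c, Finset.mem_filter, Finset.mem_univ, true_and, Equiv.Perm.coe_inv, Equiv.symm_apply_apply]
    rw [k1, k2]
    rcases hε r with h | h <;> simp [h]
  have hσ : σ ∈ M24 := mem_M24_of fun d hd => by
    refine CW_of_mem (g • (⟨_, two_iz_mem hd⟩ : LL)).2 fun p => ?_
    rw [key, ← pm_iz]
    simp only [sg, pm, Pi.smul_apply, smul_eq_mul]
    split_ifs <;> omega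
  have hc : c ∈ CW := by
    have h2 := (g • (⟨_, pm_mem (inv_mem hσ) v0_mem⟩ : LL)).2
    rw [key] at h2
    refine CW_of_mem (sub_mem v0_mem h2) fun p => ?_
    simp only [Pi.sub_apply, sg_eq, pm, inv_inv, Equiv.Perm.coe_inv, Equiv.apply_symm_apply, v0_eq]
    rcases iz_cases c p with h | h <;> rw [h.2] <;> omega
  exact ⟨c, hc, ⟨σ, hσ⟩, co_ext' fun v => by rw [key, mul_smul, sgC_smul hc, pmC_smul]⟩

theorem mono_cg {c : Finset GolayPt} (hc : c ∈ CW) (σ : M24) (p q : GolayPt) :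
    Cg ((sgC c * pmC σ) • E8 p : LL) (e8 q) := by
  rw [mono_E8 hc]
  split_ifs
  · rw [neg_smul, one_smul]; exact (cg_neg (e8_mem _)).trans (cg_e8 _ _)
  · rw [one_smul]; exact cg_e8 _ _

theorem exists_CW_sep {p q : GolayPt} (h : q ≠ p) : ∃ c ∈ octads, q ∈ c ∧ p ∉ c := by
  obtain ⟨g, hg, e1, e2⟩ := trans2 h
  refine ⟨g⁻¹ • fs 0xd4b004, smul_mem_octads (inv_mem hg) (fs_mem_octads (by decide +kernel)), ?_, ?_⟩
  · rw [mem_smul_iff', inv_inv, e1]; decide +kernel
  · rw [mem_smul_iff', inv_inv, e2]; decide +kernel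

theorem mem_center_iff {g : Co0} : g ∈ Subgroup.center Co0 ↔ g = 1 ∨ g = negC := by
  constructor
  · intro hg
    rw [Subgroup.mem_center_iff] at hg
    have h1 : ∀ p q, q ≠ p → (g • E8 p : LL).1 q = 0 := fun p q hq => by
      obtain ⟨c, hc, h1, h2⟩ := exists_CW_sep hq
      have e : sgC c • E8 p = E8 p := Subtype.ext (by
        rw [sgC_smul hc.1]; funext r
        simp only [sg, coe_E8, e8_apply]
        split_ifs with k1 k2
        · exact absurd (k2 ▸ k1) h2
        all_goals rfl)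
      have e1 : sgC c • g • E8 p = g • E8 p := by rw [← mul_smul, hg, mul_smul, e]
      have := congrFun (congrArg Subtype.val e1) q
      rw [sgC_smul hc.1, sg, if_pos h1] at this
      omega
    have h2 : Cg (g • E8 (pt 0) : LL) (e8 (pt 0)) := by
      have e : ((g • E8 (pt 0) : LL) : ZV) = (g • E8 (pt 0) : LL).1 (pt 0) • iz {pt 0} := funext fun q => by
        by_cases hq : q = pt 0
        · simp [hq, iz]
        · simp [h1 _ _ hq, iz, hq]
      have e1 := co_norm g (E8 (pt 0))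
      rw [e, sqNorm_smul, coe_E8, norm_e8, show sqNorm (iz {pt 0}) = 1 by decide +kernel] at e1
      have : (g • E8 (pt 0) : LL).1 (pt 0) = 8 ∨ (g • E8 (pt 0) : LL).1 (pt 0) = -8 := by
        have : ((g • E8 (pt 0) : LL).1 (pt 0) - 8) * ((g • E8 (pt 0) : LL).1 (pt 0) + 8) = 0 := by linarith
        rcases mul_eq_zero.1 this with h | h <;> omega
      rw [e]
      rcases this with h | h <;> rw [h]
      · exact Cg.refl _
      · rw [neg_smul]; exact cg_neg (e8_mem _)
    obtain ⟨c, hc, σ, rfl⟩ := frame_stab h2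
    have hσ : σ = 1 := Subtype.ext (Equiv.ext fun p => by
      by_contra hne
      have := h1 p _ hne
      rw [mono_E8 hc] at this
      simp only [Pi.smul_apply, e8_apply, if_true, smul_eq_mul] at this
      split_ifs at this <;> omega)
    subst hσ
    rw [map_one, mul_one] at hg ⊢
    have h3 : ∀ τ : M24, (τ : Equiv.Perm GolayPt) • c = c := fun τ =>
      sgC_inj (smul_mem_CW τ.2 hc) hc (by rw [← pmC_conj_sgC τ hc, hg, mul_inv_cancel_right])
    rcases c.eq_empty_or_nonempty with rfl | ⟨a, ha⟩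
    · exact Or.inl sgC_empty
    · refine Or.inr (congrArg sgC (Finset.eq_univ_of_forall fun b => ?_))
      obtain ⟨k, hk, -, e⟩ := exists_fix_move (s := ∅) (a := a) (b := b) (by simp) (by simp) (by simp)
      rw [← h3 ⟨k, hk⟩, ← e]
      exact apply_mem_smul.2 ha
  · rintro (rfl | rfl)
    · exact one_mem _
    · exact negC_mem_center

theorem mk_eq_iff {g h : Co0} : (g : Spor.Co1) = h ↔ h = g ∨ h = negC * g := by
  rw [QuotientGroup.eq, mem_center_iff, inv_mul_eq_one, inv_mul_eq_iff_eq_mul, negC_comm, eq_comm]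

theorem mk_eq_one_iff {g : Co0} : (g : Spor.Co1) = 1 ↔ g = 1 ∨ g = negC := by
  rw [QuotientGroup.eq_one_iff, mem_center_iff]

theorem mk_negC_mul (g : Co0) : ((negC * g : Co0) : Spor.Co1) = g := (mk_eq_iff.2 (Or.inr rfl)).symm

theorem cg_of_mk_eq {g h : Co0} (e : (g : Spor.Co1) = h) (v : LL) : Cg (g • v : LL) (h • v : LL) := by
  rcases mk_eq_iff.1 e with rfl | rfl
  · exact Cg.refl _
  · rw [mul_smul, negC_smul]; exact (cg_neg (g • v).2).symm

/-- a normal 2-subgroup of `M24` is trivial -/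
theorem M24_normal_two {T : Subgroup M24} (hn : T.Normal) (hT : IsPGroup 2 T) : T = ⊥ := by
  rw [eq_bot_iff]
  intro t ht
  by_contra hne
  obtain ⟨a, ha⟩ : ∃ a, t.1 a ≠ a := by
    by_contra hc
    push Not at hc
    exact hne (Subgroup.mem_bot.2 (Subtype.ext (Equiv.ext hc)))
  have h1 : MulAction.orbit T a = Set.univ := Set.eq_univ_of_forall fun b => by
    by_cases hb : b = a
    · rw [hb]; exact MulAction.mem_orbit_self a
    · obtain ⟨k, hk, e1, e2⟩ := exists_fix_move (s := {a}) (a := t.1 a) (b := b) (by simp) (by simpa) (by simpa)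
      refine ⟨⟨_, hn.conj_mem t ht ⟨k, hk⟩⟩, ?_⟩
      show k (t.1 (k⁻¹ a)) = b
      rw [show k⁻¹ a = a from Equiv.Perm.inv_eq_iff_eq.2 (e1 a (by simp)).symm, e2]
  haveI : Fact (Nat.Prime 2) := ⟨Nat.prime_two⟩
  obtain ⟨n, hn⟩ := hT.card_orbit a
  rw [h1, Nat.card_univ, Nat.card_eq_fintype_card, card_golayPt] at hn
  have : 3 ∣ 2 ^ n := hn ▸ (by norm_num : 3 ∣ 24)
  have := Nat.prime_three.dvd_of_dvd_pow this
  omega

end CA.Co
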