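import Cfsg.Agent.Lib.Co.Frame
import Cfsg.Agent.Lib.G.Pmap

/-!
The monomial subgroup `2^11 : M24` of `Co1`.
-/

set_option autoImplicit false

namespace CA.Co
open Cfsg CA.Gol CA Subgroup
open scoped Pointwise

theorem negC_mul_sgC {c : Finset GolayPt} (hc : c ∈ CW) : negC * sgC c = sgC (Finset.univ \ c) := by
  rw [negC, sgC_mul univ_mem_CW hc, compl_eq_symmDiff, symmDiff_comm]

theorem mono_mul {c d : Finset GolayPt} (hc : c ∈ CW) (hd : d ∈ CW) (σ τ : M24) :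
    sgC c * pmC σ * (sgC d * pmC τ) = sgC (symmDiff c (σ.1 • d)) * pmC (σ * τ) := by
  rw [← sgC_mul hc (smul_mem_CW σ.2 hd), map_mul, mul_assoc, mul_assoc, ← mul_assoc (pmC σ), pmC_mul_sgC σ hd,
    mul_assoc]

theorem mono_inv {c : Finset GolayPt} (hc : c ∈ CW) (σ : M24) :
    (sgC c * pmC σ)⁻¹ = sgC ((σ⁻¹).1 • c) * pmC σ⁻¹ := by
  rw [mul_inv_rev, sgC_inv, ← map_inv, pmC_mul_sgC _ hc]

theorem mk_mono_inj {c d : Finset GolayPt} (hc : c ∈ CW) (hd : d ∈ CW) {σ τ : M24}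
    (h : ((sgC c * pmC σ : Co0) : Spor.Co1) = (sgC d * pmC τ : Co0)) : σ = τ ∧ (d = c ∨ d = Finset.univ \ c) := by
  rcases mk_eq_iff.1 h with e | e
  · exact ⟨(mono_inj hd hc e).2.symm, Or.inl (mono_inj hd hc e).1⟩
  · rw [← mul_assoc, negC_mul_sgC hc] at e
    exact ⟨(mono_inj hd (compl_mem_CW hc) e).2.symm, Or.inr (mono_inj hd (compl_mem_CW hc) e).1⟩

/-- the monomial subgroup of `Co0` -/
def N0 : Subgroup Co0 where
  carrier := {x | ∃ c ∈ CW, ∃ σ : M24, x = sgC c * pmC σ}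
  one_mem' := ⟨∅, empty_mem_CW, 1, by simp [sgC_empty]⟩
  mul_mem' := by
    rintro _ _ ⟨c, hc, σ, rfl⟩ ⟨d, hd, τ, rfl⟩
    exact ⟨_, symmDiff_mem_CW hc (smul_mem_CW σ.2 hd), _, mono_mul hc hd σ τ⟩
  inv_mem' := by
    rintro _ ⟨c, hc, σ, rfl⟩
    exact ⟨_, smul_mem_CW (σ⁻¹).2 hc, _, mono_inv hc σ⟩

theorem mem_N0_iff {g : Co0} (p q : GolayPt) : g ∈ N0 ↔ Cg (g • E8 p : LL) (e8 q) :=
  ⟨by rintro ⟨c, hc, σ, rfl⟩; exact mono_cg hc σ p q, frame_stab⟩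

/-- the monomial subgroup of `Co1` -/
def N1 : Subgroup Spor.Co1 := N0.map (QuotientGroup.mk' _)

theorem mem_N1 {x : Spor.Co1} : x ∈ N1 ↔ ∃ c ∈ CW, ∃ σ : M24, x = (sgC c * pmC σ : Co0) :=
  ⟨by rintro ⟨_, ⟨c, hc, σ, rfl⟩, rfl⟩; exact ⟨c, hc, σ, rfl⟩,
   by rintro ⟨c, hc, σ, rfl⟩; exact ⟨_, ⟨c, hc, σ, rfl⟩, rfl⟩⟩

theorem mono_mem_N1 {c : Finset GolayPt} (hc : c ∈ CW) (σ : M24) : ((sgC c * pmC σ : Co0) : Spor.Co1) ∈ N1 :=
  mem_N1.2 ⟨c, hc, σ, rfl⟩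

theorem mk_mem_N1 {g : Co0} : (g : Spor.Co1) ∈ N1 ↔ g ∈ N0 := by
  refine ⟨fun h => ?_, fun h => ⟨g, h, rfl⟩⟩
  obtain ⟨c, hc, σ, e⟩ := mem_N1.1 h
  rcases mk_eq_iff.1 e.symm with rfl | rfl
  · exact ⟨c, hc, σ, rfl⟩
  · exact ⟨_, compl_mem_CW hc, σ, by rw [← mul_assoc, negC_mul_sgC hc]⟩

/-- the permutation part -/
noncomputable def rhoF (x : N1) : M24 := (mem_N1.1 x.2).choose_spec.2.choose

theorem rhoF_eq {x : N1} {c : Finset GolayPt} (hc : c ∈ CW) {σ : M24} (e : (x : Spor.Co1) = (sgC c * pmC σ : Co0)) :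
    rhoF x = σ :=
  (mk_mono_inj (mem_N1.1 x.2).choose_spec.1 hc ((mem_N1.1 x.2).choose_spec.2.choose_spec.symm.trans e)).1

/-- the projection `2^11 : M24 → M24` -/
noncomputable def rho : N1 →* M24 := MonoidHom.mk' rhoF fun x y => by
  obtain ⟨c, hc, σ, e⟩ := mem_N1.1 x.2
  obtain ⟨d, hd, τ, e'⟩ := mem_N1.1 y.2
  rw [rhoF_eq hc e, rhoF_eq hd e']
  exact rhoF_eq (symmDiff_mem_CW hc (smul_mem_CW σ.2 hd))
    (by rw [← mono_mul hc hd, coe_mul, e, e']; rfl)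

theorem pel_rho {c : Finset GolayPt} (hc : c ∈ CW) (σ : M24) : pel rho ((sgC c * pmC σ : Co0) : Spor.Co1) = σ := by
  rw [pel_of_mem _ (mono_mem_N1 hc σ)]; exact rhoF_eq hc rfl

/-- the permutation matrices in `Co1` -/
noncomputable def pm1 : M24 →* Spor.Co1 := (QuotientGroup.mk' _).comp pmC

theorem pm1_eq (σ : M24) : pm1 σ = (sgC ∅ * pmC σ : Co0) := by rw [sgC_empty, one_mul]; rfl

theorem pm1_mem (σ : M24) : pm1 σ ∈ N1 := pm1_eq σ ▸ mono_mem_N1 empty_mem_CW σ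

theorem pel_rho_pm1 (σ : M24) : pel rho (pm1 σ) = σ := by rw [pm1_eq, pel_rho empty_mem_CW]

theorem pm1_injective : Function.Injective pm1 := fun σ τ h => by rw [← pel_rho_pm1 σ, h, pel_rho_pm1]

theorem rho_surjective : Function.Surjective rho := fun σ =>
  ⟨⟨_, pm1_mem σ⟩, by rw [← pel_of_mem, pel_rho_pm1]⟩

/-- the sign changes in `Co1` -/
noncomputable def E1 : Subgroup Spor.Co1 := pker rho

theorem mem_E1 {x : Spor.Co1} : x ∈ E1 ↔ ∃ c ∈ CW, x = (sgC c : Co0) := by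
  rw [E1, mem_pker]
  constructor
  · rintro ⟨h1, h2⟩
    obtain ⟨c, hc, σ, rfl⟩ := mem_N1.1 h1
    rw [pel_rho hc] at h2
    exact ⟨c, hc, by rw [h2, map_one, mul_one]⟩
  · rintro ⟨c, hc, rfl⟩
    have := pel_rho hc 1
    have h := mono_mem_N1 hc 1
    rw [map_one, mul_one] at this h
    exact ⟨h, this⟩

theorem E1_le : E1 ≤ N1 := pker_le_dom _

theorem E1_normalIn : E1 ⊴ N1 := pker_normalIn _

theorem E1_sq {x : Spor.Co1} (h : x ∈ E1) : x * x = 1 := by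
  obtain ⟨c, -, rfl⟩ := mem_E1.1 h
  rw [← QuotientGroup.mk_mul, sgC_sq]; rfl

theorem enc_compl : allLt (fun i => Nat.blt i 2048 || Nat.beq (enc (Nat.sub 4095 i)) (Nat.xor (enc i) 16777215)) 4096
    = true := by decide +kernel

theorem card_E1_le : Finite E1 ∧ Nat.card E1 ≤ 2 ^ 11 := by
  let f : Fin 2048 → E1 := fun i => ⟨sgC (fs (enc i)), mem_E1.2 ⟨_, enc_mem_CW (by omega), rfl⟩⟩
  have hf : Function.Surjective f := by
    rintro ⟨x, hx⟩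
    obtain ⟨c, hc, rfl⟩ := mem_E1.1 hx
    obtain ⟨i, hi, rfl⟩ := exists_enc hc
    have := allLt_iff.1 enc_compl i hi
    simp only [Bool.or_eq_true, blt_iff, beq_iff] at this
    by_cases h : i < 2048
    · exact ⟨⟨i, h⟩, rfl⟩
    · refine ⟨⟨Nat.sub 4095 i, by simp only [Nat.sub_eq]; omega⟩, Subtype.ext ?_⟩
      show ((sgC (fs (enc (Nat.sub 4095 i))) : Co0) : Spor.Co1) = _
      rw [this.resolve_left h, fs_compl, ← negC_mul_sgC hc, mk_negC_mul]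
  exact ⟨Finite.of_surjective f hf, by simpa using Nat.card_le_card_of_surjective f hf⟩

theorem E1_inf_range : E1 ⊓ pm1.range = ⊥ := by
  rw [eq_bot_iff]
  rintro _ ⟨h, σ, rfl⟩
  have := (mem_pker.1 h).2
  rw [pel_rho_pm1] at this
  rw [this, map_one]; exact one_mem _

theorem E1_sup_range : E1 ⊔ pm1.range = N1 := by
  refine le_antisymm (sup_le E1_le (by rintro _ ⟨σ, rfl⟩; exact pm1_mem σ)) fun x hx => ?_
  obtain ⟨c, hc, σ, rfl⟩ := mem_N1.1 hx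
  rw [QuotientGroup.mk_mul]
  exact mul_mem (mem_sup_left (mem_E1.2 ⟨c, hc, rfl⟩)) (mem_sup_right ⟨σ, rfl⟩)

theorem le_E1_of_normal {T : Subgroup Spor.Co1} (hT : T ⊴ N1) (h2 : IsPGroup 2 T) : T ≤ E1 := by
  have h := hT.pmap rho
  rw [pmap_dom, MonoidHom.range_eq_top.2 rho_surjective] at h
  exact (pmap_eq_bot_iff hT.1).1 (M24_normal_two (normalizer_eq_top_iff.1 (eq_top_iff.2 h.2)) (pgroup_pmap h2 _))

end CA.Co
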