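import Cfsg.Agent.Lib.Co.Co2
import Cfsg.Agent.Lib.Co.Mono
import Cfsg.Agent.Lib.Extra2.Quot
import Cfsg.Agent.Lib.Extra2.Sing
import Cfsg.Agent.S5552
import Cfsg.Prelude.Def_MonsterType

/-!
Groups of Monster type: the dictionary between `Q = 2^{1+24}` and the Leech lattice modulo two.
-/

set_option autoImplicit false

namespace CA.Co
open Cfsg CA.Gol CA CA.Ex2 CA.Core Subgroup
open scoped Pointwise commutatorElement

variable {G : Type*} [Group G]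

theorem cg_co_zero {v : LL} (g : Co0) : Cg (g • v : LL) 0 ↔ Cg v 0 := by
  simpa [co_zero] using cg_co_iff (v := v) (w := 0) g

/-- the Monster-type hypothesis with the module isomorphism recorded as a relation -/
structure MT (Q : Subgroup G) (z : G) (π : ↥𝐂[z] →* Spor.Co1) (r : G → LL → Prop) : Prop where
  lq : LQ Q z
  card : Nat.card Q = 2 ^ 25
  surj : Function.Surjective π
  ker : pker π = Q
  r_mem : ∀ {q v}, r q v → q ∈ Q
  r_ex : ∀ {q}, q ∈ Q → ∃ v, r q v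
  r_ex' : ∀ v, ∃ q, r q v
  r_mul : ∀ {q q' v v'}, r q v → r q' v' → r (q * q') (v + v')
  r_iff : ∀ {q v}, r q v → (q ∈ zpowers z ↔ Cg v 0)
  r_zero : ∀ {q} {v : LL}, q ∈ zpowers z → Cg v 0 → r q v
  equi : ∀ {h q v} {g : Co0}, h ∈ 𝐂[z] → pel π h = g → r q v → r (h * q * h⁻¹) (g • v)
  ex : ∃ g, g * z * g⁻¹ ∈ Q ∧ g * z * g⁻¹ ≠ z

section construct
variable {z : G} (Q : Subgroup ↥𝐂[z]) [Q.Normal]

/-- the projection onto `Co1` -/
def piOf (e : ↥𝐂[z] ⧸ Q ≃* Spor.Co1) : ↥𝐂[z] →* Spor.Co1 := e.toMonoidHom.comp (QuotientGroup.mk' Q)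

/-- the relation given by the module isomorphism -/
def relOf (ψ : LL → Q ⧸ center Q) (q : G) (v : LL) : Prop :=
  ∃ x : Q, ((x : ↥𝐂[z]) : G) = q ∧ ψ v = QuotientGroup.mk x

variable {Q}

omit [Q.Normal] in
theorem mem_map_iff {q : G} : q ∈ Q.map (𝐂[z]).subtype ↔ ∃ h : q ∈ 𝐂[z], (⟨q, h⟩ : ↥𝐂[z]) ∈ Q :=
  ⟨by rintro ⟨x, hx, rfl⟩; exact ⟨x.2, hx⟩, fun ⟨h, h'⟩ => ⟨_, h', rfl⟩⟩

omit [Q.Normal] in
theorem lq_of_setting [Finite G] {w : ℕ} (hS : IsExtraspecialCentralizerSetting z Q w) :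
    LQ (Q.map (𝐂[z]).subtype) z :=
  lq_of_fstar hS.1 (by rw [FStar.fstar, hS.2.1]) (isExtraspecial_iff.2
    ((isExtraspecial_iff.1 hS.2.2.1).map (subtype_injective _)))

theorem mt_of [Finite G] (hS : IsExtraspecialCentralizerSetting z Q 12) {e : ↥𝐂[z] ⧸ Q ≃* Spor.Co1}
    {ψ : LL → Q ⧸ center Q} (hψ : IsLeechModTwoIso Q e ψ) :
    MT (Q.map (𝐂[z]).subtype) z (piOf Q e) (relOf Q ψ) := by
  have hl := lq_of_setting hS
  have hc : ∀ x : Q, x ∈ center Q ↔ ((x : ↥𝐂[z]) : G) ∈ zpowers z := fun x => by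
    rw [← hl.ez.cen, Subgroup.mem_center_iff]
    constructor
    · intro h
      refine ⟨⟨_, x.2, rfl⟩, mem_cent_iff.2 ?_⟩
      rintro _ ⟨y, hy, rfl⟩
      exact congrArg (fun t : Q => ((t : ↥𝐂[z]) : G)) (h ⟨y, hy⟩)
    · intro h y
      exact Subtype.ext (Subtype.ext (mem_cent_iff.1 h.2 _ ⟨_, y.2, rfl⟩))
  refine ⟨hl, by rw [card_map_subtype, hS.2.2.2.1], e.surjective.comp (QuotientGroup.mk'_surjective Q), ?_, ?_, ?_, ?_,
    ?_, ?_, ?_, ?_, ?_⟩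
  · ext x
    rw [mem_pker, mem_map_iff]
    constructor
    · rintro ⟨h, h1⟩
      rw [pel_of_mem _ h] at h1
      exact ⟨h, (QuotientGroup.eq_one_iff _).1 (e.map_eq_one_iff.1 h1)⟩
    · rintro ⟨h, h1⟩
      rw [pel_of_mem _ h]
      exact ⟨h, e.map_eq_one_iff.2 ((QuotientGroup.eq_one_iff _).2 h1)⟩
  · rintro _ v ⟨x, rfl, -⟩
    exact ⟨_, x.2, rfl⟩
  · rintro _ ⟨x, hx, rfl⟩
    obtain ⟨v, hv⟩ := hψ.2.1 (QuotientGroup.mk ⟨x, hx⟩)
    exact ⟨v, ⟨x, hx⟩, rfl, hv⟩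
  · intro v
    obtain ⟨x, hx⟩ := QuotientGroup.mk_surjective (ψ v)
    exact ⟨_, x, rfl, hx.symm⟩
  · rintro _ _ v v' ⟨x, rfl, h⟩ ⟨y, rfl, h'⟩
    exact ⟨x * y, rfl, by rw [hψ.1, h, h']; rfl⟩
  · rintro _ v ⟨x, rfl, h⟩
    rw [cg_zero_iff, ← hψ.2.2.1, h, QuotientGroup.eq_one_iff, hc]
  · intro q v hq hv
    obtain ⟨x, hx, rfl⟩ := hl.ez.zp_le hq
    refine ⟨⟨x, hx⟩, rfl, ?_⟩
    rw [(hψ.2.2.1 v).2 (cg_zero_iff.1 hv), eq_comm, QuotientGroup.eq_one_iff, hc]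
    exact hq
  · rintro h _ v g hh e1 ⟨x, rfl, e2⟩
    rw [pel_of_mem _ hh] at e1
    exact ⟨_, rfl, hψ.2.2.2 ⟨h, hh⟩ g e1.symm v x e2⟩
  · obtain ⟨g, h1, h2⟩ := hS.2.2.2.2
    exact ⟨g, mem_map_iff.2 h1, h2⟩

end construct

theorem EZ.sq_mul {Q : Subgroup G} {z a b : G} [Finite G] (h : EZ Q z) (ha : a ∈ Q) (hb : b ∈ Q) :
    a * b * (a * b) = a * a * (b * b) * ⁅a, b⁆ := by
  have h1 := h.conj_z ha
  have h2 := h.conj_z hb
  rcases h.comm_or ha hb with e | e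
  · rw [commutatorElement_eq_one_iff_mul_comm.2 e, mul_one, mul_assoc, ← mul_assoc b, ← e]; group
  · have e1 : ⁅a, b⁆ = z := by
      rw [commutatorElement_def, e, h2]
    have e2 : b * a = a * b * z := by
      have : a * b = b * z * a := by rw [← e]; group
      rw [this, mul_assoc, mul_assoc, h.comm ha, ← mul_assoc z, h.sq, one_mul]
    rw [e1, mul_assoc, ← mul_assoc b, e2, mul_assoc (a * b), ← h.comm hb]; group

theorem EZ.comm_mul {Q : Subgroup G} {z a b c : G} (h : EZ Q z) (ha : a ∈ Q) (hb : b ∈ Q) (hc : c ∈ Q) :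
    ⁅a * b, c⁆ = ⁅a, c⁆ * ⁅b, c⁆ := by
  have h1 : a * ⁅b, c⁆ = ⁅b, c⁆ * a := by
    rcases h.mem_zp.1 (h.comm_mem hb hc) with e | e <;> rw [commutatorElement_def, e]
    · simp
    · exact h.comm ha
  have h2 : ⁅a, c⁆ * ⁅b, c⁆ = ⁅b, c⁆ * ⁅a, c⁆ := abelian_iff'.1 (abelian_zpowers z) _ (h.comm_mem ha hc) _ (h.comm_mem hb hc)
  rw [h2, show ⁅a * b, c⁆ = a * ⁅b, c⁆ * a⁻¹ * ⁅a, c⁆ by simp only [commutatorElement_def]; group, h1,
    mul_inv_cancel_right]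

open Classical in
/-- indicator of nontrivial elements -/
noncomputable def chi (x : G) : ZMod 2 := if x = 1 then 0 else 1

theorem chi_eq_zero {x : G} : chi x = 0 ↔ x = 1 := by
  unfold chi; split_ifs with h <;> simp [h]

theorem chi_conj (y x : G) : chi (y * x * y⁻¹) = chi x := by
  by_cases h : x = 1
  · simp [h]
  · rw [chi, chi, if_neg h, if_neg (by rwa [conj_eq_one_iff])]

theorem chi_mul {z x y : G} (hz : z * z = 1) (h1 : z ≠ 1) (hx : x ∈ zpowers z) (hy : y ∈ zpowers z) :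
    chi (x * y) = chi x + chi y := by
  rcases (mem_zp2 hz).1 hx with rfl | rfl <;> rcases (mem_zp2 hz).1 hy with rfl | rfl <;> simp [chi, h1, hz]
  rfl

theorem EZ.card_le_of_abelian {Q U : Subgroup G} {z : G} [Finite G] (h : EZ Q z) (hz : z ∈ U) (hU : U ≤ Q)
    (ha : IsMulCommutative U) {n : ℕ} (hQ : Nat.card Q = 2 ^ (2 * n + 1)) : Nat.card U ≤ 2 ^ (n + 1) := by
  have h1 := h.card_mul_card_cent hz hU
  have h2 := card_le_of_le' (le_inf hU (abelian_iff.1 ha))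
  by_contra hc
  have : 2 ^ (n + 1) * 2 ^ (n + 1) < Nat.card U * Nat.card ↥(Q ⊓ 𝐂(U)) :=
    Nat.mul_lt_mul'' (by omega) (by omega)
  rw [h1, hQ] at this
  rw [← pow_add, ← pow_succ', show n + 1 + (n + 1) = 2 * n + 1 + 1 by ring] at this
  exact lt_irrefl _ this

namespace MT
variable {Q : Subgroup G} {z : G} {π : ↥𝐂[z] →* Spor.Co1} {r : G → LL → Prop} (h : MT Q z π r)
variable {q q' s t y : G} {v v' w : LL}
include h

theorem ez : EZ Q z := h.lq.ez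

theorem r_cg (hr : r q v) (e : Cg v' v) : r q v' := by
  have := h.r_mul hr (h.r_zero (one_mem _) (v := v' - v) (cg_iff_sub.1 e))
  simpa using this

theorem r_z (hr : r q v) : r (q * z) v := by
  simpa using h.r_mul hr (h.r_zero (mem_zpowers z) (v := 0) (Cg.refl _))

theorem r_one : r 1 0 := h.r_zero (one_mem _) (Cg.refl _)

theorem r_inv [Finite G] (hr : r q v) : r q⁻¹ v := by
  rcases h.ez.sq_or (h.r_mem hr) with e | e
  · rwa [inv_eq_of_mul_eq_one_right e]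
  · rw [inv_eq_of_mul_eq_one_right (show q * (q * z) = 1 by rw [← mul_assoc, e, h.ez.sq])]
    exact h.r_z hr

theorem cg_iff [Finite G] (hr : r q v) (hr' : r q' v') : Cg v' v ↔ q' = q ∨ q' = q * z := by
  rw [cg_iff_add v.2, ← AddSubgroup.coe_add, ← h.r_iff (h.r_mul hr' (h.r_inv hr)), h.ez.mem_zp, mul_inv_eq_one,
    mul_inv_eq_iff_eq_mul, h.ez.comm (h.r_mem hr)]

theorem cg_of [Finite G] (hr : r q v) (hr' : r q v') : Cg v' v := (h.cg_iff hr hr').2 (Or.inl rfl)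

theorem le_C : Q ≤ 𝐂[z] := h.ez.le_cent1

theorem pel_eq_one (hq : q ∈ Q) : pel π q = 1 := (mem_pker.1 (h.ker.ge hq)).2

theorem mem_of_pel (hy : y ∈ 𝐂[z]) (e : pel π y = 1) : y ∈ Q := h.ker.le (mem_pker.2 ⟨hy, e⟩)

theorem exists_lift (g : Co0) : ∃ y ∈ 𝐂[z], pel π y = g := exists_pel π h.surj _

omit h in
theorem exists_co (π : ↥𝐂[z] →* Spor.Co1) (y : G) : ∃ g : Co0, pel π y = g :=
  ⟨_, (QuotientGroup.out_eq' _).symm⟩

theorem twist (k : Co0) :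
    MT Q z ((MulAut.conj (k : Spor.Co1)).toMonoidHom.comp π) fun q v => r q (k⁻¹ • v) := by
  have hp : ∀ y ∈ 𝐂[z], pel ((MulAut.conj (k : Spor.Co1)).toMonoidHom.comp π) y = k * pel π y * (k : Spor.Co1)⁻¹ :=
    fun y hy => by rw [pel_of_mem _ hy, pel_of_mem _ hy]; rfl
  refine ⟨h.lq, h.card, (MulAut.conj (k : Spor.Co1)).surjective.comp h.surj, ?_, h.r_mem, fun hq => ?_,
    fun v => h.r_ex' _, fun h1 h2 => ?_, fun h1 => ?_, fun h1 h2 => ?_, fun {y q v g} hy e h1 => ?_, h.ex⟩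
  · rw [← h.ker]; ext x
    simp only [mem_pker]
    exact and_congr_right fun hx => by rw [hp x hx, conj_eq_one_iff]
  · obtain ⟨v, hv⟩ := h.r_ex hq
    exact ⟨k • v, by simpa using hv⟩
  · rw [co_add]; exact h.r_mul h1 h2
  · rw [h.r_iff h1, cg_co_zero]
  · exact h.r_zero h1 ((cg_co_zero _).2 h2)
  · rw [hp y hy] at e
    have := h.equi (g := k⁻¹ * g * k) hy (by simp [← e, mul_assoc]) h1
    rwa [mul_smul, mul_smul, smul_inv_smul] at this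

variable [Finite G]

theorem sq_iff (hr : r q v) : q * q = 1 ↔ 32 ∣ sqNorm (v : ZV) := by
  choose f hf using h.r_ex'
  have k1 : ∀ {q v}, r q v → chi (f v * f v) = chi (q * q) := fun {q v} hr => by
    rcases (h.cg_iff (hf v) hr).1 (Cg.refl _) with e | e
    · rw [e]
    · rw [e, mul_assoc, ← mul_assoc z, ← h.ez.comm (h.r_mem (hf v)), mul_assoc, h.ez.sq, mul_one]
  have k2 : ∀ {a b}, a ∈ Q → b ∈ Q → chi (a * b * (a * b)) = chi (a * a) + chi (b * b) + chi ⁅a, b⁆ :=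
    fun {a b} ha hb => by
      rw [EZ.sq_mul h.ez ha hb, chi_mul h.ez.sq h.ez.ne_one (mul_mem (h.ez.sq_mem ha) (h.ez.sq_mem hb))
        (y := ⁅a, b⁆) (h.ez.comm_mem ha hb), chi_mul h.ez.sq h.ez.ne_one (h.ez.sq_mem ha) (h.ez.sq_mem hb)]
  have key := Cfsg.Agent.S5552.result (fun v => chi (f v * f v))
    (fun v w => k1 (h.r_cg (hf v) (by simpa using (Cg.refl (v : ZV)).add (cg_add_self w.2))))
    (fun u v w => by
      have ha := h.r_mem (hf u)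
      have hb := h.r_mem (hf v)
      have hc := h.r_mem (hf w)
      rw [k1 (h.r_mul (h.r_mul (hf u) (hf v)) (hf w)), k1 (h.r_mul (hf u) (hf v)), k1 (h.r_mul (hf u) (hf w)),
        k1 (h.r_mul (hf v) (hf w)), k2 (mul_mem ha hb) hc, k2 ha hb, k2 ha hc, k2 hb hc, EZ.comm_mul h.ez ha hb hc,
        chi_mul h.ez.sq h.ez.ne_one (x := ⁅_, _⁆) (y := ⁅_, _⁆) (h.ez.comm_mem ha hc) (h.ez.comm_mem hb hc)]
      ring_nf)
    (fun g v => by
      obtain ⟨y, hy, e⟩ := h.exists_lift g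
      rw [k1 (h.equi hy e (hf v)), show y * f v * y⁻¹ * (y * f v * y⁻¹) = y * (f v * f v) * y⁻¹ by group]
      exact chi_conj _ _)
    (by
      by_contra hc
      push Not at hc
      refine h.ez.not_abelian (abelian_of_sq fun a ha => ?_)
      obtain ⟨v, hv⟩ := h.r_ex ha
      rw [← chi_eq_zero, ← k1 hv, hc]) v
  rw [← chi_eq_zero, ← k1 hr, key, ZMod.intCast_zmod_eq_zero_iff_dvd]
  have := sixteen_dvd v.2
  omega

theorem comm_iff (hr : r q v) (hr' : r q' v') : q * q' = q' * q ↔ 16 ∣ dotInt (v : ZV) v' := by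
  have ha := h.r_mem hr
  have hb := h.r_mem hr'
  have k := h.sq_iff (h.r_mul hr hr')
  rw [EZ.sq_mul h.ez ha hb, AddSubgroup.coe_add, sqNorm_add] at k
  have k1 := h.sq_iff hr
  have k2 := h.sq_iff hr'
  have := sixteen_dvd v.2
  have := sixteen_dvd v'.2
  have := eight_dvd_dot v.2 v'.2
  have n1 := h.ez.ne_one
  have n2 := h.ez.sq
  rw [← commutatorElement_eq_one_iff_mul_comm]
  rcases h.ez.sq_or ha with e1 | e1 <;> rcases h.ez.sq_or hb with e2 | e2 <;>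
    rcases h.ez.mem_zp.1 (h.ez.comm_mem ha hb) with e3 | e3 <;> rw [← commutatorElement_def] at e3 <;>
    simp only [e1, e2, e3, one_mul, mul_one, n1, n2, true_iff, false_iff] at k k1 k2 ⊢ <;> omega

theorem conj_of_cg (hr : r q v) (hr' : r q' v') (h0 : ¬ Cg v 0) {g : Co0} (e : Cg (g • v : LL) v') :
    ∃ y ∈ 𝐂[z], pel π y = g ∧ y * q * y⁻¹ = q' := by
  obtain ⟨y, hy, e1⟩ := h.exists_lift g
  rcases (h.cg_iff hr' (h.equi hy e1 hr)).1 e with e2 | e2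
  · exact ⟨y, hy, e1, e2⟩
  · obtain ⟨a, ha, e3⟩ := h.ez.exists_conj (h.r_mem hr') fun k => h0 ((cg_co_zero g).1 (e.trans ((h.r_iff hr').1 k)))
    refine ⟨a⁻¹ * y, mul_mem (inv_mem (h.le_C ha)) hy, ?_, ?_⟩
    · rw [pel_mul π (inv_mem (h.le_C ha)) hy, h.pel_eq_one (inv_mem ha), one_mul, e1]
    · rw [show a⁻¹ * y * q * (a⁻¹ * y)⁻¹ = a⁻¹ * (y * q * y⁻¹) * a by group, e2, ← e3]; group

theorem lift_cent (hr : r s v) (h0 : ¬ Cg v 0) {g : Co0} (e : Cg (g • v : LL) v) :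
    ∃ y ∈ 𝐂[z] ⊓ 𝐂[s], pel π y = g := by
  obtain ⟨y, hy, e1, e2⟩ := h.conj_of_cg hr hr h0 e
  exact ⟨y, ⟨hy, conj_eq_iff_mem_cent1.1 e2⟩, e1⟩

theorem cg_of_cent (hr : r s v) (hy : y ∈ 𝐂[z] ⊓ 𝐂[s]) {g : Co0} (e : pel π y = g) : Cg (g • v : LL) v := by
  have := h.equi hy.1 e hr
  rw [conj_eq_iff_mem_cent1.2 hy.2] at this
  exact h.cg_of hr this

theorem exists_fix (hr : r s v) (hv : sqNorm (v : ZV) < 64) (hy : y ∈ 𝐂[z] ⊓ 𝐂[s]) :
    ∃ g : Co0, pel π y = g ∧ g • v = v := by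
  obtain ⟨g, e⟩ := exists_co π y
  rcases (h.cg_of_cent hr hy e).eq_or v.2 (by rw [co_norm]; omega) hv with k | k
  · exact ⟨g, e, Subtype.ext k⟩
  · exact ⟨negC * g, by rw [mk_negC_mul, e], by rw [mul_smul, negC_smul, neg_eq_iff_eq_neg]; exact Subtype.ext k⟩

omit h [Finite G] in
theorem not_cg_UU : ¬ Cg UU 0 := fun k => by
  have := k.norm_eq (zero_mem _) (by rw [norm_UU]; norm_num) (by decide +kernel)
  rw [norm_UU] at this; revert this; decide +kernel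

theorem memV_iff (ht : r t UU) (hr : r q v) : q ∈ zpowers z ⊔ zpowers t ↔ KU v := by
  rw [mem_V h.ez.sq ((h.sq_iff ht).2 (by rw [norm_UU])) (h.ez.comm (h.r_mem ht)), KU, ← h.r_iff hr, h.ez.mem_zp,
    h.cg_iff ht hr, h.ez.comm (h.r_mem ht), or_assoc]

/-- `O_2(C(z) ∩ C(t)) ≤ Q` for `t` of type 2 -/
theorem le_of_normal (ht : r t UU) {T : Subgroup G} (hT : T ⊴ 𝐂[z] ⊓ 𝐂[t]) (h2 : IsPGroup 2 T) : T ≤ Q := by
  have htQ := h.r_mem ht
  have hV : zpowers z ⊔ zpowers t ≤ Q := sup_le h.ez.zp_le (zpowers_le.2 htQ)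
  have hn : 𝐂[z] ⊓ 𝐂[t] ≤ 𝐍(zpowers z ⊔ zpowers t) :=
    norms_sup (norms_zpowers_of_cent1 inf_le_left) (norms_zpowers_of_cent1 inf_le_right)
  obtain ⟨x, hx, hx1, -, hx2⟩ := exists_central_mod (p := 2) (N := Q ⊓ 𝐂[t]) (K := zpowers z ⊔ zpowers t) h2
    (h.ez.pg.to_le inf_le_left) (hT.1.trans (norms_inf (inf_le_left.trans h.lq.le_norm) (norms_cent1 inf_le_right)))
    (hT.1.trans hn) ((inf_le_inf_right _ h.le_C).trans hn) fun k => by
      obtain ⟨a, ha⟩ := h.r_ex' (E8 (pt 1))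
      have := (h.memV_iff ht ha).1 (k ⟨h.r_mem ha, mem_cent1_iff.2 ((h.comm_iff ha ht).2 (by decide +kernel))⟩)
      rcases this with k | k
      · have := k.norm_eq (zero_mem _) (by decide +kernel) (by decide +kernel)
        revert this; decide +kernel
      · have := k.norm_eq UU.2 (by decide +kernel) (by decide +kernel)
        revert this; decide +kernel
  obtain ⟨v, hv⟩ := h.r_ex hx.1
  have key := co2_core (T := {g | g • UU = UU ∧ ∃ y ∈ T, pel π y = g}) (fun _ hg => hg.1)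
    (fun g hg t ht' => by
      obtain ⟨a, ha, e⟩ := h.lift_cent ht not_cg_UU (g := g) (by rw [hg]; exact Cg.refl _)
      obtain ⟨e1, y, hy, e2⟩ := ht'
      refine ⟨by rw [mul_smul, mul_smul, hg, e1, inv_smul_eq_iff, hg], a⁻¹ * y * a,
        conj_inv_mem_of_mem_normalizer (hT.2 ha) hy, ?_⟩
      rw [pel_mul π (mul_mem (inv_mem ha.1) (hT.1 hy).1) ha.1, pel_mul π (inv_mem ha.1) (hT.1 hy).1,
        pel_inv π ha.1, e, e2]; rfl)
    (x := v) ((h.comm_iff hv ht).1 (mem_cent1_iff.1 hx.2)) (fun k => hx1 ((h.memV_iff ht hv).2 k))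
    (fun g hg => by
      obtain ⟨-, y, hy, e⟩ := hg
      have k := inv_mem (hx2 y hy)
      rw [commutatorElement_inv, commutatorElement_def] at k
      exact ((h.memV_iff ht (h.r_mul (h.equi (hT.1 hy).1 e hv) (h.r_inv hv))).1 k).of_cg (cg_sub_add v.2))
  intro y hy
  obtain ⟨g, e1, e2⟩ := h.exists_fix ht (by rw [norm_UU]; norm_num) (hT.1 hy)
  refine h.mem_of_pel (hT.1 hy).1 ?_
  rw [e1, key g ⟨e2, y, hy, e1⟩]; rfl

theorem card_E_le {P : Subgroup G} (hT : Tri Q P z s) : Nat.card ↥(Q ⊓ P) ≤ 2 ^ 13 :=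
  EZ.card_le_of_abelian h.ez (mem_inf.2 ⟨h.ez.mem, hT.mem'⟩) inf_le_left hT.elemAb_E.1 (n := 12) h.card

theorem card_r {k : G} (hT : Tri Q (cj k Q) z s) : Nat.card ↥(cj k Q ⊓ 𝐂[z]) = 2 ^ 24 := by
  have := hT.r.ez.card_cent1 hT.mem' hT.symm.not_mem
  rw [card_cj, h.card] at this
  omega

omit [Finite G] in
theorem exists_short' (hq : q ∈ Q) : ∃ v : LL, r q v ∧ sqNorm (v : ZV) ≤ 64 := by
  obtain ⟨v, hv⟩ := h.r_ex hq
  obtain ⟨y, hy, h1, h2⟩ := exists_short v.2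
  exact ⟨⟨y, hy⟩, h.r_cg hv h2.symm, h1⟩

theorem not_conj_of_type2 (hr : r s v) (hv : sqNorm (v : ZV) = 32) : ¬ IsConj z s := by
  intro hc
  obtain ⟨k, rfl⟩ := isConj_iff.1 hc
  obtain ⟨g, e⟩ := trans32 hv norm_UU
  have hne : k * z * k⁻¹ ≠ z := fun e1 => by
    have := ((h.r_iff hr).1 (by rw [e1]; exact mem_zpowers _)).norm_eq (zero_mem _) (by omega) (by decide +kernel)
    rw [hv] at this; revert this; decide +kernel
  have hT := h.lq.tri (h.r_mem hr) hne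
  have := (h.twist g).le_of_normal (t := k * z * k⁻¹) (by rw [← e, inv_smul_smul]; exact hr)
    ⟨hT.r_le, hT.cent_norm_r⟩ (hT.r.ez.pg.to_le inf_le_left)
  have h1 := card_le_of_le' (le_inf this (inf_le_left (b := 𝐂[z])))
  have := h.card_E_le hT
  rw [h.card_r hT] at h1
  omega

theorem type_of_invol (hq : q ∈ Q) (h2 : q * q = 1) (h1 : q ∉ zpowers z) :
    ∃ v : LL, r q v ∧ (sqNorm (v : ZV) = 32 ∨ sqNorm (v : ZV) = 64) := by
  obtain ⟨v, hv, hn⟩ := h.exists_short' hq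
  refine ⟨v, hv, ?_⟩
  have := (h.sq_iff hv).1 h2
  rcases norm_cases v.2 hn with e | e | e | e
  · exact absurd ((h.r_iff hv).2 (Cg.of_eq e)) h1
  all_goals omega

theorem type4_of_conj (hs : s ∈ Q) (hc : IsConj z s) (hne : s ≠ z) : ∃ v : LL, r s v ∧ sqNorm (v : ZV) = 64 := by
  obtain ⟨k, rfl⟩ := isConj_iff.1 hc
  have hT := h.lq.tri hs hne
  obtain ⟨v, hv, e | e⟩ := h.type_of_invol hs hT.xsq hT.not_mem
  · exact absurd hc (h.not_conj_of_type2 hv e)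
  · exact ⟨v, hv, e⟩

omit h [Finite G] in
theorem not_cg_zero (h0 : 0 < sqNorm (v : ZV)) (h1 : sqNorm (v : ZV) ≤ 64) : ¬ Cg v 0 := fun k => by
  have := k.norm_eq (zero_mem _) h1 (by decide +kernel)
  rw [this] at h0; revert h0; decide +kernel

theorem conj_type4 (hr : r q v) (hr' : r q' v') (hv : sqNorm (v : ZV) = 64) (hv' : sqNorm (v' : ZV) = 64) :
    ∃ y ∈ 𝐂[z], y * q * y⁻¹ = q' := by
  obtain ⟨g, e⟩ := trans64 hv hv'
  obtain ⟨y, hy, -, e1⟩ := h.conj_of_cg hr hr' (not_cg_zero (by omega) (by omega)) e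
  exact ⟨y, hy, e1⟩

theorem conj_type2 (hr : r q v) (hr' : r q' v') (hv : sqNorm (v : ZV) = 32) (hv' : sqNorm (v' : ZV) = 32) :
    ∃ y ∈ 𝐂[z], y * q * y⁻¹ = q' := by
  obtain ⟨g, e⟩ := trans32 hv hv'
  obtain ⟨y, hy, -, e1⟩ := h.conj_of_cg hr hr' (not_cg_zero (by omega) (by omega)) (Cg.of_eq (congrArg _ e))
  exact ⟨y, hy, e1⟩

theorem conj_of_type4 (hr : r q v) (hv : sqNorm (v : ZV) = 64) : IsConj z q ∧ q ≠ z := by
  obtain ⟨k, h1, h2⟩ := h.ex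
  have hc : IsConj z (k * z * k⁻¹) := isConj_iff.2 ⟨k, rfl⟩
  obtain ⟨w, hw, e⟩ := h.type4_of_conj h1 hc h2
  obtain ⟨y, -, e1⟩ := h.conj_type4 hw hr e hv
  exact ⟨hc.trans (isConj_iff.2 ⟨y, e1⟩), fun e2 =>
    not_cg_zero (by omega) (by omega) ((h.r_iff hr).1 (e2 ▸ mem_zpowers _))⟩

theorem type2_of_not_conj (ht : t ∈ Q) (h2 : orderOf t = 2) (hc : ¬ IsConj z t) :
    ∃ v : LL, r t v ∧ sqNorm (v : ZV) = 32 := by
  obtain ⟨v, hv, e | e⟩ := h.type_of_invol ht (Inv.mul_self_of_orderOf h2)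
    (not_mem_zp2 h.ez.sq (Inv.ne_one_of_orderOf h2) fun e => hc (e ▸ IsConj.refl _))
  · exact ⟨v, hv, e⟩
  · exact absurd (h.conj_of_type4 hv e).1 hc

/-- normalise a conjugate of `z` to the standard frame -/
theorem exists_twist_frame (hs : s ∈ Q) (hc : IsConj z s) (hne : s ≠ z) : ∃ k : Co0, r s (k⁻¹ • E8 (pt 0)) := by
  obtain ⟨v, hv, e⟩ := h.type4_of_conj hs hc hne
  obtain ⟨g, e1⟩ := trans64 (w := E8 (pt 0)) e (norm_e8 _)
  exact ⟨g, h.r_cg hv (by simpa using (Cg.co (v := g • v) (w := E8 (pt 0)) e1 g⁻¹).symm)⟩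

theorem exists_twist_UU (ht : t ∈ Q) (h2 : orderOf t = 2) (hc : ¬ IsConj z t) : ∃ k : Co0, r t (k⁻¹ • UU) := by
  obtain ⟨v, hv, e⟩ := h.type2_of_not_conj ht h2 hc
  obtain ⟨g, e1⟩ := trans32 e norm_UU
  exact ⟨g, by rw [← e1, inv_smul_smul]; exact hv⟩

theorem pmap_cent_frame (hs : r s (E8 (pt 0))) : pmap π (𝐂[z] ⊓ 𝐂[s]) = N1 := by
  ext x
  rw [mem_pmap_of_le inf_le_left]
  constructor
  · rintro ⟨y, hy, rfl⟩
    obtain ⟨g, e⟩ := exists_co π y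
    rw [e, mk_mem_N1, mem_N0_iff (pt 0) (pt 0)]
    exact h.cg_of_cent hs hy e
  · rintro ⟨g, hg, rfl⟩
    exact h.lift_cent hs (not_cg_zero (by rw [coe_E8, norm_e8]; norm_num) (norm_e8 _).le)
      ((mem_N0_iff (pt 0) (pt 0)).1 hg)

theorem frame_main {k : G} (hs : r (k * z * k⁻¹) (E8 (pt 0))) :
    pmap π (cj k Q ⊓ 𝐂[z]) = E1 ∧ Nat.card ↥(Q ⊓ cj k Q) = 2 ^ 13 ∧ Nat.card E1 = 2 ^ 11 := by
  have hT := h.lq.tri (h.r_mem hs) (h.conj_of_type4 hs (norm_e8 _)).2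
  have h1 : pmap π (cj k Q ⊓ 𝐂[z]) ≤ E1 := le_E1_of_normal
    (h.pmap_cent_frame hs ▸ NormalIn.pmap ⟨hT.r_le, hT.cent_norm_r⟩ π) (pgroup_pmap (hT.r.ez.pg.to_le inf_le_left) π)
  have h2 := card_pmap_mul π (X := cj k Q ⊓ 𝐂[z]) inf_le_right
  rw [h.ker, h.card_r hT, ← inf_assoc, inf_eq_left.2 (inf_le_left.trans h.le_C : Q ⊓ cj k Q ≤ 𝐂[z])] at h2
  have h3 := h.card_E_le hT
  haveI := card_E1_le.1
  have h4 := card_E1_le.2
  have h5 := Nat.card_le_card_of_injective _ (inclusion_injective h1)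
  have h6 : 2 ^ 11 ≤ Nat.card (pmap π (cj k Q ⊓ 𝐂[z])) := by
    by_contra hc
    have : Nat.card ↥(Q ⊓ cj k Q) * Nat.card (pmap π (cj k Q ⊓ 𝐂[z])) < 2 ^ 13 * 2 ^ 11 :=
      Nat.mul_lt_mul_of_le_of_lt h3 (by omega) (by norm_num)
    omega
  haveI : Finite Spor.Co1 := Finite.of_surjective π h.surj
  refine ⟨eq_of_le_of_card_le h1 (by omega), ?_, by omega⟩
  rw [show Nat.card (pmap π (cj k Q ⊓ 𝐂[z])) = 2 ^ 11 by omega] at h2
  omega

end MT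

end CA.Co
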