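import Cfsg.Agent.Lib.Co.MType
import Cfsg.Agent.Lib.Co.Sect
import Cfsg.Agent.S5392

/-!
More on groups of Monster type.
-/

set_option autoImplicit false

namespace CA.Co
open Cfsg CA.Gol CA CA.Ex2 CA.Core Subgroup
open scoped Pointwise commutatorElement

variable {G : Type*} [Group G]

namespace MT
variable {Q : Subgroup G} {z : G} {π : ↥𝐂[z] →* Spor.Co1} {r : G → LL → Prop} (h : MT Q z π r)
variable {q q' s t y : G} {v v' w : LL}
include h
variable [Finite G]

theorem oP_le : oP 2 𝐂[z] ≤ Q := by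
  have hT := oP_normalIn 2 𝐂[z]
  obtain ⟨x, hx, hx1, -, hx2⟩ := exists_central_mod (p := 2) (N := Q) (K := zpowers z) (oP_isPGroup 2 𝐂[z])
    h.ez.pg (hT.1.trans h.lq.le_norm) (norms_zpowers_of_cent1 hT.1) (norms_zpowers_of_cent1 h.le_C)
    fun k => h.ez.not_abelian (abelian_of_le (abelian_zpowers z) k)
  obtain ⟨v, hv⟩ := h.r_ex hx
  let M : AddSubgroup LL :=
    { carrier := {v | ∀ y ∈ oP 2 𝐂[z], ∀ g : Co0, pel π y = g → Cg (g • v : LL) v}
      zero_mem' := fun _ _ g _ => Cg.of_eq (by simp [co_zero])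
      add_mem' := fun {a b} ha hb y hy g e => by
        rw [co_add]; exact (ha y hy g e).add (hb y hy g e)
      neg_mem' := fun {a} ha y hy g e => by
        rw [co_neg]; exact (ha y hy g e).neg }
  have hM := (invM_of (M := M.map leechLattice.subtype)
    (fun w hw => ⟨(2 : ℤ) • ⟨w, hw⟩, fun y hy g e => by
      rw [co_zsmul]; exact (cg_two (g • (⟨w, hw⟩ : LL)).2).trans (cg_two hw).symm, rfl⟩)
    (by rintro _ ⟨v, -, rfl⟩; exact v.2)
    (by
      rintro g w ⟨u, hu, e⟩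
      obtain rfl : u = w := Subtype.ext e
      refine ⟨g • u, fun y hy k e1 => ?_, rfl⟩
      obtain ⟨a, ha, e2⟩ := h.exists_lift g
      have := (hu _ (conj_inv_mem_of_mem_normalizer (hT.2 ha) hy) (g⁻¹ * k * g) (by
        rw [pel_mul π (mul_mem (inv_mem ha) (hT.1 hy)) ha, pel_mul π (inv_mem ha) (hT.1 hy), pel_inv π ha, e1, e2]
        rfl)).co g
      rwa [mul_smul, mul_smul, smul_inv_smul] at this)).irred (x := v)
    ⟨v, fun y hy g e => by
      have k := inv_mem (hx2 y hy)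
      rw [commutatorElement_inv, commutatorElement_def] at k
      exact (cg_iff_add v.2).2 ((h.r_iff (h.r_mul (h.equi (hT.1 hy) e hv) (h.r_inv hv))).1 k), rfl⟩
    fun ⟨w, hw, e⟩ => hx1 ((h.r_iff hv).2 (e ▸ cg_two hw))
  intro y hy
  obtain ⟨g, e⟩ := exists_co π y
  refine h.mem_of_pel (hT.1 hy) ?_
  rw [e, QuotientGroup.eq_one_iff]
  refine Cfsg.Agent.S5392.result.1 g fun v => ?_
  obtain ⟨u, hu, e1⟩ := hM.ge v.2
  obtain rfl : u = v := Subtype.ext e1
  obtain ⟨w, hw, e2⟩ := hu y hy g e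
  exact ⟨⟨w, hw⟩, by rw [e2]; rfl⟩

theorem fstar_eq : FStar.fstar 𝐂[z] = Q := fstar_eq_of_lq h.lq h.oP_le

end MT

end CA.Co
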