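import Cfsg.Agent.Lib.Co.Calc

/-!
Counting the minimal vectors of the Leech lattice on which a quadratic plus linear function has prescribed values.
-/

set_option autoImplicit false
set_option maxRecDepth 100000

namespace CA.Co
open Cfsg CA.Gol

theorem tight_shape {x : ZV} {s : Finset GolayPt} {k : ℤ} (h : ∀ p ∈ s, k ^ 2 ≤ x p ^ 2)
    (hn : sqNorm x ≤ k ^ 2 * s.card) : (∀ p ∈ s, x p = k ∨ x p = -k) ∧ ∀ p ∉ s, x p = 0 := by
  have h0 : ∀ p ∈ Finset.univ, 0 ≤ x p ^ 2 - k ^ 2 * iz s p := fun p _ => by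
    rcases iz_cases s p with e | e <;> rw [e.2]
    · have := h p e.1; omega
    · have := sq_nonneg (x p); omega
  have h1 := (Finset.sum_eq_zero_iff_of_nonneg h0).1 (le_antisymm (by
    rw [Finset.sum_sub_distrib, ← Finset.mul_sum, sum_iz]; unfold sqNorm at hn; omega) (Finset.sum_nonneg h0))
  refine ⟨fun p hp => sq_eq_sq_iff_eq_or_eq_neg.1 ?_, fun p hp => pow_eq_zero_iff two_ne_zero |>.1 ?_⟩
  · have := h1 p (Finset.mem_univ p); rw [iz, if_pos hp] at this; omega
  · have := h1 p (Finset.mem_univ p); rw [iz, if_neg hp] at this; omega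

theorem mv_shape {x : ZV} (hx : x ∈ leechLattice) (hn : sqNorm x = 32) :
    (∃ c ∈ CW, ∃ p, x = (fun q => if q ∈ c then -1 else 1) + Pi.single p (if p ∈ c then 4 else -4)) ∨
      ∃ (s : Finset GolayPt) (k : ℤ), ((k = 2 ∧ s ∈ octads ∧ 8 ∣ ∑ p, x p) ∨ (k = 4 ∧ s.card = 2)) ∧
        (∀ p ∈ s, x p = k ∨ x p = -k) ∧ ∀ p ∉ s, x p = 0 := by
  by_cases h : 2 ∣ x (pt 0)
  · right
    obtain ⟨c, hc, y, e, hy⟩ := even_form hx h
    rcases c.eq_empty_or_nonempty with rfl | hne
    · have e' : ∀ p, x p = 4 * y p := fun p => by simpa [iz] using e p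
      set s := Finset.univ.filter fun p => x p ≠ 0 with hs
      have h1 : ∀ p ∈ s, (4 : ℤ) ^ 2 ≤ x p ^ 2 := fun p hp => by
        have := e' p
        rw [hs, Finset.mem_filter] at hp
        exact sq_ge_of_ne (by norm_num) (by omega)
      have h2 := card_mul_le_sqNorm x s _ h1
      have h3 : s.card = 2 := by
        by_contra h4
        obtain ⟨q, hq⟩ := Finset.card_le_one_iff_subset_singleton.1 (show s.card ≤ 1 by omega)
        rw [sqNorm, Finset.sum_eq_single q (fun p _ hp => by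
          by_contra k
          exact hp (Finset.mem_singleton.1 (hq (by simpa [hs] using k)))) (by simp), e' q] at hn
        have : y q ^ 2 = 2 := by nlinarith
        have k1 : -2 < y q := by nlinarith
        have k2 : y q < 2 := by nlinarith
        interval_cases y q <;> omega
      exact ⟨s, 4, Or.inr ⟨rfl, h3⟩, tight_shape h1 (by rw [hn, h3]; norm_num)⟩
    · have h1 : ∀ p ∈ c, (2 : ℤ) ^ 2 ≤ x p ^ 2 := fun p hp => by
        have := e p
        rw [iz, if_pos hp] at this
        exact sq_ge_of_ne (by norm_num) (by omega)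
      have h2 := card_mul_le_sqNorm x c _ h1
      have h3 := card_CW hc
      have h4 := hne.card_pos
      have h5 : c.card = 8 := by omega
      refine ⟨c, 2, Or.inl ⟨rfl, ⟨hc, h5⟩, ?_⟩, tight_shape h1 (by rw [hn, h5]; norm_num)⟩
      simp only [e, Finset.sum_add_distrib, ← Finset.mul_sum, sum_iz, h5]
      omega
  · left
    obtain ⟨m, c, y, hc, e, -⟩ := mem_leech.1 hx
    have h0 := e (pt 0)
    have key : ∀ d ∈ CW, (∀ p, sg d x p % 4 = 1) → ∃ c ∈ CW, ∃ p,
        x = (fun q => if q ∈ c then -1 else 1) + Pi.single p (if p ∈ c then 4 else -4) := by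
      intro d hd h1
      have e1 : sg d x = fun p => 1 + 4 * (sg d x p / 4) := funext fun p => by have := h1 p; omega
      have h2 := (isCo_sg hd).norm hx
      rw [e1] at h2
      obtain ⟨A, B, h3, h4⟩ := one_add_shape (n := 1) (by rw [h2, hn]; rfl) (by norm_num)
      obtain rfl : B = ∅ := Finset.card_eq_zero.1 (by omega)
      obtain ⟨p, rfl⟩ := Finset.card_eq_one.1 (show A.card = 1 by simpa using h3)
      refine ⟨d, hd, p, funext fun q => ?_⟩
      have k1 := congrFun e1 q
      rw [h4 q] at k1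
      by_cases a : q = p
      · subst a
        by_cases b : q ∈ d <;> simp [sg, iz, b] at k1 ⊢ <;> omega
      · by_cases b : q ∈ d <;> simp [sg, iz, a, b] at k1 ⊢ <;> omega
    by_cases hm : m % 4 = 1
    · refine key c hc fun p => ?_
      have := e p
      rcases iz_cases c p with h | h <;> simp only [sg, h.1, if_true, if_false] <;> omega
    · refine key _ (compl_mem_CW hc) fun p => ?_
      have := e p
      rcases iz_cases c p with h | h <;> simp only [sg, h.1, if_true, if_false, Finset.mem_sdiff, Finset.mem_univ,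
        not_true, not_false_iff, and_false, and_true] <;> omega

/-! ### the program -/

/-- lists of table rows -/
inductive L5 : Type
  | nil : L5
  | cons (sh bit P N s : ℕ) (t : L5) : L5

/-- residue modulo `2 ^ 40` -/
def md (x : ℤ) : ℕ := Int.toNat (Int.emod x 1099511627776)
/-- a digit -/
def dgm (Y sh : ℕ) : ℕ := Nat.land (Nat.shiftRight Y sh) 281474976710655
/-- test a value -/
def tst (ok : ℕ → Bool) (q : ℕ) : ℕ := Bool.rec 0 1 (ok (Nat.land q 1099511627775))

/-- all sign patterns of the right parity -/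
noncomputable def go (kp kn : ℕ) (ok : ℕ → Bool) (sh0 s0 : ℕ) (l : L5) : Bool → ℕ → ℕ → ℕ :=
  L5.rec (fun b Y q => tst ok (Nat.add (Nat.add q s0) (Nat.mul (Bool.rec kp kn b) (dgm Y sh0))))
    (fun sh _ P N s _ ih b Y q => force Y fun Y => force (Nat.add q s) fun q => force (dgm Y sh) fun d =>
      Bool.rec (Nat.add (ih false (Nat.add Y P) (Nat.add q (Nat.mul kp d)))
          (ih true (Nat.add Y N) (Nat.add q (Nat.mul kn d))))
        (Nat.add (ih true (Nat.add Y P) (Nat.add q (Nat.mul kp d)))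
          (ih false (Nat.add Y N) (Nat.add q (Nat.mul kn d)))) b) l

/-- the sign pattern of a code word -/
noncomputable def lin (c : ℕ) (k : ℕ → ℕ → ℕ) (l : L5) : ℕ → ℕ → ℕ :=
  L5.rec k (fun sh bit P N s _ ih Y q => force Y fun Y => force (Nat.add q s) fun q =>
    Bool.rec (ih (Nat.add Y N) (Nat.add q (Nat.mul 1099511627775 (dgm Y sh)))) (ih (Nat.add Y P) (Nat.add q (dgm Y sh)))
      (Nat.beq (Nat.land c bit) 0)) l

/-- the position of the entry three -/
noncomputable def fin3 (c : ℕ) (ok : ℕ → Bool) (l : L5) (Y q : ℕ) : ℕ := force Y fun Y => force q fun q =>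
  L5.rec 0 (fun sh bit _ _ s _ ih => Nat.add ih (tst ok (Nat.add (Nat.add q s)
    (Nat.mul (Bool.rec 4 4398046511100 (Nat.beq (Nat.land c bit) 0)) (dgm Y sh))))) l

/-- the rows of a mask -/
noncomputable def sub5 (c : ℕ) (k : L5 → ℕ) (l : L5) : L5 → ℕ :=
  L5.rec k (fun sh bit P N s _ ih acc =>
    Bool.rec (ih (L5.cons sh bit P N s acc)) (ih acc) (Nat.beq (Nat.land c bit) 0)) l

noncomputable def go0 (kp kn : ℕ) (ok : ℕ → Bool) (b : Bool) (Y : ℕ) (l : L5) : ℕ :=
  L5.rec 0 (fun sh _ _ _ s t _ => go kp kn ok sh s t b Y 0) l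

/-- packed residues -/
def pkd (f : ℕ → ℤ) : ℕ := horner 281474976710656 (fun p => md (f p)) 24 0

def rP (S : ℕ → ℕ → ℤ) (a : ℤ) (j : ℕ) : ℕ := pkd fun p => Int.mul a (Int.add (S p j) (S j p))

noncomputable def mkL (S : ℕ → ℕ → ℤ) (a : ℤ) (k : L5 → ℕ) (n : ℕ) : L5 → ℕ :=
  Nat.rec (motive := fun _ => L5 → ℕ) k (fun j ih acc => force (Nat.mul 48 j) fun sh => force (Nat.pow 2 j) fun bit =>
    force (rP S a j) fun P => force (rP S (Int.neg a) j) fun N =>
    force (md (Int.mul (Int.mul a a) (S j j))) fun s => ih (L5.cons sh bit P N s acc)) n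

/-- the counting program -/
noncomputable def cntMV (S : ℕ → ℕ → ℤ) (W : ℕ → ℤ) (ok : ℕ → Bool) : ℕ :=
  mkL S 1 (fun l1 => mkL S 2 (fun l2 => mkL S 4 (fun l4 => force (pkd W) fun Y =>
    Nat.add (sumLt (fun i => force (enc i) fun c => Nat.add (lin c (fin3 c ok l4) l1 Y 0)
      (Bool.rec 0 (sub5 c (go0 2 2199023255550 ok false Y) l2 L5.nil) (Nat.beq (popc c) 8))) 4096)
    (sumLt (fun a => sumLt (fun b => sub5 (Nat.lor (Nat.pow 2 a) (Nat.pow 2 b))
      (fun l => Nat.add (go0 4 4398046511100 ok false Y l) (go0 4 4398046511100 ok true Y l)) l4 L5.nil) a) 24))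
    24 L5.nil) 24 L5.nil) 24 L5.nil

/-! ### correctness -/

/-- the function -/
def Phi2 (S : ℕ → ℕ → ℤ) (W : ℕ → ℤ) (x : ZV) : ℤ :=
  ∑ p, ∑ q, x p * S (ix p) (ix q) * x q + ∑ p, x p * W (ix p)

/-- its derivative -/
def Dv (S : ℕ → ℕ → ℤ) (W : ℕ → ℤ) (x : ZV) (p : GolayPt) : ℤ :=
  W (ix p) + ∑ q, (S (ix p) (ix q) + S (ix q) (ix p)) * x q

variable {S : ℕ → ℕ → ℤ} {W : ℕ → ℤ} {ok : ℕ → Bool}

theorem Phi2_add (y : ZV) (p : GolayPt) (a : ℤ) :
    Phi2 S W (y + Pi.single p a) = Phi2 S W y + a * a * S (ix p) (ix p) + a * Dv S W y p := by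
  simp only [Phi2, Dv, Pi.add_apply, Pi.single_apply, add_mul, mul_add, Finset.sum_add_distrib, ite_mul, mul_ite,
    zero_mul, mul_zero, Finset.sum_ite_eq', Finset.mem_univ, if_true, Finset.mul_sum, Finset.sum_ite_irrel,
    Finset.sum_const_zero]
  simp only [mul_assoc, mul_comm, mul_left_comm]
  ring

theorem Dv_add (y : ZV) (p r : GolayPt) (a : ℤ) :
    Dv S W (y + Pi.single p a) r = Dv S W y r + a * (S (ix r) (ix p) + S (ix p) (ix r)) := by
  simp only [Dv, Pi.add_apply, Pi.single_apply, mul_add, Finset.sum_add_distrib, mul_ite, mul_zero,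
    Finset.sum_ite_eq', Finset.mem_univ, if_true]
  ring

theorem md_eq (x : ℤ) : (md x : ℤ) = x % 1099511627776 := Int.toNat_of_nonneg (Int.emod_nonneg _ (by norm_num))

theorem md_lt (x : ℤ) : md x < 1099511627776 := by have := md_eq x; omega

theorem fld_succ (w T i : ℕ) : fld w T (i + 1) = fld w (T / 2 ^ w) i := by
  rw [fld_eq, fld_eq, Nat.div_div_eq_div_mul, pow_succ']

theorem fld_add {w : ℕ} (i : ℕ) : ∀ {a b : ℕ}, (∀ j, fld w a j + fld w b j < 2 ^ w) →
    fld w (a + b) i = fld w a i + fld w b i := by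
  have h0 : ∀ a, fld w a 0 = a % 2 ^ w := fun a => by simp [fld_eq]
  induction i with
  | zero => intro a b h; have := h 0; rw [h0, h0] at this; rw [h0, h0, h0, Nat.add_mod_of_add_mod_lt this]
  | succ i ih =>
    intro a b h
    have := h 0
    rw [h0, h0] at this
    rw [fld_succ, fld_succ, fld_succ, Nat.add_div_eq_of_add_mod_lt this]
    exact ih fun j => by rw [← fld_succ, ← fld_succ]; exact h _

theorem fld_pkd (f : ℕ → ℤ) (i : ℕ) : fld 48 (pkd f) i = if i < 24 then md (f i) else 0 := by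
  have h : ∀ i < 24, md (f (0 + i)) < 281474976710656 := fun i _ => (md_lt _).trans (by norm_num)
  rw [fld_eq, show 2 ^ 48 = 281474976710656 by norm_num, pkd]
  split_ifs with hi
  · simpa using horner_digit (f := fun p => md (f p)) h hi
  · rw [Nat.div_eq_of_lt ((horner_lt (f := fun p => md (f p)) h).trans_le
      (Nat.pow_le_pow_right (by norm_num) (not_lt.1 hi)))]

theorem dg_eq (Y j : ℕ) : dgm Y (Nat.mul 48 j) = fld 48 Y j := Nat.and_two_pow_sub_one_eq_mod _ 48

/-- the state of the computation -/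
structure St (S : ℕ → ℕ → ℤ) (W : ℕ → ℤ) (y : ZV) (n Y q : ℕ) : Prop where
  le : ∀ i, fld 48 Y i ≤ n * 1099511627776
  dv : ∀ p, (fld 48 Y (ix p) : ℤ) ≡ Dv S W y p [ZMOD 1099511627776]
  ph : (q : ℤ) ≡ Phi2 S W y [ZMOD 1099511627776]

theorem st_zero : St S W 0 1 (pkd W) 0 :=
  ⟨fun i => by rw [fld_pkd]; split_ifs; exacts [(md_lt _).le, Nat.zero_le _],
    fun p => by rw [fld_pkd, if_pos (ix_lt p), md_eq]; simpa [Dv] using Int.mod_modEq _ _, by simp [Phi2]⟩

section step
variable {y : ZV} {n Y q j k : ℕ} {a b : ℤ}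

theorem St.ph' (h : St S W y n Y q) (hj : j < 24) (hk : (k : ℤ) ≡ a [ZMOD 1099511627776]) (hb : b * b = a * a) :
    ((Nat.add (Nat.add q (md (Int.mul (Int.mul b b) (S j j)))) (Nat.mul k (dgm Y (Nat.mul 48 j))) : ℕ) : ℤ) ≡
      Phi2 S W (y + Pi.single (pt j) a) [ZMOD 1099511627776] := by
  have := h.dv (pt j)
  rw [Phi2_add, dg_eq, ix_pt hj, ← hb] at *
  simp only [Nat.add_eq, Nat.mul_eq, Nat.cast_add, Nat.cast_mul, md_eq]
  exact (h.ph.add (Int.mod_modEq _ _)).add (hk.mul this)

theorem St.step (h : St S W y n Y q) (hj : j < 24) (hn : n < 100) (hk : (k : ℤ) ≡ a [ZMOD 1099511627776])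
    (hb : b * b = a * a) : St S W (y + Pi.single (pt j) a) (n + 1) (Nat.add Y (rP S a j))
      (Nat.add (Nat.add q (md (Int.mul (Int.mul b b) (S j j)))) (Nat.mul k (dgm Y (Nat.mul 48 j)))) := by
  have h1 : ∀ i, fld 48 (rP S a j) i < 1099511627776 := fun i => by
    rw [rP, fld_pkd]; split_ifs; exacts [md_lt _, by norm_num]
  have h2 : ∀ i, fld 48 (Nat.add Y (rP S a j)) i = fld 48 Y i + fld 48 (rP S a j) i := fun i =>
    fld_add i fun i => by have := h.le i; have := h1 i; omega
  refine ⟨fun i => by have := h.le i; have := h1 i; rw [h2]; omega, fun p => ?_, h.ph' hj hk hb⟩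
  rw [h2, Dv_add, rP, fld_pkd, if_pos (ix_lt p), Nat.cast_add, md_eq, ix_pt hj]
  exact (h.dv p).add (Int.mod_modEq _ _)

theorem tst_spec {x : ZV} (h : (q : ℤ) ≡ Phi2 S W x [ZMOD 1099511627776]) :
    {u | u = x ∧ ok (md (Phi2 S W u)) = true}.encard ≤ tst ok q := by
  have e : Nat.land q 1099511627775 = md (Phi2 S W x) := by
    have h1 : Nat.land q 1099511627775 = q % 2 ^ 40 := Nat.and_two_pow_sub_one_eq_mod _ 40
    have h2 := md_eq (Phi2 S W x)
    unfold Int.ModEq at h
    omega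
  rw [tst, e]
  cases k : ok (md (Phi2 S W x))
  · refine (Set.encard_eq_zero.2 (Set.eq_empty_of_forall_notMem ?_)).trans_le zero_le
    rintro _ ⟨rfl, h'⟩
    exact Bool.false_ne_true (k.symm.trans h')
  · exact (Set.encard_le_encard fun _ h => h.1).trans_eq (Set.encard_singleton x)

end step

/-- the list of rows -/
def ofL (S : ℕ → ℕ → ℤ) (a : ℤ) (js : List ℕ) : L5 := js.foldr (fun j t => L5.cons (Nat.mul 48 j) (Nat.pow 2 j)
  (rP S a j) (rP S (Int.neg a) j) (md (Int.mul (Int.mul a a) (S j j))) t) L5.nil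

theorem mkL_eq (a : ℤ) (k : L5 → ℕ) (n : ℕ) : ∀ js, mkL S a k n (ofL S a js) = k (ofL S a (List.range n ++ js)) := by
  induction n with
  | zero => intro js; rfl
  | succ n ih => intro js; rw [List.range_succ, List.append_assoc, ← ih]; simp only [mkL, force_eq]; rfl

theorem bit_eq (c j : ℕ) : Nat.beq (Nat.land c (Nat.pow 2 j)) 0 = !(c.testBit j) := by
  have : Nat.land c (Nat.pow 2 j) = (c.testBit j).toNat * 2 ^ j := Nat.and_two_pow c j
  rw [this]
  cases c.testBit j
  · simp
  · simpa using beq_false_iff.2 (by positivity)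

theorem sub5_eq (a : ℤ) (c : ℕ) (k : L5 → ℕ) (js : List ℕ) : ∀ ks, sub5 c k (ofL S a js) (ofL S a ks) =
    k (ofL S a ((js.filter c.testBit).reverse ++ ks)) := by
  induction js with
  | nil => intro ks; rfl
  | cons j js ih =>
    intro ks
    show Bool.rec (motive := fun _ => ℕ) (sub5 c k (ofL S a js) (ofL S a (j :: ks))) (sub5 c k (ofL S a js) (ofL S a ks))
      (Nat.beq (Nat.land c (Nat.pow 2 j)) 0) = _
    rw [bit_eq, ih, ih, List.filter_cons]
    cases c.testBit j <;> simp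

/-- the vectors below a node of the search tree -/
def Bl (a : ℤ) (js : List ℕ) (b : Bool) (y x : ZV) : Prop := (∀ p, ix p ∉ js → x p = y p) ∧
  (∀ p, ix p ∈ js → x p = y p + a ∨ x p = y p - a) ∧
    4 * a ∣ ∑ p, x p - ∑ p, y p - a * js.length + if b then 2 * a else 0

theorem Bl.cons {a : ℤ} {j : ℕ} {js : List ℕ} {b : Bool} {y x : ZV} (hj : j < 24) (hn : j ∉ js)
    (h : Bl a (j :: js) b y x) : Bl a js b (y + Pi.single (pt j) a) x ∨ Bl a js (!b) (y + Pi.single (pt j) (-a)) x := by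
  obtain ⟨h1, h2, h3⟩ := h
  have k : ∀ e, x (pt j) = y (pt j) + e → (∀ p, ix p ∉ js → x p = (y + Pi.single (pt j) e : ZV) p) ∧
      ∀ p, ix p ∈ js → x p = (y + Pi.single (pt j) e : ZV) p + a ∨ x p = (y + Pi.single (pt j) e : ZV) p - a :=
    fun e he => ⟨fun p hp => by
      by_cases c : p = pt j
      · simp [c, he]
      · simp [c, h1 p (by simp [hp, (eq_pt_iff hj).not.1 c])], fun p hp => by
      have c : p ≠ pt j := fun c => hn (((eq_pt_iff hj).1 c) ▸ hp)
      simpa [c] using h2 p (by simp [hp])⟩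
  rw [List.length_cons] at h3
  refine (h2 (pt j) (by simp [ix_pt hj])).imp (fun e => ⟨(k _ e).1, (k _ e).2, ?_⟩)
    fun e => ⟨(k _ (by omega)).1, (k _ (by omega)).2, ?_⟩
  · convert h3 using 2
    simp [Finset.sum_add_distrib]; ring
  · have e : ∑ p, (y + Pi.single (pt j) (-a) : ZV) p = ∑ p, y p - a := by simp [Finset.sum_add_distrib]; ring
    rw [e]
    generalize ∑ p, x p = u, ∑ p, y p = v at h3
    cases b
    · obtain ⟨w, hw⟩ := h3
      exact ⟨w + 1, by simp at hw ⊢; linear_combination hw⟩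
    · obtain ⟨w, hw⟩ := h3
      exact ⟨w, by simp at hw ⊢; linear_combination hw⟩

theorem go_cons (kp kn sh0 s0 sh bit P N s : ℕ) (t : L5) (b : Bool) (Y q : ℕ) :
    go kp kn ok sh0 s0 (L5.cons sh bit P N s t) b Y q =
      go kp kn ok sh0 s0 t b (Nat.add Y P) (Nat.add (Nat.add q s) (Nat.mul kp (dgm Y sh))) +
        go kp kn ok sh0 s0 t (!b) (Nat.add Y N) (Nat.add (Nat.add q s) (Nat.mul kn (dgm Y sh))) := by
  cases b <;> simp only [go, force_eq] <;> rfl

theorem lin_cons (c : ℕ) (k : ℕ → ℕ → ℕ) (sh bit P N s : ℕ) (t : L5) (Y q : ℕ) :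
    lin c k (L5.cons sh bit P N s t) Y q = Bool.rec (motive := fun _ => ℕ)
      (lin c k t (Nat.add Y N) (Nat.add (Nat.add q s) (Nat.mul 1099511627775 (dgm Y sh))))
      (lin c k t (Nat.add Y P) (Nat.add (Nat.add q s) (dgm Y sh))) (Nat.beq (Nat.land c bit) 0) := by
  simp only [lin, force_eq]

theorem go_spec {a : ℤ} {kp kn j0 : ℕ} (ha : 0 < a) (h1 : (kp : ℤ) ≡ a [ZMOD 1099511627776])
    (h2 : (kn : ℤ) ≡ -a [ZMOD 1099511627776]) (h0 : j0 < 24) (js : List ℕ) : ∀ (b : Bool) (y : ZV) (n Y q : ℕ),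
    (∀ j ∈ js, j < 24) → (js ++ [j0]).Nodup → n + js.length < 100 → St S W y n Y q →
      {x | Bl a (js ++ [j0]) b y x ∧ ok (md (Phi2 S W x)) = true}.encard ≤
        go kp kn ok (Nat.mul 48 j0) (md (Int.mul (Int.mul a a) (S j0 j0))) (ofL S a js) b Y q := by
  induction js with
  | nil =>
    intro b y n Y q _ _ _ h
    have k : ∀ {c y x}, Bl a [] c y x → x = y ∧ c = false := fun {c y x} k => by
      obtain rfl : x = y := funext fun p => k.1 p (by simp)
      cases c
      · exact ⟨rfl, rfl⟩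
      · have := Int.le_of_dvd (by omega) (show 4 * a ∣ 2 * a by simpa using k.2.2)
        omega
    cases b
    · refine le_trans (Set.encard_le_encard fun x hx => And.intro ?_ hx.2) (tst_spec (h.ph' h0 h1 rfl))
      exact (hx.1.cons h0 (by simp)).elim (fun e => (k e).1) fun e => absurd (k e).2 (by simp)
    · refine le_trans (Set.encard_le_encard fun x hx => And.intro ?_ hx.2) (tst_spec (h.ph' h0 h2 (by ring)))
      exact (hx.1.cons h0 (by simp)).elim (fun e => absurd (k e).2 (by simp)) fun e => (k e).1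
  | cons j js ih =>
    intro b y n Y q hl hn hb h
    rw [List.forall_mem_cons] at hl
    rw [List.cons_append, List.nodup_cons] at hn
    rw [List.length_cons] at hb
    have k := add_le_add (ih b _ _ _ _ hl.2 hn.2 (by omega) (h.step hl.1 (by omega) h1 rfl))
      (ih (!b) _ _ _ _ hl.2 hn.2 (by omega) (h.step hl.1 (by omega) h2 (b := a) (by ring)))
    refine (Set.encard_le_encard fun x hx => ?_).trans ((Set.encard_union_le _ _).trans (k.trans_eq ?_))
    · exact (hx.1.cons hl.1 hn.1).imp (⟨·, hx.2⟩) (⟨·, hx.2⟩)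
    · rw [← Nat.cast_add]
      exact congrArg _ (go_cons ..).symm

theorem go0_spec {a : ℤ} {kp kn c : ℕ} (ha : 0 < a) (h1 : (kp : ℤ) ≡ a [ZMOD 1099511627776])
    (h2 : (kn : ℤ) ≡ -a [ZMOD 1099511627776]) (hc : (fs c).Nonempty) (b : Bool) :
    {x : ZV | ((∀ p ∈ fs c, x p = a ∨ x p = -a) ∧ (∀ p ∉ fs c, x p = 0) ∧
      4 * a ∣ ∑ p, x p - a * (fs c).card + if b then 2 * a else 0) ∧ ok (md (Phi2 S W x)) = true}.encard ≤
      go0 kp kn ok b (pkd W) (ofL S a (((List.range 24).filter c.testBit).reverse ++ [])) := by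
  have m : ∀ j, j ∈ ((List.range 24).filter c.testBit).reverse ++ [] ↔ j < 24 ∧ c.testBit j := by simp
  have nd : (((List.range 24).filter c.testBit).reverse ++ []).Nodup := by simpa using List.nodup_range.filter _
  have ln : (((List.range 24).filter c.testBit).reverse ++ []).length = (fs c).card := by
    rw [← List.toFinset_card_of_nodup nd, ← Finset.card_image_of_injective (fs c) ix_injective]
    congr 1
    ext j
    rw [List.mem_toFinset, m, Finset.mem_image]
    exact ⟨fun h => ⟨pt j, by rw [mem_fs, ix_pt h.1]; exact h.2, ix_pt h.1⟩,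
      by rintro ⟨p, hp, rfl⟩; exact ⟨ix_lt p, mem_fs.1 hp⟩⟩
  generalize ((List.range 24).filter c.testBit).reverse ++ [] = l at m nd ln
  have h24 : (fs c).card ≤ 24 := card_golayPt ▸ Finset.card_le_univ _
  cases l with
  | nil => exact absurd hc.card_pos (by simp [← ln])
  | cons j l =>
    refine le_trans (Set.encard_le_encard fun x hx => And.intro ?_ hx.2) (go_spec ha h1 h2 ((m j).1 (by simp)).1 l b 0 1 _ _
      (fun i hi => ((m i).1 (by simp [hi])).1) (List.perm_append_singleton j l |>.nodup_iff.2 nd)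
      (by simp at ln; omega) st_zero)
    have m' : ∀ p, ix p ∈ l ++ [j] ↔ p ∈ fs c := fun p => by
      rw [(List.perm_append_singleton j l).mem_iff, m, mem_fs, and_iff_right (ix_lt p)]
    refine ⟨fun p hp => hx.1.2.1 p ((m' p).not.1 hp), fun p hp => by simpa using hx.1.1 p ((m' p).1 hp), ?_⟩
    simpa [← ln] using hx.1.2.2

theorem lin_spec (c : ℕ) (k : ℕ → ℕ → ℕ) (js : List ℕ) : ∀ (y : ZV) (n Y q : ℕ), (∀ j ∈ js, j < 24) → js.Nodup →
    n + js.length < 100 → St S W y n Y q → ∃ n' Y' q', lin c k (ofL S 1 js) Y q = k Y' q' ∧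
      St S W (fun p => y p + if ix p ∈ js then if c.testBit (ix p) then -1 else 1 else 0) n' Y' q' := by
  induction js with
  | nil => exact fun y n Y q _ _ _ h => ⟨n, Y, q, rfl, by simpa using h⟩
  | cons j js ih =>
    intro y n Y q hl hn hb h
    rw [List.forall_mem_cons] at hl
    rw [List.nodup_cons] at hn
    rw [List.length_cons] at hb
    have e : (fun p => y p + if ix p ∈ j :: js then if c.testBit (ix p) then -1 else 1 else 0) = fun p =>
        (y + Pi.single (pt j) (if c.testBit j then -1 else 1) : ZV) p +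
          if ix p ∈ js then if c.testBit (ix p) then -1 else 1 else 0 := funext fun p => by
      by_cases a : p = pt j
      · simp [a, ix_pt hl.1, hn.1]
      · simp [a, (eq_pt_iff hl.1).not.1 a]
    rw [e, show lin c k (ofL S 1 (j :: js)) Y q = _ from lin_cons .., bit_eq]
    cases c.testBit j
    · have := h.step (k := 1) (a := 1) hl.1 (by omega) rfl rfl
      rw [show ∀ u, Nat.mul 1 u = u from one_mul] at this
      exact ih _ _ _ _ hl.2 hn.2 (by omega) this
    · exact ih _ _ _ _ hl.2 hn.2 (by omega)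
        (h.step (k := 1099511627775) (a := -1) (b := 1) hl.1 (by omega) (by decide) rfl)

theorem fin3_spec {c n Y q : ℕ} {y : ZV} (h : St S W y n Y q) (js : List ℕ) (hl : ∀ j ∈ js, j < 24) :
    {x | (∃ j ∈ js, x = y + Pi.single (pt j) (if c.testBit j then 4 else -4)) ∧ ok (md (Phi2 S W x)) = true}.encard ≤
      fin3 c ok (ofL S 4 js) Y q := by
  induction js with
  | nil => simp
  | cons j js ih =>
    rw [List.forall_mem_cons] at hl
    have k := add_le_add (ih hl.2) (tst_spec (ok := ok) (h.ph' (k := Bool.rec 4 4398046511100 (!c.testBit j))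
      (a := if c.testBit j then 4 else -4) (b := 4) hl.1 (by cases c.testBit j <;> rfl) (by split_ifs <;> rfl)))
    refine (Set.encard_le_encard fun x hx => ?_).trans ((Set.encard_union_le _ _).trans (k.trans_eq ?_))
    · obtain ⟨⟨i, hi, e⟩, hx⟩ := hx
      rcases List.mem_cons.1 hi with rfl | hi
      · exact Or.inr ⟨e, hx⟩
      · exact Or.inl ⟨⟨i, hi, e⟩, hx⟩
    · rw [← Nat.cast_add]
      simp only [ofL, List.foldr_cons, fin3, force_eq, bit_eq]; rfl

theorem encard_le_sumLt {α : Type*} {X : ℕ → Set α} {f : ℕ → ℕ} {n : ℕ} (h : ∀ i < n, (X i).encard ≤ f i) :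
    {x | ∃ i < n, x ∈ X i}.encard ≤ sumLt f n := by
  rw [sumLt_eq]
  induction n with
  | zero => simp
  | succ n ih =>
    rw [Finset.sum_range_succ, Nat.cast_add]
    refine le_trans (Set.encard_le_encard ?_) ((Set.encard_union_le _ _).trans
      (add_le_add (ih fun i hi => h i (by omega)) (h n (by omega))))
    rintro x ⟨i, hi, hx⟩
    rcases Nat.lt_succ_iff_lt_or_eq.1 hi with hi | rfl
    exacts [Or.inl ⟨i, hi, hx⟩, Or.inr hx]

theorem cntMV_spec (S : ℕ → ℕ → ℤ) (W : ℕ → ℤ) (ok : ℕ → Bool) :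
    {x | (x ∈ leechLattice ∧ sqNorm x = 32) ∧ ok (md (Phi2 S W x)) = true}.encard ≤ cntMV S W ok := by
  have hr : ∀ j ∈ List.range 24, j < 24 := fun _ => List.mem_range.1
  have e : ∀ a k, mkL S a k 24 L5.nil = k (ofL S a (List.range 24)) := fun a k => by
    simpa [ofL] using mkL_eq (S := S) a k 24 []
  have e' := fun a c k => sub5_eq (S := S) a c k (List.range 24) []
  rw [cntMV, e, e, e, force_eq, Nat.add_eq, Nat.cast_add]
  refine le_trans (Set.encard_le_encard ?_) ((Set.encard_union_le _ _).trans (add_le_add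
    (encard_le_sumLt (X := fun i => {x | (∃ j ∈ List.range 24, x = (fun p => if p ∈ fs (enc i) then -1 else 1) +
      Pi.single (pt j) (if (enc i).testBit j then 4 else -4)) ∧ ok (md (Phi2 S W x)) = true} ∪
      {x | (popc (enc i) = 8 ∧ (∀ p ∈ fs (enc i), x p = 2 ∨ x p = -2) ∧ (∀ p ∉ fs (enc i), x p = 0) ∧ 8 ∣ ∑ p, x p) ∧
        ok (md (Phi2 S W x)) = true}) fun i _ => ?_)
    (encard_le_sumLt (X := fun a => {x | ∃ b < a, x ∈ {x : ZV | ((∀ p ∈ ({pt a, pt b} : Finset GolayPt), x p = 4 ∨ x p = -4) ∧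
      ∀ p ∉ ({pt a, pt b} : Finset GolayPt), x p = 0) ∧ ok (md (Phi2 S W x)) = true}}) fun a ha =>
      encard_le_sumLt fun b hb => ?_)))
  · rintro x ⟨⟨hx, hn⟩, h⟩
    rcases mv_shape hx hn with ⟨c, hc, p, k⟩ | ⟨s, k, ⟨rfl, hs, k0⟩ | ⟨rfl, hs⟩, k1, k2⟩
    · obtain ⟨i, hi, rfl⟩ := exists_enc hc
      exact Or.inl ⟨i, hi, Or.inl ⟨⟨ix p, List.mem_range.2 (ix_lt p), by simpa using k⟩, h⟩⟩
    · obtain ⟨i, hi, rfl⟩ := exists_enc hs.1
      exact Or.inl ⟨i, hi, Or.inr ⟨⟨card_fs _ ▸ hs.2, k1, k2, k0⟩, h⟩⟩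
    · obtain ⟨p, q, hpq, rfl⟩ := Finset.card_eq_two.1 hs
      rcases Nat.lt_or_gt_of_ne (ix_injective.ne hpq) with l | l
      · exact Or.inr ⟨ix q, ix_lt q, ix p, l, by simpa only [pt_ix, Finset.pair_comm q p] using And.intro k1 k2, h⟩
      · exact Or.inr ⟨ix p, ix_lt p, ix q, l, by simpa only [pt_ix] using And.intro k1 k2, h⟩
  · rw [force_eq, Nat.add_eq, Nat.cast_add]
    refine (Set.encard_union_le _ _).trans (add_le_add ?_ ?_)
    · obtain ⟨n, Y, q, k1, k2⟩ := lin_spec (enc i) (fin3 (enc i) ok (ofL S 4 (List.range 24))) _ _ _ _ _ hr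
        List.nodup_range (by simp) (st_zero (S := S) (W := W))
      rw [k1]
      simpa only [Pi.zero_apply, zero_add, List.mem_range, ix_lt, if_true, mem_fs] using fin3_spec (c := enc i) k2 _ hr
    · cases k : Nat.beq (popc (enc i)) 8
      · exact (Set.encard_eq_zero.2 (Set.eq_empty_of_forall_notMem fun x hx => beq_false_iff.1 k hx.1.1)).trans_le
          zero_le
      · have k' := (card_fs _).trans (beq_iff.1 k)
        refine le_trans (Set.encard_le_encard fun x hx => And.intro ⟨hx.1.2.1, hx.1.2.2.1, ?_⟩ hx.2)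
          ((go0_spec (a := 2) (kp := 2) (kn := 2199023255550) two_pos rfl rfl (Finset.card_pos.1 (by omega)) false).trans_eq (congrArg _ (e' _ _ _).symm))
        have := hx.1.2.2.2
        rw [k']
        generalize ∑ p, x p = u at this
        simp; omega
  · have f : fs (Nat.lor (Nat.pow 2 a) (Nat.pow 2 b)) = {pt a, pt b} := by
      rw [fs_lor, fs_two_pow ha, fs_two_pow (by omega)]; rfl
    have ne : pt a ≠ pt b := fun k => by have := pt_inj ha (by omega) k; omega
    have g := fun c => go0_spec (S := S) (W := W) (ok := ok) (a := 4) (kp := 4) (kn := 4398046511100) four_pos rfl rfl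
      (f ▸ Finset.insert_nonempty _ _) c
    rw [show L5.nil = ofL S 4 [] from rfl, e', Nat.add_eq, Nat.cast_add]
    refine le_trans (Set.encard_le_encard fun x hx => ?_) ((Set.encard_union_le _ _).trans (add_le_add (g false) (g true)))
    have k : ∑ p, x p = x (pt a) + x (pt b) := by
      rw [← Finset.sum_pair ne]
      exact (Finset.sum_subset (Finset.subset_univ _) fun p _ => hx.1.2 p).symm
    have k1 := hx.1.1 (pt a) (by simp)
    have k2 := hx.1.1 (pt b) (by simp)
    simp only [f, Set.mem_union, Set.mem_ofPred_eq, Finset.card_pair ne, k, hx.2, and_true, and_iff_right hx.1.1,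
      and_iff_right hx.1.2]
    simp
    omega

end CA.Co
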