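import Cfsg.Agent.Lib.Co.Odd
import Cfsg.Agent.Lib.Golay.Classes

/-!
Subgroups of odd prime order of `C(z) ∩ C(s)` in groups of Monster type: normal forms.
-/

set_option autoImplicit false

namespace CA.Co
open Cfsg CA.Gol CA CA.Ex2 CA.Core Subgroup
open scoped Pointwise commutatorElement

variable {G : Type*} [Group G]

theorem cent_pair (z s : G) : centralizer ({z, s} : Set G) = 𝐂[z] ⊓ 𝐂[s] := by
  ext x; simp [mem_centralizer_iff]

theorem E1_pg : IsPGroup 2 E1 := isPGroup_of_forall fun x hx => ⟨1, by rw [pow_one, sq, E1_sq hx]⟩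

/-- the map onto `M24` -/
noncomputable abbrev lam {z : G} (π : ↥𝐂[z] →* Spor.Co1) : pcomap π N1 →* M24 := pcomp rho π

namespace MT
variable {Q : Subgroup G} {z s b : G} {π : ↥𝐂[z] →* Spor.Co1} {r : G → LL → Prop} (h : MT Q z π r)
  (hs : r s (E8 (pt 0))) [Finite G] {p : ℕ}
include h

omit [Finite G] in
theorem ker_lam : IsPGroup 2 (pker (lam π)) := by
  rw [pker_pcomp]
  exact (IsPGroup.comap_of_ker_isPGroup E1_pg π (by
    rw [← pker_subgroupOf, h.ker]; exact h.ez.pg.comap_subtype)).map _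

include hs

theorem le_dom : 𝐂[z] ⊓ 𝐂[s] ≤ pcomap π N1 := (le_pcomap_iff inf_le_left).2 (h.pmap_cent_frame hs).le

theorem pmap_lam : pmap (lam π) (𝐂[z] ⊓ 𝐂[s]) = ⊤ := by
  rw [pmap_pcomp, h.pmap_cent_frame hs, pmap_dom, MonoidHom.range_eq_top.2 rho_surjective]

theorem fact_pmap {X : Subgroup G} (hX : X ≤ 𝐂[z] ⊓ 𝐂[s]) (hp : p ≠ 2) :
    (Nat.card X).factorization p = (Nat.card (pmap (lam π) X)).factorization p := by
  obtain ⟨k, hk⟩ := (h.ker_lam.to_le (inf_le_left (b := X))).exists_card_eq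
  rw [← card_pmap_mul (lam π) (hX.trans (h.le_dom hs)), hk,
    Nat.factorization_mul (by positivity) (card_ne_zero' _)]
  simp [Nat.prime_two.factorization, Ne.symm hp]

theorem fact_L (hp : p ≠ 2) : (Nat.card ↥(𝐂[z] ⊓ 𝐂[s])).factorization p = (244823040 : ℕ).factorization p := by
  rw [h.fact_pmap hs le_rfl hp, h.pmap_lam hs, card_top, card_M24]

theorem order_lam (hb : b ∈ 𝐂[z] ⊓ 𝐂[s]) (ho : Odd (orderOf b)) : orderOf (pel (lam π) b) = orderOf b := by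
  rw [← Nat.card_zpowers, ← Nat.card_zpowers, ← pmap_zpowers _ (h.le_dom hs hb),
    card_pmap_of_inj (zpowers_le.2 (h.le_dom hs hb)) (inf_eq_bot_of_odd h.ker_lam (by rwa [Nat.card_zpowers]))]

theorem pmap_lam_cent (hb : b ∈ 𝐂[z] ⊓ 𝐂[s]) (ho : Odd (orderOf b)) :
    pmap (lam π) ((𝐂[z] ⊓ 𝐂[s]) ⊓ 𝐂[b]) = 𝐂[pel (lam π) b] := by
  have hd := h.le_dom hs hb
  have := CopAct.pmap_inf_cent_ker (f := lam π) (A := zpowers b) (H := 𝐂[z] ⊓ 𝐂[s])
    (copAct_zpowers ((pker_normalIn _).2 hd) (by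
      rw [← Nat.card_zpowers]; exact coprime_of_odd h.ker_lam (by rwa [Nat.card_zpowers])))
    (zpowers_le.2 hd) (norms_self_of_le (zpowers_le.2 hb))
  rwa [cent_zpowers, pmap_zpowers _ hd, cent_zpowers, h.pmap_lam hs, top_inf_eq] at this

theorem exists_os (hb : b ∈ 𝐂[z] ⊓ 𝐂[s]) (ho : Odd (orderOf b)) (k : M24) :
    ∃ (π' : ↥𝐂[z] →* Spor.Co1) (r' : G → LL → Prop),
      OS Q z π' r' (pmC (k * pel (lam π) b * k⁻¹)) b ∧ r' s (E8 (pt 0)) := by
  haveI : Finite Spor.Co1 := inferInstance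
  have hd := h.le_dom hs hb
  set σ := pel (lam π) b with hσ
  have hx : pel π b ∈ N1 := (mem_pcomap.1 hd).2
  have e1 : pel rho (pel π b) = σ := (pel_pcomp rho π hd).symm
  have hoσ : orderOf σ = orderOf b := h.order_lam hs hb ho
  have hc : CopAct E1 (zpowers (pm1 σ)) := copAct_zpowers (E1_normalIn.2 (pm1_mem σ)) (by
    rw [← Nat.card_zpowers]
    exact coprime_of_odd E1_pg (by rwa [Nat.card_zpowers, orderOf_injective pm1 pm1_injective, hoσ]))
  obtain ⟨e, he, e2⟩ := hc.cj_le (B := zpowers (pel π b)) (zpowers_le.2 (by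
    have : pel π b * (pm1 σ)⁻¹ ∈ E1 := mem_pker.2 ⟨mul_mem hx (inv_mem (pm1_mem σ)), by
      rw [pel_mul _ hx (inv_mem (pm1_mem σ)), pel_inv _ (pm1_mem σ), e1, pel_rho_pm1, mul_inv_cancel]⟩
    simpa using mul_mem (mem_sup_left this) (mem_sup_right (mem_zpowers (pm1 σ)))))
    (coprime_of_odd E1_pg (by
      rw [Nat.card_zpowers]; exact ho.of_dvd_nat (orderOf_pel_dvd π hb.1)))
  obtain ⟨j, hj⟩ := e2 (conj_mem_cj.2 (mem_zpowers _))
  have e3 : e * pel π b * e⁻¹ = pm1 σ := by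
    have := congrArg (pel rho) hj
    simp only at this hj
    rw [← map_zpow] at this hj
    rw [pel_rho_pm1, pel_conj rho (E1_le he) hx, (mem_pker.1 he).2, e1] at this
    rw [← hj, this]; simp
  obtain ⟨c, hc', rfl⟩ := mem_E1.1 he
  have hN : pmC k * sgC c ∈ N0 := mul_mem ⟨∅, empty_mem_CW, k, by simp [sgC_empty]⟩ ⟨c, hc', 1, by simp⟩
  refine ⟨_, _, ⟨h.twist (pmC k * sgC c), ho, hb.1, ?_, ?_⟩,
    h.r_cg hs ((mem_N0_iff (pt 0) (pt 0)).1 (inv_mem hN))⟩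
  · rw [pel_of_mem _ hb.1, MonoidHom.comp_apply, ← pel_of_mem π hb.1]
    show (pmC k * sgC c : Co0) * pel π b * ((pmC k * sgC c : Co0) : Spor.Co1)⁻¹ = pm1 (k * σ * k⁻¹)
    rw [map_mul, map_mul, map_inv, ← e3, QuotientGroup.mk_mul]
    show pm1 k * _ * _ * (pm1 k * _)⁻¹ = _
    group
  · rw [orderOf_injective pmC pmC_injective, ← hoσ]
    exact (MulAut.conj k).orderOf_eq σ

/-- Sylow subgroups of prime order -/
theorem exists_os_sylow (hp : p.Prime) (ho : Odd p) (h1 : (244823040 : ℕ).factorization p = 1) {B : Subgroup G}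
    (hB : B ≤ centralizer {z, s}) (hBp : Nat.card B = p ^ (Nat.card ↥(centralizer ({z, s} : Set G))).factorization p)
    {σ : M24} (hσ : orderOf σ = p) : ∃ (b : G) (π' : ↥𝐂[z] →* Spor.Co1) (r' : G → LL → Prop),
      B = zpowers b ∧ OS Q z π' r' (pmC σ) b ∧ r' s (E8 (pt 0)) := by
  haveI := Fact.mk hp
  have h2 : p ≠ 2 := fun e => by rw [e] at ho; exact absurd ho (by decide)
  rw [cent_pair] at hB hBp
  rw [h.fact_L hs h2, h1, pow_one] at hBp
  have hd := hB.trans (h.le_dom hs)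
  have hc : Nat.card (pmap (lam π) B) = p := by
    rw [card_pmap_of_inj hd (inf_eq_bot_of_odd h.ker_lam (hBp ▸ ho)), hBp]
  obtain ⟨k, hk⟩ := exists_cj_le_sylow (Sylow.ofCard (p := p) (zpowers σ) (by
    rw [Nat.card_zpowers, hσ, card_M24, h1, pow_one])) (B := pmap (lam π) B) (IsPGroup.of_card (n := 1) (by simpa))
  have e : cj k (pmap (lam π) B) = zpowers σ :=
    eq_of_le_of_card_le hk (by rw [card_cj, hc, Nat.card_zpowers, hσ])
  obtain ⟨y, hy, e1⟩ := mem_cj'.1 (e.ge (mem_zpowers σ))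
  obtain ⟨b, hb, rfl⟩ := (mem_pmap_of_le hd).1 hy
  have hb1 : b ≠ 1 := fun e2 => by
    rw [e2] at e1
    simp only [pel_one, mul_one, mul_inv_cancel] at e1
    rw [e1, orderOf_one] at hσ
    exact hp.one_lt.ne hσ
  have e2 := eq_zpowers_of_prime_card (hBp ▸ hp) hb hb1
  obtain ⟨π', r', a1, a2⟩ := h.exists_os hs (hB hb) (by rw [← Nat.card_zpowers, ← e2, hBp]; exact ho) k
  exact ⟨b, π', r', e2, e1 ▸ a1, a2⟩

/-- subgroups of order three -/
theorem exists_os_three {Y : Subgroup G} (hY : Y ≤ centralizer {z, s}) (h3 : Nat.card Y = 3) {σ τ : M24}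
    (hc : ∀ g : M24, orderOf g = 3 → ∃ k, k * g * k⁻¹ = σ ∨ k * g * k⁻¹ = τ)
    (hτ : ∀ b, Y = zpowers b → (Nat.card ↥((𝐂[z] ⊓ 𝐂[s]) ⊓ 𝐂[b])).factorization 3 ≠ (Nat.card ↥𝐂[τ]).factorization 3) :
    ∃ (b : G) (π' : ↥𝐂[z] →* Spor.Co1) (r' : G → LL → Prop),
      Y = zpowers b ∧ OS Q z π' r' (pmC σ) b ∧ r' s (E8 (pt 0)) := by
  rw [cent_pair] at hY
  obtain ⟨b, hb, ho⟩ := exists_orderOf_eq_prime (A := Y) Nat.prime_three (by rw [h3])
  have e := eq_zpowers_of_prime_card (h3 ▸ Nat.prime_three) hb (by rintro rfl; simp at ho)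
  have ho' : Odd (orderOf b) := by rw [ho]; decide
  obtain ⟨k, hk | hk⟩ := hc _ ((h.order_lam hs (hY hb) ho').trans ho)
  · obtain ⟨π', r', a1, a2⟩ := h.exists_os hs (hY hb) ho' k
    exact ⟨b, π', r', e, hk ▸ a1, a2⟩
  · refine absurd ?_ (hτ b e)
    rw [h.fact_pmap hs inf_le_left (by norm_num), h.pmap_lam_cent hs (hY hb) ho', ← hk, ← cj_centralizer_singleton, card_cj]

end MT

/-- centrality in a Sylow subgroup in terms of the order of the centraliser -/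
theorem central_iff [Finite G] {p : ℕ} (hp : p.Prime) {L : Subgroup G} {b : G} (hb : b ∈ L)
    (hY : IsPGroup p (zpowers b)) :
    (∃ P : Sylow p L, (zpowers b).subgroupOf L ≤ (center ↥(P : Subgroup L)).map (P : Subgroup L).subtype) ↔
      (Nat.card ↥(L ⊓ 𝐂[b])).factorization p = (Nat.card L).factorization p := by
  haveI := Fact.mk hp
  have hc : Nat.card ↥(L ⊓ 𝐂[b]) = Nat.card ↥𝐂[(⟨b, hb⟩ : L)] := by
    rw [inf_comm, ← card_subgroupOf]
    congr 2
    ext x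
    rw [mem_subgroupOf, mem_cent1_iff, mem_cent1_iff, Subtype.ext_iff]; rfl
  have hz : (zpowers b).subgroupOf L = zpowers ⟨b, hb⟩ := by
    rw [← (map_injective (subtype_injective L)).eq_iff, PG.map_subtype_subgroupOf (zpowers_le.2 hb), MonoidHom.map_zpowers]; rfl
  rw [hc, hz]
  simp only [center_eq_map, zpowers_le]
  have hle := (Nat.factorization_le_iff_dvd (card_ne_zero' _) Nat.card_pos.ne').2
    (card_subgroup_dvd_card 𝐂[(⟨b, hb⟩ : L)]) p
  constructor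
  · rintro ⟨P, hP⟩
    refine le_antisymm hle ((hp.pow_dvd_iff_le_factorization (card_ne_zero' _)).1 ?_)
    rw [← P.card_eq_multiplicity]
    exact card_dvd_of_le' (mem_cent_iff_le_cent1.1 hP.2)
  · intro e
    have hY' : IsPGroup p (zpowers (⟨b, hb⟩ : L)) := hz ▸ hY.comap_subtype
    obtain ⟨P, hP⟩ := (hY'.comap_subtype (K := 𝐂[(⟨b, hb⟩ : L)])).exists_le_sylow
    refine ⟨Sylow.ofCard ((P : Subgroup _).map (𝐂[(⟨b, hb⟩ : L)]).subtype) (by
      rw [card_map_subtype, P.card_eq_multiplicity, e]), ⟨⟨_, self_mem_cent1 _⟩, hP (mem_zpowers _), rfl⟩,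
      mem_cent_iff_le_cent1.2 (map_subtype_le _)⟩

end CA.Co
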