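import Cfsg.Agent.Lib.Co.Fix
import Cfsg.Agent.Lib.Co.Odd2

/-!
Identification of centralisers in `Co0` through an action on objects.
-/

set_option autoImplicit false

namespace CA.Co
open Cfsg CA.Gol CA Subgroup
open scoped Pointwise Matrix

theorem word_mem {P : Type*} [Group P] {R : Subgroup P} {l : List P} (hl : ∀ x ∈ l, x ∈ R) (w : List ℕ) :
    (w.map fun k => l.getD k 1).prod ∈ R := by
  refine list_prod_mem fun x hx => ?_
  obtain ⟨k, -, rfl⟩ := List.mem_map.1 hx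
  rcases lt_or_ge k l.length with h | h
  · rw [List.getD_eq_getElem _ _ h]; exact hl _ (List.getElem_mem h)
  · rw [List.getD_eq_default _ _ h]; exact one_mem _

theorem pmC_mem_N0 (σ : M24) : pmC σ ∈ N0 := ⟨∅, empty_mem_CW, σ, by simp [sgC_empty]⟩

theorem order_m24 {c p : ℕ} (h : inM24 c = true) (hp : p.Prime) (ho : ordIs c p = true) : orderOf (m24 h) = p :=
  (orderOf_coe _).symm.trans (order_perm h hp ho)

theorem obj_case {σ : M24} {c p n : ℕ} (hc : code σ = c) (hp : p.Prime) (hp2 : Odd p) (ho : orderOf σ = p)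
    {u d : Fin n → LL} (hF : FX (pmC σ) u d) {f : ℕ → Bool}
    (hX : ∀ k ∈ 𝐂[pmC σ], kap d (k • E8 (pt 0)) ∈ bset n f) {a b₁ b₂ : ℕ} (ha : countLt f (2 ^ n) = a)
    (h1 : countLt (fun i => force (enc i) fun m => Nat.beq (apM c m) m) 4096 = b₁) (h2 : Nat.card ↥𝐂[σ] = b₂)
    (hodd : Odd a) {J : Type*} {ob : J → Set (V2 n)} (hi : Function.Injective ob)
    (hsub : ∀ j, ∀ x ∈ ob j, x = 0 ∨ x ∈ bset n f) {T : Subgroup (Equiv.Perm J)}
    (hT : ∀ R : Subgroup (Equiv.Perm J), (∀ g ∈ 𝐂[pmC σ], ∀ τ : Equiv.Perm J,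
      (∀ j x, FX.am u d g *ᵥ x ∈ ob (τ j) ↔ x ∈ ob j) → τ ∈ R) → T ≤ R)
    (hcard : a * (b₁ * b₂) ≤ 2 * p * Nat.card T) :
    CD (pmC σ) p n ∧ (∃ θ : ↥𝐂[pmC σ] →* T, Function.Surjective θ ∧ (∀ g, θ g = 1 ↔ g.1 ∈ KK (pmC σ)) ∧
      ∀ g j x, FX.am u d g *ᵥ x ∈ ob ((θ g).1 j) ↔ x ∈ ob j) ∧
      ∀ y ∈ bset n f, ∃ k ∈ 𝐂[pmC σ], kap d (k • E8 (pt 0)) = y := by
  have hβ : orderOf (pmC σ) = p := (orderOf_injective pmC pmC_injective σ).trans ho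
  obtain ⟨k1, k2⟩ := hF.count (pmC_mem_N0 σ) hX ha (b := b₁ * b₂) (h1 ▸ h2 ▸ card_stab_le σ hc)
  have hK : Nat.card ((KK (pmC σ)).subgroupOf 𝐂[pmC σ]) = 2 * p := by
    rw [card_subgroupOf_of_le (KK_le _), card_KK (hβ ▸ hp2), hβ]
  obtain ⟨k3, θ, k4, k5, k6, k7⟩ := ident_obj hF.rho hi hF.rho_KK (T := T)
    (fun R hR => hT R fun g hg τ h => hR ⟨g, hg⟩ τ h) (by rw [hK]; omega)
  obtain ⟨k8, k9⟩ := k2 (by rw [k3, hK]; omega)
  refine ⟨hF.cd hp hp2 hβ (pmC_mem_N0 σ) (k8 ▸ hodd) k9 fun g hg => k7 g fun j x hx => ?_, ⟨θ, k4, k5, k6⟩, k9⟩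
  rcases hsub j x hx with rfl | h
  · rw [hF.rho_apply, Matrix.mulVec_zero]
  · exact hg x h

/-- objects given by a table of masks -/
theorem obj_tab {n OT : ℕ} {J : Type*} {e : J → ℕ} {f : ℕ → Bool}
    (h1 : Function.Injective fun j => fld (2 ^ n) OT (e j))
    (h2 : ∀ j, allLt (fun m => !(tb (fld (2 ^ n) OT (e j)) m) || f m) (Nat.pow 2 n) = true) :
    Function.Injective (fun j => bset n (tb (fld (2 ^ n) OT (e j)))) ∧
      ∀ j, ∀ x ∈ bset n (tb (fld (2 ^ n) OT (e j))), x = 0 ∨ x ∈ bset n f :=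
  ⟨fun _ _ k => h1 (bset_inj (fld_lt _ _ _) (fld_lt _ _ _) k), fun j _ hx => Or.inr (bset_subset (h2 j) hx)⟩

/-- an orbit tree for two generators acting by tables -/
def ckB (n T0 T1 E J K N T : ℕ) : Bool :=
  allLt (fun t => Nat.beq t 0 || (Nat.blt (fld 16 J t) t && Nat.blt (fld 1 K t) 2 &&
    Nat.beq (xorSel (Bool.rec T1 T0 (Nat.beq (fld 1 K t) 0)) (fld 16 E (fld 16 J t)) n) (fld 16 E t))) N &&
  Nat.beq (orl (fun t => Nat.pow 2 (fld 16 E t)) N) T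

theorem bfs_tab {P : ℕ → Prop} {n T0 T1 E J K N T : ℕ} (a0 : ∀ m, P m → P (xorSel T0 m n))
    (a1 : ∀ m, P m → P (xorSel T1 m n)) (h0 : P (fld 16 E 0)) (h : ckB n T0 T1 E J K N T = true) (m : ℕ)
    (hm : tb T m = true) : P m := by
  rw [ckB, Bool.and_eq_true] at h
  obtain ⟨t, ht, rfl⟩ := tb_orl (beq_iff.1 h.2) hm
  refine bfs_sound (act := fun k m => xorSel (Bool.rec T1 T0 (Nat.beq k 0)) m n) (K := 2) (fun k hk => ?_) h0 h.1 t ht
  interval_cases k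
  exacts [a0, a1]

theorem p2_root {σ : M24} {c p n UT DT MT U m : ℕ} (hc : code σ = c) (hF : ckF c p n UT DT MT = true)
    (h : (isLP U && ckI c U && decide (dz U U = 32) && ckK n DT U m) = true) : P2 (pmC σ) (tv n DT) m := by
  subst hc
  simp only [ckF, Bool.and_eq_true, decide_eq_true_eq] at h hF
  have e := coe_lv h.1.1.1
  exact ⟨lv U, Cg.of_eq (congrArg Subtype.val (ckI_spec h.1.1.2 e)), by rw [e, norm_vec, h.1.2],
    ckK_spec hF.1.1.2 h.2 e⟩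

theorem norm_co_E8 (k : Co0) : sqNorm ((k • E8 (pt 0) : LL) : ZV) = 64 := by rw [co_norm, coe_E8, norm_e8]

theorem fix_co_E8 {σ : M24} {k : Co0} (hk : k ∈ 𝐂[pmC σ]) : Cg (pmC σ • k • E8 (pt 0) : LL) (k • E8 (pt 0) : LL) :=
  cent_fix hk ((mem_N0_iff (pt 0) (pt 0)).1 (pmC_mem_N0 σ))

theorem conj_m24 {k c d : ℕ} (hk : inM24 k = true) (hc : inM24 c = true) (hd : inM24 d = true)
    (h : Nat.beq (mul k c) (mul d k) = true) : m24 hk * m24 hc * (m24 hk)⁻¹ = m24 hd := by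
  rw [mul_inv_eq_iff_eq_mul]
  refine Subtype.ext (code_inj ?_)
  rw [coe_mul, coe_mul, code_mul, code_mul, code_m24, code_m24, code_m24]
  exact beq_iff.1 h

variable {G : Type*} [Group G] [Finite G]

/-- the section `C(b)/⟨b⟩` -/
theorem OS.section {Q : Subgroup G} {z : G} {π : ↥𝐂[z] →* Spor.Co1} {r : G → LL → Prop} {β : Co0} {b s : G}
    (h : OS Q z π r β b) (hs : r s (E8 (pt 0))) {p w : ℕ} (hc : CD β p (2 * w)) {L : Type*} [Group L]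
    (θ : ↥𝐂[β] →* L) (hθ : Function.Surjective θ) (hθ' : ∀ g, θ g = 1 ↔ g.1 ∈ KK β)
    [hn : ((zpowers b).subgroupOf 𝐂(zpowers b)).Normal] :
    ∃ (y : ↥𝐂(zpowers b) ⧸ (zpowers b).subgroupOf 𝐂(zpowers b)) (R : Subgroup ↥𝐂[y]) (_ : R.Normal),
      IsExtraspecialCentralizerSetting y R w ∧ Nonempty (↥𝐂[y] ⧸ R ≃* L) ∧
      Set.ncard {x : ↥𝐂[y] | x ∈ R ∧ IsConj y x} = Set.ncard {q | q ∈ Q ⊓ 𝐂[b] ∧ IsConj z q} := by
  set f := QuotientGroup.mk' ((zpowers b).subgroupOf 𝐂(zpowers b))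
  have hD := cent_zpowers b
  have hk : pker f = zpowers b := Ex2.pker_mk' (abelian_iff.1 (abelian_zpowers b))
  have hf : Function.Surjective f := QuotientGroup.mk'_surjective _
  have hl := h.lq hD hf hk hc hs
  haveI := hl.normalIn.normal_subgroupOf
  refine ⟨pel f z, _, inferInstance, h.setting hD hf hk hc hs, h.exists_equiv hD hf hk θ hθ hθ', ?_⟩
  have hR : Q ⊓ 𝐂[b] ≤ 𝐂(zpowers b) := hD ▸ inf_le_right
  rw [← Set.ncard_image_of_injective _ Subtype.val_injective, ← Set.InjOn.ncard_image (f := pel f)]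
  · congr 1
    ext y
    constructor
    · rintro ⟨x, ⟨h1, h2⟩, rfl⟩
      obtain ⟨q, hq, e⟩ := (mem_pmap_of_le hR).1 h1
      exact ⟨q, ⟨hq, (h.isConj_iff' hD hf hk hq).1 (e ▸ h2)⟩, e⟩
    · rintro ⟨q, ⟨h1, h2⟩, rfl⟩
      exact ⟨⟨_, hl.normalIn.1 (pel_mem_pmap f h1)⟩, ⟨pel_mem_pmap f h1, (h.isConj_iff' hD hf hk h1).2 h2⟩, rfl⟩
  · intro q hq q' hq' e
    rw [Ex2.pel_eq_iff f (hR hq.1) (hR hq'.1), hk] at e
    exact mul_inv_eq_one.1 (mem_bot.1 (h.inf_B ▸ mem_inf.2 ⟨mul_mem hq.1.1 (inv_mem hq'.1.1), e⟩))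

end CA.Co
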