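import Cfsg.Agent.Lib.Co.CT4
import Cfsg.Agent.Lib.CoT.ESx
import Cfsg.Agent.Lib.Classical.SmallIso

/-!
Nondegenerate subspaces of the eight-dimensional orthogonal space; the forms of minus type in dimensions four and six.
-/

set_option autoImplicit false

namespace CA.Co
open Cfsg CA.Gol CA CA.Ex2 CA.Core CA.Orth Subgroup QuadraticMap

theorem refl_not_mem {W : Type*} [AddCommGroup W] [Module (ZMod 2) W] [FiniteDimensional (ZMod 2) W]
    {QW : QuadraticForm (ZMod 2) W} (h : ND QW) {v : W} (hv : QW v ≠ 0) : refl QW v ∉ E QW := fun k => by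
  have := E_le_ker_theta h k
  rw [MonoidHom.mem_ker, theta_refl h hv] at this
  exact absurd (show (Multiplicative.ofAdd 1 : Multiplicative (ZMod 2)) = 1 from congrArg Prod.fst this) (by decide)

section emb
variable {W : Type*} [AddCommGroup W] [Module (ZMod 2) W] {QW : QuadraticForm (ZMod 2) W} {j : W →ₗ[ZMod 2] V8}

/-- an isometric embedding of a nondegenerate space -/
structure Emb (QW : QuadraticForm (ZMod 2) W) (j : W →ₗ[ZMod 2] V8) : Prop where
  nd : ND QW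
  iso : ∀ x, Q8 (j x) = QW x
  idx : (E QW).index = 2

/-- the isometries fixing the orthogonal complement pointwise -/
def AJ (j : W →ₗ[ZMod 2] V8) : Subgroup (O Q8) where
  carrier := {g | ∀ v, (∀ x, polar Q8 (j x) v = 0) → g.1 v = v}
  one_mem' _ _ := rfl
  mul_mem' ha hb v hv := by rw [O.mul_apply, hb v hv, ha v hv]
  inv_mem' {a} ha v hv := by rw [← ha v hv, O.inv_apply_apply, ha v hv]

/-- the stabiliser of the subspace -/
def SJ (j : W →ₗ[ZMod 2] V8) : Subgroup (O Q8) where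
  carrier := {g | ∀ v, g.1 v ∈ LinearMap.range j ↔ v ∈ LinearMap.range j}
  one_mem' _ := Iff.rfl
  mul_mem' ha hb v := by rw [O.mul_apply, ha, hb]
  inv_mem' {a} ha v := by rw [← ha, O.apply_inv_apply]

theorem exists_res (hi : Function.Injective j) (iso : ∀ x, Q8 (j x) = QW x) :
    ∃ ρ : SJ j →* O QW, ∀ g x, j ((ρ g).1 x) = g.1.1 (j x) := by
  obtain ⟨π, hπ⟩ := j.exists_leftInverse_of_injective (LinearMap.ker_eq_bot.2 hi)
  have h1 : ∀ (g : SJ j) x, j (π (g.1.1 (j x))) = g.1.1 (j x) := fun g x => by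
    obtain ⟨y, e⟩ := (g.2 (j x)).2 ⟨x, rfl⟩
    rw [← e, show π (j y) = y from LinearMap.congr_fun hπ y]
  let L : SJ j → W →ₗ[ZMod 2] W := fun g => π ∘ₗ g.1.1.toLinearMap ∘ₗ j
  have h2 : ∀ g x, j (L g x) = g.1.1 (j x) := h1
  refine ⟨MonoidHom.mk' (fun g => O.mk' (L g) (L g⁻¹) (fun x => hi ?_) (fun x => hi ?_) fun x => ?_)
    fun a b => O.ext fun x => hi ?_, h2⟩
  · rw [h2, h2]; exact O.apply_inv_apply _ _
  · rw [h2, h2]; exact O.inv_apply_apply _ _
  · rw [← iso, h2, O.map_Q, iso]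
  · simp only [O.mul_apply, O.mk'_apply, h2]; rfl

namespace Emb
variable (h : Emb QW j) {g k : O Q8} {v : V8}
include h

theorem pol (x y : W) : polar Q8 (j x) (j y) = polar QW x y := by
  rw [polar, polar, ← map_add, h.iso, h.iso, h.iso]

theorem inj : Function.Injective j := (injective_iff_map_eq_zero j).2 fun x hx => h.nd x fun y => by
  rw [← h.pol, hx, polar_zero_left]

theorem fd : FiniteDimensional (ZMod 2) W := FiniteDimensional.of_injective j h.inj

theorem dec (v : V8) : ∃ x u, (∀ y, polar Q8 (j y) u = 0) ∧ v = j x + u := by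
  haveI := h.fd
  obtain ⟨x, e⟩ := h.nd.exists_polarBilin_eq ((Q8.polarBilin v).comp j)
  refine ⟨x, v - j x, fun y => ?_, by simp⟩
  have : polar QW x y = polar Q8 v (j y) := LinearMap.congr_fun e y
  rw [polar_sub_right, h.pol, B_comm y, this, B_comm, sub_self]

theorem mem_range (hv : ∀ u, (∀ y, polar Q8 (j y) u = 0) → polar Q8 v u = 0) : v ∈ LinearMap.range j := by
  obtain ⟨x, u, hu, rfl⟩ := h.dec v
  obtain rfl : u = 0 := nd8 u fun w => by
    obtain ⟨y, u', hu', rfl⟩ := h.dec w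
    have := hv u' hu'
    rw [polar_add_left, hu', zero_add] at this
    rw [polar_add_right, this, B_comm, hu, add_zero]
  exact ⟨x, by simp⟩

theorem AJ_le : AJ j ≤ SJ j := by
  have k : ∀ g ∈ AJ j, ∀ v ∈ LinearMap.range j, g.1 v ∈ LinearMap.range j := by
    rintro g hg _ ⟨x, rfl⟩
    exact h.mem_range fun u hu => by rw [← hg u hu, O.map_B, hu]
  exact fun g hg v => ⟨fun e => by simpa using k _ (inv_mem hg) _ e, k g hg v⟩

/-- restriction to the subspace -/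
noncomputable def res : SJ j →* O QW := (exists_res h.inj h.iso).choose

theorem res_spec (g : SJ j) (x : W) : j ((h.res g).1 x) = g.1.1 (j x) := (exists_res h.inj h.iso).choose_spec g x

theorem eq_of (hg : g ∈ AJ j) (hk : k ∈ AJ j) (e : ∀ x, g.1 (j x) = k.1 (j x)) : g = k := O.ext fun v => by
  obtain ⟨x, u, hu, rfl⟩ := h.dec v
  rw [map_add, map_add, e, hg u hu, hk u hu]

theorem exists_lift (o : O QW) : ∃ g ∈ AJ j, (∀ x, g.1 (j x) = j (o.1 x)) ∧ (g ∈ E Q8 ↔ o ∈ E QW) := by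
  haveI := h.fd
  let H : Subgroup (O QW) :=
    { carrier := {o | ∃ g ∈ AJ j, (∀ x, g.1 (j x) = j (o.1 x)) ∧ (g ∈ E Q8 ↔ o ∈ E QW)}
      one_mem' := ⟨1, one_mem _, fun _ => rfl, by simp⟩
      mul_mem' := by
        rintro a b ⟨g, h1, h2, h3⟩ ⟨k, h4, h5, h6⟩
        exact ⟨g * k, mul_mem h1 h4, fun x => by rw [O.mul_apply, h5, h2, O.mul_apply], by
          rw [mul_mem_iff_of_index_two index_E8, mul_mem_iff_of_index_two h.idx, h3, h6]⟩
      inv_mem' := by
        rintro a ⟨g, h1, h2, h3⟩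
        exact ⟨g⁻¹, inv_mem h1, fun x => by rw [← O.apply_inv_apply a x, ← h2, O.inv_apply_apply, O.inv_apply_apply], by
          rw [inv_mem_iff, inv_mem_iff, h3]⟩ }
  refine (eq_top_of_refl_of_eich h.nd.ns H (fun v hv => ⟨refl Q8 (j v), fun u hu => refl_apply_of_orth ?_, fun x => ?_, ?_⟩)
    fun u w hu hw => ⟨eich Q8 (j u) (j w), fun v hv => eich_apply_of_orth (h.iso u ▸ hu) (h.pol u w ▸ hw) ?_ ?_,
      fun x => ?_, ?_⟩).ge (mem_top o)
  · rw [B_comm, hu]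
  · rw [refl_apply, refl_apply, h.pol, h.iso, map_sub, map_smul]
  · exact iff_of_false (refl_not_mem nd8 (h.iso v ▸ hv)) (refl_not_mem h.nd hv)
  · rw [B_comm, hv]
  · rw [B_comm, hv]
  · rw [eich_apply hu hw, eich_apply (h.iso u ▸ hu) (h.pol u w ▸ hw)]
    simp only [h.pol, h.iso, map_sub, map_add, map_smul]
  · exact iff_of_true (eich_mem_E _ _) (eich_mem_E _ _)

theorem lift_res (g : SJ j) : ∃ k ∈ AJ j, (∀ x, k.1 (j x) = g.1.1 (j x)) ∧ (k ∈ E Q8 ↔ h.res g ∈ E QW) := by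
  simpa only [h.res_spec] using h.exists_lift (h.res g)

theorem nonempty_AE : Nonempty (↥(AJ j ⊓ E Q8) ≃* E QW) := by
  let φ := h.res.comp (inclusion (inf_le_left.trans h.AJ_le : AJ j ⊓ E Q8 ≤ SJ j))
  have h1 : ∀ g x, j ((φ g).1 x) = g.1.1 (j x) := fun g x => h.res_spec _ x
  refine ⟨(MonoidHom.ofInjective (f := φ) fun a b e => Subtype.ext (h.eq_of a.2.1 b.2.1 fun x => by
    rw [← h1, ← h1, e])).trans (MulEquiv.subgroupCongr (le_antisymm ?_ fun o ho => ?_))⟩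
  · rintro _ ⟨g, rfl⟩
    obtain ⟨k, h2, h3, h4⟩ := h.lift_res ⟨g, h.AJ_le g.2.1⟩
    exact h4.1 (h.eq_of h2 g.2.1 h3 ▸ g.2.2)
  · obtain ⟨g, h2, h3, h4⟩ := h.exists_lift o
    exact ⟨⟨g, h2, h4.2 ho⟩, O.ext fun x => h.inj (by rw [h1, h3])⟩

end Emb

/-- the subspace is the fixed space of `w` and `w` is selfcentralising on the complement -/
structure FW (QW : QuadraticForm (ZMod 2) W) (j : W →ₗ[ZMod 2] V8) (w : O Q8) : Prop extends Emb QW j where
  fix : ∀ v, w.1 v = v ↔ v ∈ LinearMap.range j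
  ker : ∀ g : O Q8, g * w = w * g → (∀ x, g.1 (j x) = j x) → g ∈ zpowers w
  mem : w ∈ E Q8

namespace FW
variable {w : O Q8} (h : FW QW j w) {g : O Q8}
include h

theorem fj (x : W) : w.1 (j x) = j x := (h.fix _).2 ⟨x, rfl⟩

theorem mem_SJ (e : g * w = w * g) : g ∈ SJ j := fun v => by
  rw [← h.fix, ← h.fix, ← O.mul_apply, ← e, O.mul_apply, g.1.injective.eq_iff]

theorem comm (hg : g ∈ AJ j) : g * w = w * g := O.ext fun v => by
  obtain ⟨x, u, hu, rfl⟩ := h.dec v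
  simp only [O.mul_apply, map_add]
  rw [h.fj, (h.fix _).2 ((h.AJ_le hg _).2 ⟨x, rfl⟩), hg u hu, hg (w.1 u) fun y => by rw [← h.fj y, O.map_B, hu]]

theorem split (hg : g ∈ E Q8) (e : g * w = w * g) : h.res ⟨g, h.mem_SJ e⟩ ∈ E QW ∧
    ∃ k ∈ AJ j ⊓ E Q8, k⁻¹ * g ∈ zpowers w := by
  obtain ⟨k, h1, h2, h3⟩ := h.lift_res ⟨g, h.mem_SJ e⟩
  have h4 : k⁻¹ * g ∈ zpowers w := h.ker _ ((show Commute k w from h.comm h1).inv_left.mul_left e) fun x => by
    rw [O.mul_apply, ← h2, O.inv_apply_apply]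
  have h5 : k ∈ E Q8 := inv_mem_iff.1 ((mul_mem_cancel_right hg).1 (zpowers_le.2 h.mem h4))
  exact ⟨h3.1 h5, k, ⟨h1, h5⟩, h4⟩

end FW
end emb

/-- the spaces of minus type -/
abbrev WM (k : ℕ) : Type := (Fin k → ZMod 2) × (Fin k → ZMod 2) × (Fin 2 → ZMod 2)
/-- the forms of minus type -/
abbrev QM (k : ℕ) : QuadraticForm (ZMod 2) (WM k) := Qm k (q2 1 1)

theorem ndM (k : ℕ) : ND (QM k) := CoT.nd_q211.Qm
theorem frM (k : ℕ) : Module.finrank (ZMod 2) (WM k) = 2 * k + 2 := by rw [finrank_Qm]; simp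
theorem card_WM (k : ℕ) : Nat.card (WM k) = 2 ^ (2 * (k + 1)) := by simp; ring
theorem idxM (k : ℕ) : (E (QM (k + 1))).index = 2 := by
  rw [(hyp_Qm 0).index_E (ndM _) (by rw [frM]; omega)]; rfl

theorem card_E1' : Nat.card (E (QM 1)) = 60 := by
  have := (E (QM 1)).index_mul_card
  rw [idxM, CoT.card_OM1] at this
  omega

theorem card_E2' : Nat.card (E (QM 2)) = 25920 := by
  have := (E (QM 2)).index_mul_card
  rw [idxM, CoT.card_OM2] at this
  omega

theorem omM1 : Nonempty (E (QM 1) ≃* Omega (ZMod 2) (quadFormMinus 1 (ZMod 2) 1 1)) := by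
  have e := Cl.commutatorCongr (isoO _ (minusEquiv (ZMod 2) 1) (Qm_minusEquiv 1 1))
  haveI : Finite (O (QM 1)) := Nat.finite_of_card_ne_zero (by rw [CoT.card_OM1]; norm_num)
  exact ⟨(e.trans (MulEquiv.subgroupCongr (eq_of_le_of_card_ge ((hyp_Qm 0).commutator_le_E (ndM 1).ns
    ((hyp_Qm 0).exists_nonsing_of_finrank (ndM 1).ns (by rw [frM]; omega)))
    (by rw [card_E1', ← Nat.card_congr e.toEquiv]; exact CoT.card_omega_M1.ge)))).symm⟩

theorem omM2 : Nonempty (E (QM 2) ≃* Omega (ZMod 2) (quadFormMinus 2 (ZMod 2) 1 1)) :=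
  ⟨((Cl.commutatorCongr (isoO _ (minusEquiv _ 2) (Qm_minusEquiv 1 1))).trans (MulEquiv.subgroupCongr
    ((hyp2_Qm (i := 0) (j := 1) (by decide)).commutator_eq_E (ndM 2) (by rw [frM]; norm_num)))).symm⟩

theorem simple_E2 : IsSimpleGroup (E (QM 2)) := by
  have h : center (E (QM 2)) = ⊥ :=
    card_eq_one.1 (card_center_E_of_not_mem (ndM 2).ns (by rw [frM]; norm_num) (hyp_Qm 0) (Or.inl rfl))
  haveI : Finite (E (QM 2)) := Nat.finite_of_card_ne_zero (by rw [card_E2']; norm_num)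
  haveI : Nontrivial (E (QM 2)) := Finite.one_lt_card_iff_nontrivial.1 (by rw [card_E2']; norm_num)
  refine ⟨fun N hN => ?_⟩
  have := (hyp2_Qm (i := 0) (j := 1) (by decide)).normal_E (ndM 2) (by rw [frM]; norm_num) N hN
  rwa [h, le_bot_iff] at this

theorem span_sing {k : ℕ} {S : AddSubgroup (WM (k + 1))} (h : ∀ x, QM (k + 1) x = 0 → x ∈ S) (x : WM (k + 1)) : x ∈ S := by
  obtain ⟨e, f, H⟩ : ∃ e f, Hyp (QM (k + 1)) e f := ⟨_, _, hyp_Qm 0⟩
  have h1 : ∀ c : ZMod 2, c • e ∈ S ∧ c • f ∈ S := fun c => ⟨h _ (by rw [Q_smul, H.he, mul_zero]),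
    h _ (by rw [Q_smul, H.hf, mul_zero])⟩
  rw [eq_add_pr (Q := QM (k + 1)) e f x]
  refine add_mem (add_mem (h1 _).1 (h1 _).2) ((S.add_mem_cancel_left (add_mem (h e H.he)
    (h1 (QM _ (pr (QM (k + 1)) e f x))).2)).1 (h _ ?_))
  rw [Q_add, H.Q_plane', polar_add_left, B_smul_left, H.B_e_pr, H.B_f_pr]
  simp [z2_two]

theorem alt_E1 : Nonempty (E (QM 1) ≃* alternatingGroup (Fin 5)) := by
  let X := {x : WM 1 // QM 1 x = 0 ∧ x ≠ 0}
  let f : E (QM 1) →* Equiv.Perm X := MonoidHom.mk' (fun g => g.1.1.toEquiv.subtypeEquiv fun x => by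
    show _ ↔ QM 1 (g.1.1 x) = 0 ∧ g.1.1 x ≠ 0
    rw [O.map_Q, g.1.1.map_ne_zero_iff]) fun _ _ => rfl
  refine Small.equiv_alt_of_injective f ((injective_iff_map_eq_one f).2 fun g hg => Subtype.ext (O.ext fun x => ?_))
    ?_ (by rw [card_E1']; rfl)
  · refine span_sing (S := (fixSp g.1).toAddSubgroup) (fun x hx => ?_) x
    by_cases h0 : x = 0
    · exact h0 ▸ zero_mem _
    · exact congrArg Subtype.val (Equiv.congr_fun hg ⟨x, hx, h0⟩)
  · rw [Nat.card_eq_fintype_card]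
    simp only [X, Qm_apply, q2_apply]
    decide +kernel

theorem simple_E1 : IsSimpleGroup (E (QM 1)) := by
  obtain ⟨e⟩ := alt_E1
  haveI := alternatingGroup.isSimpleGroup (α := Fin 5) (by simp)
  exact e.isSimpleGroup

end CA.Co
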