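import Cfsg.Agent.Lib.Co.Sec1
import Cfsg.Agent.Lib.G.Coprime

/-!
Centralisers of elements of odd order in groups of Conway type.
-/

set_option autoImplicit false

namespace CA.Co
open Cfsg CA.Gol CA CA.Ex2 CA.Core CA.Orth Subgroup QuadraticMap
open scoped commutatorElement

variable {G : Type*} [Group G]

theorem simple_of_lq [Finite G] {R : Subgroup G} {y g : G} (h : LQ R y) [(R.subgroupOf 𝐂[y]).Normal]
    (hs : IsSimpleGroup (↥𝐂[y] ⧸ R.subgroupOf 𝐂[y])) (hO : oP 2 𝐂[y] ≤ R) (hR : R ≤ normalClosure {y})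
    (hc : Nat.card R ≠ 8) (h1 : g * y * g⁻¹ ∈ R) (h2 : g * y * g⁻¹ ≠ y) : IsSimpleGroup G := by
  refine h.simple_of_le (h.large_of_conj h1 h2) (le_antisymm h.le_oP hO) ?_
  have hN : (normalClosure ({y} : Set G)).Normal := inferInstance
  generalize normalClosure ({y} : Set G) = N at hN hR
  rcases ((hN.subgroupOf 𝐂[y]).map _ (QuotientGroup.mk'_surjective (R.subgroupOf 𝐂[y]))).eq_bot_or_eq_top with e | e
  · rw [Subgroup.map_eq_bot_iff, QuotientGroup.ker_mk'] at e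
    have T := h.tri h1 h2
    refine absurd (h.ez.abelian_cent1 h1 T.not_mem (abelian_of_le T.elemAb_E.1 fun r hr => ⟨hr.1, mem_cj.2 ?_⟩)) hc
    refine e (x := ⟨g⁻¹ * r * g, mem_cent1_iff.2 ?_⟩) (hN.conj_mem' r (hR hr.1) g)
    calc _ = g⁻¹ * (r * (g * y * g⁻¹)) * g := by group
      _ = _ := by rw [mem_cent1_iff.1 hr.2]; group
  · have := congrArg (comap (QuotientGroup.mk' (R.subgroupOf 𝐂[y]))) e
    rw [comap_map_eq, QuotientGroup.ker_mk', sup_eq_left.2 (subgroupOf_mono _ hR), comap_top] at this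
    exact fun c hc => this.ge (mem_top (⟨c, hc⟩ : ↥𝐂[y]))

theorem pCore_of_simple {L : Type*} [Group L] [Finite L] [IsSimpleGroup L] (h : 3 ∣ Nat.card L) : pCore 2 L = ⊥ := by
  rcases (pCore_normal 2 L).eq_bot_or_eq_top with h1 | h1
  · exact h1
  · obtain ⟨k, hk⟩ := IsPGroup.iff_card.1 (pCore_isPGroup (p := 2) (G := L))
    rw [h1, card_top] at hk
    exact absurd (Nat.prime_three.dvd_of_dvd_pow (hk ▸ h)) (by norm_num)

/-- conjugation by an element of odd order -/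
theorem cent_of_odd {b s v : G} (ho : Odd (orderOf b)) (hv : v * v = 1) (hb : b * v * b⁻¹ = v)
    (e : b * s * b⁻¹ = s * v) : v = 1 := by
  have key : ∀ k : ℕ, b ^ (2 * k + 1) * s * (b ^ (2 * k + 1))⁻¹ = s * v := fun k => by
    induction k with
    | zero => simpa using e
    | succ k ih =>
      rw [show b ^ (2 * (k + 1) + 1) * s * (b ^ (2 * (k + 1) + 1))⁻¹ =
        b * (b * (b ^ (2 * k + 1) * s * (b ^ (2 * k + 1))⁻¹) * b⁻¹) * b⁻¹ by group, ih,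
        show b * (s * v) * b⁻¹ = (b * s * b⁻¹) * (b * v * b⁻¹) by group, e, hb, mul_assoc s, hv, mul_one, e]
  obtain ⟨k, hk⟩ := ho
  have := key k
  rw [← hk, pow_orderOf_eq_one] at this
  simpa using this

variable {W : Type*} [AddCommGroup W] [Module (ZMod 2) W]

/-- an element of odd order of the involution centraliser -/
structure CS (ι : Hs →* G) (b : G) (a : MulAut Hs) (QW : QuadraticForm (ZMod 2) W) (j : W →ₗ[ZMod 2] V8) : Prop where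
  ct : CT ι
  act : Act ι b a
  fw : FW QW j (rho8 a)
  odd : Odd (orderOf b)

namespace CS
variable {ι : Hs →* G} {b : G} {a : MulAut Hs} {QW : QuadraticForm (ZMod 2) W} {j : W →ₗ[ZMod 2] V8}
  (h : CS ι b a QW j) {q y : G} {x : Hs}
include h

theorem bz : b ∈ 𝐂[ι zs] := h.act.cent

theorem zb : ι zs ∈ 𝐂[b] := mem_cent1_comm.1 h.bz

theorem oddB : Odd (Nat.card (zpowers b)) := by rw [Nat.card_zpowers]; exact h.odd

theorem cent_iff : ι x ∈ 𝐂[b] ↔ x.v ∈ LinearMap.range j := by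
  rw [← h.fw.fix, rho8_v, mem_cent1_comm, ← conj_eq_iff_mem_cent1, h.act, h.ct.inj.eq_iff]
  refine ⟨fun e => by rw [e], fun e => (eq_or_of_v e).resolve_right fun e' => h.ct.z_ne
    (cent_of_odd (s := ι x) h.odd CT.z_sq (conj_eq_iff_mem_cent1.2 h.bz) (by rw [h.act, e', map_mul]))⟩

theorem mem_R : q ∈ ι.range ⊓ 𝐂[b] ↔ ∃ u c, q = ι ⟨j u, c⟩ :=
  ⟨by rintro ⟨⟨x, rfl⟩, hx⟩; obtain ⟨u, e⟩ := h.cent_iff.1 hx; exact ⟨u, x.a, by rw [e]⟩,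
    by rintro ⟨u, c, rfl⟩; exact ⟨⟨_, rfl⟩, h.cent_iff.2 ⟨u, rfl⟩⟩⟩

theorem card_R : Nat.card ↥(ι.range ⊓ 𝐂[b]) = Nat.card W * 2 := by
  rw [show Nat.card W * 2 = Nat.card (W × ZMod 2) by rw [Nat.card_prod, Nat.card_zmod]]
  refine (Nat.card_congr (Equiv.ofBijective (fun p : W × ZMod 2 => (⟨ι ⟨j p.1, p.2⟩, h.mem_R.2 ⟨_, _, rfl⟩⟩ :
    ↥(ι.range ⊓ 𝐂[b]))) ⟨fun p r e => ?_, fun q => ?_⟩)).symm
  · have := h.ct.inj (congrArg Subtype.val e)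
    exact Prod.ext (h.fw.inj (congrArg Heis.v this)) (congrArg Heis.a this)
  · obtain ⟨u, c, e⟩ := h.mem_R.1 q.2
    exact ⟨(u, c), Subtype.ext e.symm⟩

theorem comm_w {c : MulAut Hs} (hy : y ∈ 𝐂[b]) (e : Act ι y c) : rho8 c * rho8 a = rho8 a * rho8 c := by
  rw [← map_mul, ← map_mul, (e.mul h.act).unique h.ct.inj (mem_cent1_iff.1 hy ▸ h.act.mul e)]

theorem mem_iff {c : MulAut Hs} (hy : y ∈ 𝐂[b]) (e : Act ι y c) :
    (∀ u, (rho8 c).1 (j u) = j u) ↔ y ∈ zpowers b ⊔ (ι.range ⊓ 𝐂[b]) := by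
  have hp : ∀ k : ℤ, Act ι (b ^ k) (a ^ k) := fun k => by
    rcases k with k | k
    · simpa using h.act.pow k
    · simpa using (h.act.pow (k + 1)).inv
  rw [mem_sup_of_norm_right (norms_zpowers_of_cent1 inf_le_right)]
  constructor
  · intro k
    obtain ⟨i, hi⟩ := mem_zpowers_iff.1 (h.fw.ker _ (h.comm_w hy e) k)
    exact ⟨b ^ i, ⟨i, rfl⟩, (b ^ i)⁻¹ * y, ⟨h.ct.mem_range ((hp i).inv.mul e) (by
      rw [map_mul, map_inv, map_zpow, hi, inv_mul_cancel]), (mul_mem (inv_mem (zpow_mem (self_mem_cent1 b) i)) hy : _ ∈ 𝐂[b])⟩, by group⟩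
  · rintro ⟨_, ⟨i, rfl⟩, _, ⟨⟨x, rfl⟩, -⟩, rfl⟩ u
    rw [e.unique h.ct.inj ((hp i).mul (Act.iota x)), map_mul, rho8_conj, mul_one, map_zpow]
    exact MulAction.mem_stabilizer_iff.1 (zpow_mem (show rho8 a ∈ MulAction.stabilizer (O Q8) (j u) from h.fw.fj u) i)

variable [Finite G]

theorem inf_B : ι.range ⊓ zpowers b = ⊥ := inf_eq_bot_of_odd h.ct.lq.ez.pg h.oddB

theorem cop : CopAct ι.range (zpowers b) :=
  copAct_zpowers (h.ct.lq.le_norm h.bz) (by rw [← Nat.card_zpowers]; exact coprime_of_odd h.ct.lq.ez.pg h.oddB)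

theorem lift {g : O Q8} (hg : g ∈ E Q8) (e : g * rho8 a = rho8 a * g) : ∃ y ∈ 𝐂[b], ∃ c, Act ι y c ∧ rho8 c = g := by
  have hk : pker h.ct.om = ι.range := Subgroup.ext fun g => mem_pker.trans ⟨fun k => h.ct.om_eq_one.1
    ((pel_of_mem _ k.1).symm.trans k.2), fun k => ⟨h.ct.lq.ez.le_cent1 k,
      (pel_of_mem _ (h.ct.lq.ez.le_cent1 k)).trans (h.ct.om_eq_one.2 k)⟩⟩
  have := CopAct.pmap_inf_cent_ker (f := h.ct.om) (A := zpowers b) (H := 𝐂[ι zs]) (hk.symm ▸ h.cop)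
    (zpowers_le.2 h.bz) (norms_self_of_le (zpowers_le.2 h.bz))
  rw [cent_zpowers, pmap_zpowers _ h.bz, cent_zpowers, pmap_dom, MonoidHom.range_eq_top.2 h.ct.om_surj, top_inf_eq] at this
  obtain ⟨y, hy, e1⟩ := (mem_pmap_of_le inf_le_left).1 (this.ge (mem_cent1_iff.2 (show (⟨g, hg⟩ : E Q8) * _ = _ * _ from
    Subtype.ext (by rw [coe_mul, coe_mul, pel_of_mem _ h.bz, h.ct.om_eq h.act, e]))))
  exact ⟨y, hy.2, _, h.ct.act_al ⟨y, hy.1⟩, by rw [pel_of_mem _ hy.1] at e1; exact congrArg Subtype.val e1⟩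

theorem exists_theta : ∃ θ : ↥(𝐂[ι zs] ⊓ 𝐂[b]) →* E QW, Function.Surjective θ ∧
    ∀ y, θ y = 1 ↔ y.1 ∈ zpowers b ⊔ (ι.range ⊓ 𝐂[b]) := by
  let α := h.ct.al.comp (inclusion (inf_le_left : 𝐂[ι zs] ⊓ 𝐂[b] ≤ _))
  have h1 : ∀ y, Act ι y.1 (α y) := fun y => h.ct.act_al ⟨y.1, y.2.1⟩
  let θ := (h.fw.res.comp ((rho8.comp α).codRestrict _ fun y => h.fw.mem_SJ (h.comm_w y.2.2 (h1 y)))).codRestrict _
    fun y => (h.fw.split (h.ct.mem_AE (h1 y)) (h.comm_w y.2.2 (h1 y))).1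
  have h2 : ∀ y u, j ((θ y).1.1 u) = (rho8 (α y)).1 (j u) := fun y u => h.fw.res_spec _ u
  refine ⟨θ, fun o => ?_, fun y => ?_⟩
  · obtain ⟨g, h3, h4, h5⟩ := h.fw.exists_lift o.1
    obtain ⟨y, hy, c, h6, rfl⟩ := h.lift (h5.2 o.2) (h.fw.comm h3)
    exact ⟨⟨y, h6.cent, hy⟩, Subtype.ext (O.ext fun u => h.fw.inj (by rw [h2, (h1 _).unique h.ct.inj h6, h4]))⟩
  · rw [← h.mem_iff y.2.2 (h1 y)]
    exact ⟨fun e u => by rw [← h2, e]; rfl, fun e => Subtype.ext (O.ext fun u => h.fw.inj ((h2 y u).trans (e u)))⟩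

theorem ez_R (hq : q ∈ ι.range ⊓ 𝐂[b]) (h1 : q ∉ zpowers (ι zs)) : EZ (ι.range ⊓ 𝐂[b]) (ι zs) := by
  have := h.ct.lq.ez.odd_cent_or (zpowers_le.2 (h.ct.lq.le_norm h.bz)) h.oddB
  rw [cent_zpowers] at this
  exact this.resolve_left fun e => h1 (e ▸ hq)

theorem swap (hq : q ∈ ι.range ⊓ 𝐂[b]) (hc : IsConj (ι zs) q) (hne : q ≠ ι zs) :
    ∃ x ∈ 𝐂[b], x * ι zs * x⁻¹ = q ∧ x * q * x⁻¹ = ι zs := by
  obtain ⟨k, rfl⟩ := isConj_iff.1 hc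
  have ht := h.ct.lq.tri hq.1 hne
  have hR := h.ez_R hq ht.not_mem
  have hP : EZ (cj k ι.range ⊓ 𝐂[b]) (k * ι zs * k⁻¹) := by
    have := ht.r.ez.odd_cent_or (zpowers_le.2 (ht.r.le_norm (mem_cent1_comm.1 hq.2))) h.oddB
    rw [cent_zpowers] at this
    exact this.resolve_left fun e => ht.symm.not_mem (e ▸ mem_inf.2 ⟨ht.mem', h.zb⟩)
  obtain ⟨c, hc, e1⟩ := hP.exists_conj (mem_inf.2 ⟨ht.mem', h.zb⟩) ht.symm.not_mem
  obtain ⟨a, ha, e2⟩ := LQ.exists_swap hR hq ht.not_mem (hP.conj_z hc) hP.sq e1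
  exact ⟨_, mul_mem (mul_mem hc.2 ha.2) (inv_mem hc.2), e2⟩

theorem swap' {u : W} (c : ZMod 2) (hu : QW u = 0) (h0 : u ≠ 0) :
    ∃ x ∈ 𝐂[b], x * ι zs * x⁻¹ = ι ⟨j u, c⟩ ∧ x * ι ⟨j u, c⟩ * x⁻¹ = ι zs ∧ ι ⟨j u, c⟩ ≠ ι zs := by
  have h1 : j u ≠ 0 := fun e => h0 (h.fw.inj (e.trans (map_zero j).symm))
  have h2 : ι ⟨j u, c⟩ ≠ ι zs := fun e => h1 (congrArg Heis.v (h.ct.inj e))
  obtain ⟨x, hx, e1, e2⟩ := h.swap (h.mem_R.2 ⟨u, c, rfl⟩) (isConj_iff.2 (h.ct.exists_conj (h.fw.iso u ▸ hu) h1)) h2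
  exact ⟨x, hx, e1, e2, h2⟩

section quot
variable {H : Type*} [Group H] {D : Subgroup G} {f : D →* H} (h1 : 𝐂[ι zs] ⊓ 𝐂[b] ≤ D) (h2 : D ≤ 𝐂[b])
  (hf : Function.Surjective f) (hk : pker f = zpowers b)
include h2 hk

omit [Finite G] in
theorem eq_of_pel (hx : q ∈ D) (hy : y ∈ D) (k2 : q * q = 1) (k2' : y * y = 1) (e : pel f q = pel f y) : q = y := by
  rw [pel_eq_iff f hx hy, hk] at e
  have k1 : q * y⁻¹ * y = y * (q * y⁻¹) := by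
    obtain ⟨k, hk⟩ := e
    rw [← hk]
    exact ((show Commute y b from mem_cent1_iff.1 (h2 hy)).zpow_right k).symm
  have h3 : (q * y⁻¹) ^ 2 = 1 := by
    rw [inv_eq_of_mul_eq_one_right k2'] at k1 ⊢
    rw [mul_assoc, k2', mul_one] at k1
    rw [_root_.sq, mul_assoc, ← k1, k2]
  rw [← mul_inv_eq_one, ← orderOf_eq_one_iff]
  exact Nat.eq_one_of_dvd_coprimes ((Nat.coprime_two_left).2 h.odd) (orderOf_dvd_of_pow_eq_one h3)
    (orderOf_dvd_of_mem_zpowers e)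

include h1

omit [Finite G] h2 hk in
theorem zD : ι zs ∈ D := h1 ⟨self_mem_cent1 _, h.zb⟩

omit h2 hk in
theorem RD : ι.range ⊓ 𝐂[b] ≤ D := (inf_le_inf_right _ h.ct.lq.ez.le_cent1).trans h1

omit [Finite G] in
theorem conj_of_pel (hx : y ∈ D) (hq : q ∈ D) (k2 : q * q = 1)
    (e : pel f y * pel f (ι zs) * (pel f y)⁻¹ = pel f q) : y * ι zs * y⁻¹ = q := by
  rw [← pel_conj f hx (h.zD h1)] at e
  exact h.eq_of_pel h2 hk (mul_mem (mul_mem hx (h.zD h1)) (inv_mem hx)) hq (by rw [conj_mul, CT.z_sq]; group) k2 e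

omit h2 in
theorem card_pmap_R : Nat.card (pmap f (ι.range ⊓ 𝐂[b])) = Nat.card W * 2 := by
  rw [card_pmap_of_inj (h.RD h1), h.card_R]
  rw [hk, ← inf_assoc, inf_comm _ ι.range, h.inf_B, bot_inf_eq]

include hf

omit [Finite G] in
theorem pmap_C : pmap f (𝐂[ι zs] ⊓ 𝐂[b]) = 𝐂[pel f (ι zs)] := by
  refine le_antisymm ((pmap_mono f inf_le_left).trans (pmap_cent1 f (h.zD h1))) fun y hy => ?_
  obtain ⟨m, hm, rfl⟩ := exists_pel f hf y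
  exact pel_mem_pmap f ⟨conj_eq_iff_mem_cent1.1
    (h.conj_of_pel h1 h2 hk hm (h.zD h1) CT.z_sq (conj_eq_iff_mem_cent1.2 hy)), h2 hm⟩

theorem lq (hR : EZ (ι.range ⊓ 𝐂[b]) (ι zs)) : LQ (pmap f (ι.range ⊓ 𝐂[b])) (pel f (ι zs)) := by
  haveI : Finite H := Finite.of_surjective f hf
  have hz := h.zD h1
  have hzm : ∀ m ∈ D, m * ι zs * m⁻¹ * (ι zs)⁻¹ ∈ pker f → m ∈ 𝐂[ι zs] := fun m hm e =>
    conj_eq_iff_mem_cent1.1 (h.conj_of_pel h1 h2 hk hm hz CT.z_sq (by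
      rw [← pel_conj f hm hz, pel_eq_iff f (mul_mem (mul_mem hm hz) (inv_mem hm)) hz]; exact e))
  refine lq_pmap f hf h.ct.lq.ez inf_le_left (h.RD h1) hR.mem ?_ hR.not_abelian (fun m hm e => ?_)
    fun m hm e => ⟨m, ⟨hm, norms_inf (inf_le_left.trans h.ct.lq.le_norm) (norms_cent1 inf_le_right)
      (mem_inf.2 ⟨hzm m hm e, h2 hm⟩)⟩, rfl⟩
  · rw [hk]
    exact fun e => h.ct.z_ne (mem_bot.1 (h.inf_B ▸ mem_inf.2 ⟨⟨_, rfl⟩, e⟩))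
  · have hmz := hzm m hm (e _ hR.mem)
    have hmR : ∀ q ∈ ι.range ⊓ 𝐂[b], m * q * m⁻¹ * q⁻¹ = 1 := fun q hq => mem_bot.1 (h.inf_B ▸ mem_inf.2
      ⟨mul_mem (conj_mem_of_mem_normalizer (h.ct.lq.le_norm hmz) hq.1) (inv_mem hq.1), hk ▸ e q hq⟩)
    obtain ⟨c, -, hc⟩ := h.ct.ex m hmz
    obtain ⟨c, hc', a, ha, rfl⟩ := (mem_sup_of_norm_right (norms_zpowers_of_cent1 inf_le_right)).1
      ((h.mem_iff (h2 hm) hc).1 fun u => (rho8_v c ⟨j u, 0⟩).trans (congrArg Heis.v (h.ct.inj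
        ((hc _).symm.trans (mul_inv_eq_one.1 (hmR _ (h.mem_R.2 ⟨u, 0, rfl⟩)))))))
    rw [hk]
    refine mul_mem (mem_sup_left hc') (mem_sup_right (hR.mem_zp_of_cent ha ?_))
    have k1 : c ∈ 𝐂(ι.range ⊓ 𝐂[b]) := cents_symm (inf_le_right.trans (cent_zpowers b).ge) hc'
    have k2 : c * a ∈ 𝐂(ι.range ⊓ 𝐂[b]) := mem_cent_iff'.2 fun q hq => by
      have := hmR q hq
      rwa [mul_inv_eq_one, mul_inv_eq_iff_eq_mul] at this
    simpa using mul_mem (inv_mem k1) k2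

theorem exists_equiv [((pmap f (ι.range ⊓ 𝐂[b])).subgroupOf 𝐂[pel f (ι zs)]).Normal] :
    Nonempty (↥𝐂[pel f (ι zs)] ⧸ (pmap f (ι.range ⊓ 𝐂[b])).subgroupOf 𝐂[pel f (ι zs)] ≃* E QW) := by
  obtain ⟨θ, k1, k2⟩ := h.exists_theta
  obtain ⟨e, -⟩ := exists_quot_equiv f h1 (h.pmap_C h1 h2 hf hk) (S := pmap f (ι.range ⊓ 𝐂[b])) θ k1 fun y => by
    rw [k2, ← hk, ← pcomap_pmap f (h.RD h1), mem_pcomap]
    exact (and_iff_right (h1 y.2)).symm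
  exact ⟨e⟩

theorem setting {w : ℕ} (hW : Nat.card W = 2 ^ (2 * w)) (hL : pCore 2 (E QW) = ⊥) (hy : y ∈ D)
    (e1 : y * ι zs * y⁻¹ ∈ ι.range) (e2 : y * ι zs * y⁻¹ ≠ ι zs) :
    ∃ _ : ((pmap f (ι.range ⊓ 𝐂[b])).subgroupOf 𝐂[pel f (ι zs)]).Normal,
      LQ (pmap f (ι.range ⊓ 𝐂[b])) (pel f (ι zs)) ∧ oP 2 𝐂[pel f (ι zs)] ≤ pmap f (ι.range ⊓ 𝐂[b]) ∧
      IsExtraspecialCentralizerSetting (pel f (ι zs)) ((pmap f (ι.range ⊓ 𝐂[b])).subgroupOf 𝐂[pel f (ι zs)]) w ∧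
      Nonempty (↥𝐂[pel f (ι zs)] ⧸ (pmap f (ι.range ⊓ 𝐂[b])).subgroupOf 𝐂[pel f (ι zs)] ≃* E QW) := by
  haveI : Finite H := Finite.of_surjective f hf
  have hz := h.zD h1
  have hq : y * ι zs * y⁻¹ ∈ ι.range ⊓ 𝐂[b] := ⟨e1, h2 (mul_mem (mul_mem hy hz) (inv_mem hy))⟩
  have hl := h.lq h1 h2 hf hk (h.ez_R hq (h.ct.lq.tri e1 e2).not_mem)
  haveI := hl.normalIn.normal_subgroupOf
  obtain ⟨e⟩ := h.exists_equiv h1 h2 hf hk
  have hO := oP_le_of_equiv hl.normalIn.1 e hL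
  refine ⟨this, hl, hO, setting_of_lq hl hO (by rw [h.card_pmap_R h1 hk, hW, pow_succ]) ⟨pel f y, ?_, fun e3 => e2 ?_⟩, ⟨e⟩⟩
  · rw [← pel_conj f hy hz]; exact pel_mem_pmap f hq
  · exact h.conj_of_pel h1 h2 hk hy hz CT.z_sq e3

end quot

end CS

/-- the section `C(b)/⟨b⟩` for a fixed space of minus type -/
theorem CS.section [Finite G] {ι : Hs →* G} {b : G} {a : MulAut Hs} {k : ℕ} {j : WM (k + 1) →ₗ[ZMod 2] V8}
    (h : CS ι b a (QM (k + 1)) j) (hs : IsSimpleGroup (E (QM (k + 1)))) (h3 : 3 ∣ Nat.card (E (QM (k + 1))))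
    {H : Type*} [Group H] {D : Subgroup G} {f : D →* H} (hD : D = 𝐂[b]) (hf : Function.Surjective f)
    (hk : pker f = zpowers b) : IsSimpleGroup H ∧ ¬ IsMulCommutative H ∧
    ∃ _ : ((pmap f (ι.range ⊓ 𝐂[b])).subgroupOf 𝐂[pel f (ι zs)]).Normal,
      IsExtraspecialCentralizerSetting (pel f (ι zs)) ((pmap f (ι.range ⊓ 𝐂[b])).subgroupOf 𝐂[pel f (ι zs)]) (k + 2) ∧
      Nonempty (↥𝐂[pel f (ι zs)] ⧸ (pmap f (ι.range ⊓ 𝐂[b])).subgroupOf 𝐂[pel f (ι zs)] ≃* E (QM (k + 1))) := by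
  haveI : Finite H := Finite.of_surjective f hf
  haveI : Finite (E (QM (k + 1))) := Finite.of_injective (fun g => (g.1.1 : WM (k + 1) → WM (k + 1)))
    fun a b e => Subtype.ext (O.ext (congrFun e))
  subst hD
  have H0 := hyp_Qm (Q0 := q2 (1 : ZMod 2) 1) (0 : Fin (k + 1))
  obtain ⟨x, hx, e1, -, e2⟩ := h.swap' 0 H0.he H0.ne_zero
  obtain ⟨hn, hl, hO, hS, ⟨e⟩⟩ := h.setting inf_le_right le_rfl hf hk (card_WM _) (pCore_of_simple h3) hx ⟨_, e1.symm⟩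
    (e1 ▸ e2)
  obtain ⟨g, ⟨g1, g2⟩, g3⟩ := hS.2.2.2.2
  refine ⟨simple_of_lq hl e.isSimpleGroup hO ?_ ?_ g2 g3, fun hc => hl.ez.not_abelian inferInstance, hn, hS, ⟨e⟩⟩
  · have hN : (normalClosure ({pel f (ι zs)} : Set H)).Normal := inferInstance
    have hz : pel f (ι zs) ∈ normalClosure ({pel f (ι zs)} : Set H) := subset_normalClosure rfl
    generalize normalClosure ({pel f (ι zs)} : Set H) = N at hN hz
    have m : ∀ u c, ι ⟨j u, c⟩ ∈ 𝐂[b] := fun u c => (h.mem_R.2 ⟨u, c, rfl⟩).2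
    have m2 : ∀ u c, pel f (ι ⟨j u, 0⟩) ∈ N → pel f (ι ⟨j u, c⟩) ∈ N := fun u c k => by
      rcases eq_or_of_v (x := ⟨j u, c⟩) (y := ⟨j u, 0⟩) rfl with e | e <;> rw [e]
      · exact k
      · rw [map_mul, pel_mul f (m _ _) h.zb]; exact mul_mem k hz
    have m3 : ∀ u v, pel f (ι ⟨j u, 0⟩) ∈ N → pel f (ι ⟨j v, 0⟩) ∈ N → pel f (ι ⟨j (u + v), 0⟩) ∈ N := fun u v k l => by
      have := mul_mem (m2 u (b8 (j u) (j v)) k) l
      rwa [← pel_mul f (m _ _) (m _ _), ← map_mul, show (⟨j u, _⟩ * ⟨j v, 0⟩ : Hs) = ⟨j (u + v), 0⟩ from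
        Heis.ext (map_add j u v).symm (by simp [z2_two])] at this
    have m0 : pel f (ι ⟨j 0, 0⟩) ∈ N := by
      rw [map_zero, show (⟨0, 0⟩ : Hs) = 1 from rfl, map_one, pel_one]; exact one_mem _
    intro y hy
    obtain ⟨q, hq, rfl⟩ := (mem_pmap_of_le inf_le_right).1 hy
    obtain ⟨u, c, rfl⟩ := h.mem_R.1 hq
    refine m2 u c (span_sing (S := ⟨⟨⟨{u | pel f (ι ⟨j u, 0⟩) ∈ N}, m3 _ _⟩, m0⟩, fun {u} hu => by
      rwa [neg_eq_of_add_eq_zero_left (ExOut.add_self_two u)]⟩) (fun u hu => ?_) u)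
    by_cases h0 : u = 0
    · exact h0 ▸ m0
    · obtain ⟨x, hx, e1, -⟩ := h.swap' 0 hu h0
      show pel f _ ∈ N
      rw [← e1, pel_conj f hx h.zb]
      exact hN.conj_mem _ hz _
  · rw [h.card_pmap_R inf_le_right hk, card_WM, ← pow_succ, show 8 = 2 ^ 3 from rfl]
    exact fun e => by have := Nat.pow_right_injective le_rfl e; omega

end CA.Co
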