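import Cfsg.Agent.Lib.Co.Sec2

/-!
Standard elements of order three and five of the eight-dimensional orthogonal group.
-/

set_option autoImplicit false

namespace CA.Co
open Cfsg CA.Gol CA CA.Ex2 CA.Core CA.Orth Subgroup QuadraticMap

/-- product of reflections -/
noncomputable def rO (l : List ℕ) : O Q8 := (l.map fun m => refl Q8 (d8 m)).prod
/-- its action on codes -/
def rK (l : List ℕ) (v : ℕ) : ℕ := List.rec v (fun c _ ih => force ih fun x => Nat.xor x (sC (bC x c) c)) l

theorem Q_ne {c : ℕ} (h : qC c = true) : Q8 (d8 c) ≠ 0 := by rw [Q_d8, h]; decide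

theorem r8_rO {l : List ℕ} (h : allL l qC = true) : R8 (rO l) (rK l) := by
  induction l with
  | nil => exact R8.one
  | cons c l ih =>
    rw [allL_iff, List.forall_mem_cons, ← allL_iff] at h
    refine R8.mul (g := refl Q8 (d8 c)) (f := fun x => Nat.xor x (sC (bC x c) c)) (fun m => ?_) (ih h.2)
    rw [refl_apply, d8_xor, d8_sC, B_d8, Q_d8, h.1, v8_sub]; simp [bz]

theorem rO_mem {l : List ℕ} (h : allL l qC = true) : rO l ∈ E Q8 ↔ Even l.length := by
  induction l with
  | nil => simp [rO]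
  | cons c l ih =>
    rw [allL_iff, List.forall_mem_cons, ← allL_iff] at h
    rw [List.length_cons, Nat.even_add_one, ← ih h.2, rO, List.map_cons, List.prod_cons,
      mul_mem_iff_of_index_two index_E8, iff_false_intro (refl_not_mem nd8 (Q_ne h.1)), false_iff]; rfl

/-- iteration -/
def it8 (f : ℕ → ℕ) (n m : ℕ) : ℕ := Nat.rec m (fun _ ih => force ih f) n

theorem R8.pow {g : O Q8} {f : ℕ → ℕ} (h : R8 g f) (n : ℕ) : R8 (g ^ n) (it8 f n) := by
  induction n with
  | zero => exact R8.one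
  | succ n ih => rw [pow_succ']; exact h.mul ih

theorem ext_tab {g h : O Q8} {T : ℕ}
    (hT : allLt (fun i => anyLt (fun s => Nat.beq (xorSel T s 8) (Nat.pow 2 i)) 256) 8 = true)
    (e : ∀ i < 8, g.1 (d8 (fld 24 T i)) = h.1 (d8 (fld 24 T i))) : g = h := ext8 fun i hi => by
  obtain ⟨s, -, hs⟩ := anyLt_iff.1 (allLt_iff.1 hT i hi)
  rw [← beq_iff.1 hs]
  exact xorSel_ind (P := fun m => g.1 (d8 m) = h.1 (d8 m)) (by simp [d8_zero])
    (fun a b h1 h2 => by rw [d8_xor, map_add, map_add, h1, h2]) s e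

/-- the check for selfcentralising -/
def ckZ (f : ℕ → ℕ) (T n p : ℕ) : Bool :=
  allLt (fun i => anyLt (fun s => Nat.beq (xorSel T s 8) (Nat.pow 2 i)) 256) 8 &&
  allLt (fun i => Bool.rec (Nat.beq (fld 24 T i) (it8 f (Nat.sub i n) (fld 24 T n))) (!(bC (fld 24 T i) (fld 24 T n)))
    (Nat.blt i n)) 8 && (Nat.blt (fld 24 T n) 256 && !(Nat.beq (fld 24 T n) 0)) &&
  allLt (fun m => Nat.beq m 0 || anyLt (fun i => bC (fld 24 T i) m) n || xor (qC m) (qC (fld 24 T n)) ||
    anyLt (fun i => Nat.beq (it8 f i (fld 24 T n)) m) p) 256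

theorem ker_of {w g : O Q8} {f : ℕ → ℕ} (hw : R8 w f) {T n p : ℕ} (h : ckZ f T n p = true)
    (hT : ∀ i < n, w.1 (d8 (fld 24 T i)) = d8 (fld 24 T i)) (e : g * w = w * g)
    (hg : ∀ i < n, g.1 (d8 (fld 24 T i)) = d8 (fld 24 T i)) : g ∈ zpowers w := by
  simp only [ckZ, Bool.and_eq_true, Nat.blt_eq, Bool.not_eq_true', beq_false_iff] at h
  obtain ⟨⟨⟨h1, h2⟩, h3, h4⟩, h5⟩ := h
  obtain ⟨m, hm, e1⟩ := d8_surj (g.1 (d8 (fld 24 T n)))
  have h6 := allLt_iff.1 h5 m hm
  simp only [Bool.or_eq_true, beq_iff, anyLt_iff] at h6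
  rcases h6 with ((rfl | ⟨i, hi, h6⟩) | h6) | ⟨i, -, rfl⟩
  · exact absurd (e1.trans d8_zero) (O.map_ne_zero g (d8_ne h3 h4))
  · by_cases h8 : i < 8
    · have := allLt_iff.1 h2 i h8
      rw [Nat.blt_eq.mpr hi, Bool.not_eq_true'] at this
      have k := O.map_B g (d8 (fld 24 T i)) (d8 (fld 24 T n))
      rw [hg i hi, e1, B_d8, B_d8, h6, this] at k
      exact absurd k (by decide)
    · refine ⟨0, ext_tab h1 fun k hk => (hg k (by omega)).symm⟩
  · have k := O.map_Q g (d8 (fld 24 T n))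
    rw [e1, Q_d8, Q_d8] at k
    simp [bz_inj k] at h6
  · refine ⟨i, ext_tab h1 fun k hk => ?_⟩
    show (w ^ (i : ℤ)).1 _ = _
    rw [zpow_natCast]
    have := allLt_iff.1 h2 k hk
    by_cases c : k < n
    · rw [hg k c]
      exact MulAction.mem_stabilizer_iff.1 (pow_mem (show w ∈ MulAction.stabilizer (O Q8) _ from hT k c) i)
    · rw [show Nat.blt k n = false from Bool.eq_false_iff.2 fun e => c (Nat.blt_eq.mp e), beq_iff] at this
      rw [this, ← hw.pow, ← O.mul_apply, ← O.mul_apply g, ((show Commute g w from e).pow_right _).eq, O.mul_apply _ g,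
        e1, ← hw.pow, pow_mul_comm, O.mul_apply]

theorem fw_of {W : Type*} [AddCommGroup W] [Module (ZMod 2) W] {QW : QuadraticForm (ZMod 2) W} {j : W →ₗ[ZMod 2] V8}
    (h : Emb QW j) {l : List ℕ} {T n p : ℕ} (hl : (allL l qC && ckZ (rK l) T n p) = true) (he : Even l.length)
    (h1 : ∀ m < 256, d8 (rK l m) = d8 m ↔ ∃ x, j x = d8 m) (h2 : ∀ i < n, ∃ x, j x = d8 (fld 24 T i)) :
    FW QW j (rO l) := by
  rw [Bool.and_eq_true] at hl
  have k : ∀ v, (rO l).1 v = v ↔ v ∈ LinearMap.range j := fun v => by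
    obtain ⟨m, hm, rfl⟩ := d8_surj v
    rw [r8_rO hl.1, h1 m hm]; rfl
  exact ⟨h, k, fun g e hg => ker_of (r8_rO hl.1) hl.2 (fun i hi => (k _).2 (h2 i hi)) e fun i hi => by
    obtain ⟨x, e⟩ := h2 i hi
    rw [← e, hg], (rO_mem hl.1).2 he⟩

instance instDecV8 : DecidableEq V8 := inferInstance
instance instFinWM (k : ℕ) : Fintype (WM k) := inferInstance

/-- the six-dimensional subspace -/
def j6 : WM 2 →ₗ[ZMod 2] V8 where
  toFun v := (![v.1 0, v.1 1, v.2.2 0 + v.2.2 1, v.2.2 1], ![v.2.1 0, v.2.1 1, v.2.2 0, v.2.2 1], PUnit.unit)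
  map_add' u v := Prod.ext (funext fun i => by fin_cases i <;> simp [add_add_add_comm])
    (Prod.ext (funext fun i => by fin_cases i <;> simp) rfl)
  map_smul' a v := Prod.ext (funext fun i => by fin_cases i <;> simp [mul_add])
    (Prod.ext (funext fun i => by fin_cases i <;> simp) rfl)

/-- the four-dimensional subspace -/
def j4 : WM 1 →ₗ[ZMod 2] V8 where
  toFun v := (![v.1 0, 0, v.2.2 0 + v.2.2 1, v.2.2 1], ![v.2.1 0, 0, v.2.2 0, v.2.2 1], PUnit.unit)
  map_add' u v := Prod.ext (funext fun i => by fin_cases i <;> simp [add_add_add_comm])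
    (Prod.ext (funext fun i => by fin_cases i <;> simp) rfl)
  map_smul' a v := Prod.ext (funext fun i => by fin_cases i <;> simp [mul_add])
    (Prod.ext (funext fun i => by fin_cases i <;> simp) rfl)

/-- its complement -/
def j4' : WM 1 →ₗ[ZMod 2] V8 where
  toFun v := (![0, v.1 0, v.2.2 1, v.2.2 0 + v.2.2 1], ![0, v.2.1 0, v.2.2 1, v.2.2 0], PUnit.unit)
  map_add' u v := Prod.ext (funext fun i => by fin_cases i <;> simp [add_add_add_comm])
    (Prod.ext (funext fun i => by fin_cases i <;> simp) rfl)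
  map_smul' a v := Prod.ext (funext fun i => by fin_cases i <;> simp [mul_add])
    (Prod.ext (funext fun i => by fin_cases i <;> simp) rfl)

/-- the element of order three -/
noncomputable def w3 : O Q8 := rO [136, 76]
/-- the element of order five -/
noncomputable def w5 : O Q8 := rO [136, 76, 168, 138]
/-- its mate -/
noncomputable def w5' : O Q8 := rO [68, 140, 84, 69]

theorem fw3 : FW (QM 2) j6 w3 := fw_of ⟨ndM 2, by simp only [Qm_apply, q2_apply, q0_apply]; decide +kernel, idxM 1⟩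
  (T := 0x4c00008800008c000044000020000002000010000001) (n := 6) (p := 3) (by decide +kernel) (by decide)
  (by decide +kernel) (by decide +kernel)

theorem fw5 : FW (QM 1) j4 w5 := fw_of ⟨ndM 1, by simp only [Qm_apply, q2_apply, q0_apply]; decide +kernel, idxM 0⟩
  (T := 0xaa0000e600006e00000200008c000044000010000001) (n := 4) (p := 5) (by decide +kernel) (by decide) (by decide +kernel) (by decide +kernel)

theorem fw5' : FW (QM 1) j4' w5' := fw_of ⟨ndM 1, by simp only [Qm_apply, q2_apply, q0_apply]; decide +kernel, idxM 0⟩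
  (T := 0x550000d900009d00000100004c000088000020000002) (n := 4) (p := 5) (by decide +kernel) (by decide) (by decide +kernel) (by decide +kernel)

end CA.Co
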