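import Cfsg.Agent.Lib.Co.Sec3
import Cfsg.Agent.Lib.Co.CT2
import Cfsg.Agent.Lib.Co.Odd

/-!
Conjugacy of elements of order three and five; the sections of `Co₀`.
-/

set_option autoImplicit false

namespace CA.Co
open Cfsg CA.Gol CA CA.Ex2 CA.Core CA.Orth Subgroup QuadraticMap

theorem rO_eq {l l' : List ℕ} (h : (allL l qC && allL l' qC &&
    allLt (fun i => Nat.beq (rK l (Nat.pow 2 i)) (rK l' (Nat.pow 2 i))) 8) = true) : rO l = rO l' := by
  simp only [Bool.and_eq_true] at h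
  exact (r8_rO h.1.1).ext (r8_rO h.1.2) h.2

theorem rO_append (l l' : List ℕ) : rO (l ++ l') = rO l * rO l' := by simp [rO]

theorem r8_w3 : R8 w3 (rK [136, 76]) := r8_rO (by decide +kernel)
theorem r8_w5 : R8 w5 (rK [136, 76, 168, 138]) := r8_rO (by decide +kernel)
theorem r8_w5' : R8 w5' (rK [68, 140, 84, 69]) := r8_rO (by decide +kernel)

theorem ord_of {w : O Q8} {f : ℕ → ℕ} (h : R8 w f) {p m : ℕ} (hp : p.Prime)
    (e : (allLt (fun i => Nat.beq (it8 f p (Nat.pow 2 i)) (Nat.pow 2 i)) 8 && decide (d8 (f m) ≠ d8 m)) = true) :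
    orderOf w = p := by
  haveI := Fact.mk hp
  rw [Bool.and_eq_true] at e
  exact orderOf_eq_prime ((h.pow p).ext R8.one e.1) fun k => of_decide_eq_true e.2 (by rw [← h, k]; rfl)

theorem ord_w3 : orderOf w3 = 3 := ord_of r8_w3 (m := 136) Nat.prime_three (by decide +kernel)
theorem ord_w5 : orderOf w5 = 5 := ord_of r8_w5 (m := 136) Nat.prime_five (by decide +kernel)
theorem ord_w5' : orderOf w5' = 5 := ord_of r8_w5' (m := 68) Nat.prime_five (by decide +kernel)

theorem exists_pow_lt {L : Type*} [Group L] {a x : L} {p : ℕ} (ho : orderOf a = p) (hp : 0 < p) (h : x ∈ zpowers a) :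
    ∃ i < p, x = a ^ i := by
  obtain ⟨k, rfl⟩ := h
  have h1 : 0 ≤ k % p := Int.emod_nonneg _ (by omega)
  have h2 : k % p < p := Int.emod_lt_of_pos _ (by omega)
  exact ⟨(k % p).toNat, by omega, by rw [← zpow_natCast, Int.toNat_of_nonneg h1, ← ho, zpow_mod_orderOf]⟩

theorem conj5 {w : O Q8} (hw : w ∈ E Q8) (ho : orderOf w = 5) {v : V8} (h0 : v ≠ 0) (hv : w.1 v = v) :
    ∃ k ∈ E Q8, k * w * k⁻¹ ∈ zpowers w5 := by
  have hc : w5 * w5' = w5' * w5 := by
    rw [w5, w5', ← rO_append, ← rO_append]; exact rO_eq (by decide +kernel)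
  have hn := norms_zpowers_of_cent1 (zpowers_le.2 (mem_cent1_iff.2 hc.symm))
  have key : ∀ i < 5, ∀ j < 5, ∀ m < 256, (w5 ^ i * w5' ^ j).1 (d8 m) = d8 m → i = 0 ∨ j = 0 ∨ m = 0 := by
    intro i hi j hj m hm e
    have k : allLt (fun i => allLt (fun j => allLt (fun m => Nat.beq i 0 || Nat.beq j 0 || Nat.beq m 0 ||
      force (it8 (rK [136, 76, 168, 138]) i (it8 (rK [68, 140, 84, 69]) j m)) fun x => Nat.blt x 256 && !(Nat.beq x m))
      256) 5) 5 = true := by decide +kernel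
    have := allLt_iff.1 (allLt_iff.1 (allLt_iff.1 k i hi) j hj) m hm
    simp only [Bool.or_eq_true, beq_iff, force_eq, Bool.and_eq_true, Nat.blt_eq, Bool.not_eq_true', beq_false_iff] at this
    rw [O.mul_apply, r8_w5'.pow, r8_w5.pow] at e
    rcases this with ((h | h) | h) | h
    exacts [Or.inl h, Or.inr (Or.inl h), Or.inr (Or.inr h), absurd (d8_inj h.1 hm e) h.2]
  have c25 : Nat.card ↥(zpowers w5 ⊔ zpowers w5') = 5 ^ 2 := by
    rw [card_sup_of_disjoint (Or.inl hn), Nat.card_zpowers, Nat.card_zpowers, ord_w5, ord_w5']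
    · rfl
    refine (eq_bot_or_eq_of_prime_card (by rw [Nat.card_zpowers, ord_w5]; exact Nat.prime_five) inf_le_left).resolve_right
      fun e => ?_
    obtain ⟨j, hj, e1⟩ := exists_pow_lt ord_w5' (by norm_num) (e.ge (mem_zpowers w5)).2
    have := r8_w5 136
    rw [e1, show (w5' ^ j).1 (d8 136) = _ from MulAction.mem_stabilizer_iff.1 (pow_mem (show w5' ∈ MulAction.stabilizer (O Q8) (d8 136) from
      (r8_w5' 136).trans (by decide +kernel)) j)] at this
    exact absurd this (by decide +kernel)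
  have hle : zpowers w5 ⊔ zpowers w5' ≤ E Q8 := sup_le (zpowers_le.2 fw5.mem) (zpowers_le.2 fw5'.mem)
  obtain ⟨k, hk, e⟩ := (sylowIn_mk Nat.prime_five hle (haveI := Fact.mk Nat.prime_five; IsPGroup.of_card c25) (by
    have := card_mul_relIndex hle
    rw [c25, card_E8] at this
    omega)).exists_cj_le ((piGrp_singleton_iff Nat.prime_five).2 (haveI := Fact.mk Nat.prime_five
      IsPGroup.of_card (n := 1) (by rw [Nat.card_zpowers, ho]; rfl))) (zpowers_le.2 hw)
  obtain ⟨a, ha, b, hb, e⟩ := (mem_sup_of_norm_right hn).1 (e (conj_mem_cj.2 (mem_zpowers w)))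
  obtain ⟨i, hi, rfl⟩ := exists_pow_lt ord_w5 (by norm_num) ha
  obtain ⟨j, hj, rfl⟩ := exists_pow_lt ord_w5' (by norm_num) hb
  obtain ⟨m, hm, e1⟩ := d8_surj (k.1 v)
  rcases key i hi j hj m hm (by rw [e, ← e1, O.mul_apply, O.mul_apply, O.inv_apply_apply, hv]) with rfl | rfl | rfl
  · have e2 : rO [47, 239, 227, 35, 136, 187, 139, 184] * w5' = w5 * rO [47, 239, 227, 35, 136, 187, 139, 184] := by
      rw [w5, w5', ← rO_append, ← rO_append]; exact rO_eq (by decide +kernel)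
    refine ⟨_ * k, mul_mem ((rO_mem (l := [47, 239, 227, 35, 136, 187, 139, 184]) (by decide +kernel)).2 (by decide)) hk,
      j, ?_⟩
    rw [← mul_inv_eq_iff_eq_mul] at e2
    show w5 ^ (j : ℤ) = _
    rw [zpow_natCast, ← e2, conj_pow, ← one_mul (w5' ^ j), ← pow_zero w5, e]; group
  · exact ⟨k, hk, by rw [← e, pow_zero, mul_one]; exact ha⟩
  · exact absurd (e1.trans d8_zero) (O.map_ne_zero k h0)

theorem exists_map2 {x y s : V8} (hx : Q8 x = 1) (hy : Q8 y = 1) (hs : polar Q8 x s = polar Q8 y s)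
    (h : polar Q8 x y = 1 ∨ ∃ z, Q8 z = 1 ∧ polar Q8 z x = 1 ∧ polar Q8 z y = 1 ∧ polar Q8 z s = polar Q8 y s) :
    ∃ g : O Q8, g.1 x = y ∧ g.1 s = s := by
  have k : ∀ x y : V8, Q8 x = 1 → Q8 y = 1 → polar Q8 x s = polar Q8 y s → polar Q8 x y = 1 →
      (refl Q8 (x - y)).1 x = y ∧ (refl Q8 (x - y)).1 s = s := fun x y hx hy hs h =>
    ⟨refl_sub_apply (hx.trans hy.symm) (by rw [Q_sub, hx, hy, h]; decide),
      refl_apply_of_orth (by rw [B_comm, polar_sub_left, hs, sub_self])⟩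
  rcases h with h | ⟨z, h1, h2, h3, h4⟩
  · exact ⟨_, k x y hx hy hs h⟩
  · obtain ⟨a, b⟩ := k x z hx h1 (hs.trans h4.symm) ((B_comm x z).trans h2)
    obtain ⟨c, d⟩ := k z y h1 hy h4 h3
    exact ⟨_ * _, by rw [O.mul_apply, a, c], by rw [O.mul_apply, b, d]⟩

theorem exists_map_code {x : V8} {c s : ℕ} (hx : Q8 x = 1) (hs : polar Q8 x (d8 s) = polar Q8 (d8 c) (d8 s))
    (h : (qC c && allLt (fun m => !(qC m) || xor (bC m s) (bC c s) || bC m c ||
      anyLt (fun z => qC z && bC z m && bC z c && !(xor (bC z s) (bC c s))) 256) 256) = true) :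
    ∃ g : O Q8, g.1 x = d8 c ∧ g.1 (d8 s) = d8 s := by
  obtain ⟨m, hm, rfl⟩ := d8_surj x
  rw [Bool.and_eq_true] at h
  refine exists_map2 hx (by rw [Q_d8, h.1]; rfl) hs ?_
  have := allLt_iff.1 h.2 m hm
  rw [Q_d8, bz_eq_one] at hx
  rw [B_d8, B_d8] at hs
  simp only [hx, bz_inj hs, Bool.not_true, Bool.xor_self, Bool.false_or, Bool.or_eq_true, anyLt_iff,
    Bool.and_eq_true, Bool.not_eq_true'] at this
  exact this.imp (fun k => by rw [B_d8, k]; rfl) fun ⟨z, _, k⟩ => ⟨d8 z, by rw [Q_d8, k.1.1.1]; rfl,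
    by rw [B_d8, k.1.1.2]; rfl, by rw [B_d8, k.1.2]; rfl, by rw [B_d8, B_d8, show bC z s = bC c s by simpa using k.2]⟩

theorem conj3 {w : O Q8} (ho : orderOf w = 3) {S : Set V8} (hS : S.ncard ≤ 4) (h : ∀ v, w.1 v + v ∈ S) :
    ∃ k ∈ E Q8, k * w * k⁻¹ = w3 := by
  have h3 : ∀ v, w.1 (w.1 (w.1 v)) = v := fun v => by
    have := pow_orderOf_eq_one w
    rw [ho, pow_succ, pow_two] at this
    exact congrArg (fun g : O Q8 => g.1 v) this
  obtain ⟨u, hu⟩ : ∃ u, w.1 u + u ≠ 0 := by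
    by_contra k
    push Not at k
    rw [show w = 1 from O.ext fun v => (add_eq_zero_iff_eq_neg.1 (k v)).trans (v8_neg v), orderOf_one] at ho
    cases ho
  set v := w.1 u + u with hv
  have e1 : w.1 (w.1 v) = v + w.1 v := by
    simp only [hv, map_add, h3]
    rw [← sub_eq_zero, v8_sub, show ∀ a b c : V8, a + c + (b + a + (c + b)) = (a + a) + (b + b) + (c + c) by intros; abel]
    simp [v8_two]
  have e2 : w.1 v ≠ v := fun e => hu (by rw [e, e, v8_two] at e1; exact e1)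
  have hP : ∀ x, w.1 x + x = 0 ∨ w.1 x + x = v ∨ w.1 x + x = w.1 v ∨ w.1 x + x = v + w.1 v := fun x => by
    have : ({0, v, w.1 v, v + w.1 v} : Set V8) = S := Set.eq_of_subset_of_ncard_le (by
      rintro _ (rfl | rfl | rfl | rfl)
      · simpa [v8_two] using h 0
      · exact h u
      · simpa [hv] using h (w.1 u)
      · exact add_comm v _ ▸ h v) (hS.trans (Set.ncard_eq_four.2 ⟨_, _, _, _, hu.symm, (O.map_ne_zero w hu).symm,
        fun e => e2 ((add_eq_zero_iff_eq_neg.1 e.symm).trans (v8_neg _)).symm, e2.symm,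
        fun e => O.map_ne_zero w hu (by simpa using e), fun e => hu (by simpa using e), rfl⟩).ge)
    exact this.ge (h x)
  have hF : ∀ x, polar Q8 x v = 0 → polar Q8 x (w.1 v) = 0 → w.1 x = x := fun x k1 k2 => by
    rw [← sub_eq_zero]
    refine nd8 _ fun y => ?_
    rw [polar_sub_left, ← O.apply_inv_apply w y, O.map_B, ← polar_sub_right, v8_sub, add_comm]
    rcases hP (w⁻¹.1 y) with e | e | e | e <;> rw [e] <;> simp [k1, k2]
  have e3 : Q8 v = polar Q8 v (w.1 v) := by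
    have := O.map_Q w (w.1 v)
    rw [e1, Q_add, O.map_Q, z2_two, zero_add] at this
    exact this.symm
  have e4 : Q8 v = 1 := (zmod_two_cases _).resolve_left fun e => e2 (hF v (by rw [B_self, e, mul_zero]) (e3 ▸ e))
  obtain ⟨g, g1, -⟩ := exists_map_code (c := 136) (s := 0) e4 (by simp [d8_zero]) (by decide +kernel)
  obtain ⟨g', g2, g3⟩ := exists_map_code (x := g.1 (w.1 v)) (c := 76) (s := 136) (by rw [O.map_Q, O.map_Q, e4])
    (by rw [← g1, O.map_B, B_comm, ← e3, e4, g1, B_d8]; rfl) (by decide +kernel)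
  have k1 : (g' * g).1 v = d8 136 := by rw [O.mul_apply, g1, g3]
  have k2 : (g' * g).1 (w.1 v) = d8 76 := g2
  generalize g' * g = k at k1 k2
  have e : k * w * k⁻¹ = w3 := ext_tab (T := 0x4c00008800008c000044000020000002000010000001) (by decide +kernel) fun i hi => by
    have k3 : ∀ i < 8, (i < 6 ∧ bC (fld 24 0x4c00008800008c000044000020000002000010000001 i) 136 = false ∧
      bC (fld 24 0x4c00008800008c000044000020000002000010000001 i) 76 = false ∧
      rK [136, 76] (fld 24 0x4c00008800008c000044000020000002000010000001 i) =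
        fld 24 0x4c00008800008c000044000020000002000010000001 i) ∨ i = 6 ∨ i = 7 := by decide +kernel
    rw [O.mul_apply, O.mul_apply, r8_w3]
    rcases k3 i hi with ⟨-, a, b, c⟩ | rfl | rfl
    · rw [c, hF, O.apply_inv_apply]
      · rw [O.map_B_inv, k1, B_d8, a]; rfl
      · rw [O.map_B_inv, k2, B_d8, b]; rfl
    · show k.1 (w.1 (k⁻¹.1 (d8 136))) = d8 76
      rw [← k1, O.inv_apply_apply, k2]
    · show k.1 (w.1 (k⁻¹.1 (d8 76))) = d8 (Nat.xor 136 76)
      rw [← k2, O.inv_apply_apply, e1, map_add, k1, k2, d8_xor]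
  by_cases hk : k ∈ E Q8
  · exact ⟨k, hk, e⟩
  · refine ⟨rO [68] * k, (mul_mem_iff_of_index_two index_E8).2 (iff_of_false
      (fun k => absurd ((rO_mem (by decide +kernel)).1 k) (by decide)) hk), ?_⟩
    have : rO [68] * w3 = w3 * rO [68] := by rw [w3, ← rO_append, ← rO_append]; exact rO_eq (by decide +kernel)
    rw [mul_inv_rev, mul_assoc _ k, mul_assoc, ← mul_assoc (k * w), e, ← mul_assoc, this, mul_inv_cancel_right]

theorem CT.exists_odd {G : Type*} [Group G] {ι : Hs →* G} (h : CT ι) {w : O Q8} (hw : w ∈ E Q8) {p : ℕ} (hp : p.Prime)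
    (h15 : p ∣ 15) (ho : orderOf w = p) : ∃ b a, Act ι b a ∧ rho8 a = w ∧ orderOf b = p := by
  haveI := Fact.mk hp
  obtain ⟨g, a, h1, rfl⟩ := h.exists_act hw
  have e : rho8 (a ^ 16) = rho8 a := by rw [map_pow, pow_succ, orderOf_dvd_iff_pow_eq_one.1 (ho ▸ h15), one_mul]
  refine ⟨_, _, h1.pow 16, e, orderOf_eq_prime ?_ fun k => hp.one_lt.ne' ?_⟩
  · obtain ⟨x, hx⟩ := h.mem_range (h1.pow p) (by rw [map_pow, ← ho, pow_orderOf_eq_one])
    rw [← pow_mul, mul_comm, pow_mul, ← hx, ← map_pow, show 16 = 2 * (2 * 4) from rfl, pow_mul, pow_mul, _root_.sq x, hs_sq,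
      _root_.sq, hs_sq, zk_v, map_zero]
    simp [show zk 0 = 1 from rfl]
  · rw [← ho, ← e, (h1.pow 16).unique h.inj (k ▸ Act.one), map_one, orderOf_one]

theorem co0_section {k p : ℕ} {j : WM (k + 1) →ₗ[ZMod 2] V8} {w : O Q8} (fw : FW (QM (k + 1)) j w) (hp : p.Prime)
    (h15 : p ∣ 15) (ho : orderOf w = p) (hs : IsSimpleGroup (E (QM (k + 1)))) (h3 : 3 ∣ Nat.card (E (QM (k + 1))))
    {L : Type*} [Group L] (eL : E (QM (k + 1)) ≃* L) : ∃ A : Subgroup Co0, Nat.card A = p ∧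
    ∃ _ : ((A ⊔ center Co0).subgroupOf 𝐂(A)).Normal, ∃ (S : Type) (_ : Group S) (_ : Finite S),
      Nonempty (S ≃* ↥𝐂(A) ⧸ (A ⊔ center Co0).subgroupOf 𝐂(A)) ∧ IsSimpleGroup S ∧ ¬ IsMulCommutative S ∧
      ∃ (z : S) (Q : Subgroup ↥𝐂[z]) (_ : Q.Normal), IsExtraspecialCentralizerSetting z Q (k + 2) ∧
        Nonempty (↥𝐂[z] ⧸ Q ≃* L) := by
  haveI := Fact.mk hp
  obtain ⟨b, a, h1, rfl, h2⟩ := ct0.exists_odd fw.mem hp h15 ho
  have odd : Odd p := Odd.of_dvd_nat (by decide) h15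
  obtain ⟨β, rfl, hβ⟩ : ∃ β : Co0, (β : Spor.Co1) = b ∧ orderOf β = p := by
    obtain ⟨g, rfl⟩ := QuotientGroup.mk_surjective b
    have e : ((g ^ 16 : Co0) : Spor.Co1) = g := by
      rw [QuotientGroup.mk_pow, pow_succ, orderOf_dvd_iff_pow_eq_one.1 (h2 ▸ h15), one_mul]
    refine ⟨_, e, orderOf_eq_prime ?_ fun k => hp.one_lt.ne' (by rw [← h2, ← e, k]; exact orderOf_one)⟩
    rw [← pow_mul, mul_comm, pow_mul]
    rcases mk_eq_one_iff.1 (show ((g ^ p : Co0) : Spor.Co1) = 1 by rw [QuotientGroup.mk_pow, ← h2, pow_orderOf_eq_one])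
      with k | k <;> rw [k]
    · exact one_pow _
    · rw [show 16 = 2 * 8 from rfl, pow_mul, _root_.sq, negC_sq, one_pow]
  have hZ : zpowers β ⊔ center Co0 = KK β := congrArg _ (Subgroup.ext fun g => by rw [mem_center_iff, mem_zp2 negC_sq])
  have hn : ((zpowers β ⊔ center Co0).subgroupOf 𝐂(zpowers β)).Normal := by
    rw [hZ, cent_zpowers]; exact KK_normal β
  haveI : ((zpowers (β : Spor.Co1)).subgroupOf 𝐂[(β : Spor.Co1)]).Normal :=
    (normal_subgroupOf_iff_le_normalizer (zpowers_le.2 (self_mem_cent1 _))).2 (norms_zpowers_of_cent1 le_rfl)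
  obtain ⟨s1, s2, s3, s4, ⟨e⟩⟩ := CS.section ⟨ct0, h1, fw, h2 ▸ odd⟩ hs h3
    (f := QuotientGroup.mk' ((zpowers (β : Spor.Co1)).subgroupOf 𝐂[(β : Spor.Co1)])) rfl (QuotientGroup.mk'_surjective _)
    (Ex2.pker_mk' (zpowers_le.2 (self_mem_cent1 _)))
  refine ⟨_, by rw [Nat.card_zpowers, hβ], hn, _, inferInstance, inferInstance, ?_, s1, s2, _, _, s3, s4, ⟨e.trans eL⟩⟩
  let φ : ↥𝐂(zpowers β) →* ↥𝐂[(β : Spor.Co1)] := ((QuotientGroup.mk' _).comp (Subgroup.subtype _)).codRestrict _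
    fun g => mk_mem_cent (cent_zpowers β ▸ g.2)
  refine (equiv_of_ker_eq ((QuotientGroup.mk' _).comp φ) (QuotientGroup.mk' _) ((QuotientGroup.mk'_surjective _).comp
    fun x => ?_) (QuotientGroup.mk'_surjective _) fun g => ?_).nonempty
  · obtain ⟨g, e⟩ := QuotientGroup.mk_surjective x.1
    refine ⟨⟨g, cent_zpowers β ▸ conj_eq_iff_mem_cent1.1 (eq_of_mk_eq (hβ ▸ odd) ((MulAut.conj g).orderOf_eq β) ?_)⟩,
      Subtype.ext e⟩
    rw [QuotientGroup.mk_mul, QuotientGroup.mk_mul, QuotientGroup.mk_inv, e, conj_eq_iff_mem_cent1.2 x.2]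
  · rw [MonoidHom.comp_apply, QuotientGroup.mk'_apply, QuotientGroup.mk'_apply, QuotientGroup.eq_one_iff,
      QuotientGroup.eq_one_iff, mem_subgroupOf, mem_subgroupOf, hZ, mem_KK, mem_zpowers_iff]
    exact exists_congr fun i => by rw [← QuotientGroup.mk_zpow]; exact mk_eq_iff

end CA.Co
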