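import Cfsg.Agent.Lib.Co.SecS
import Cfsg.Agent.Lib.Co.CT9
import Cfsg.Agent.Lib.CoT.J22

/-!
The centraliser `5 × J2` in a group of Conway type.
-/

set_option autoImplicit false

namespace CA.Co
open Cfsg CA.Gol CA CA.Ex2 CA.Core CA.Orth CA.FStar Subgroup QuadraticMap
open scoped commutatorElement

theorem not_conj0 {t : Spor.Co1} {a : MulAut Hs} (h : Act i0 t a) (e : rho8 a = eich Q8 (d8 1) (d8 68)) :
    ¬ IsConj (i0 zs) t := fun hc => by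
  have m := mr_mo (c := 0x9d4006) (p := 0x4aa6559cc7c5b05cd283d02410cb7) (by decide +kernel) (by decide +kernel)
  obtain ⟨c, h1⟩ := m.act (by decide +kernel)
  obtain ⟨x, hx⟩ := ct0.mem_range (h.mul h1.inv) (by
    rw [map_mul, map_inv, e, rho8_of_ckX m h1 (r8_eich (u := 1) (w := 68) rfl) (by decide +kernel), mul_inv_cancel])
  obtain ⟨n, hn, rfl⟩ := dH_surj x
  rw [eq_mul_inv_iff_mul_eq, i0_apply, ← QuotientGroup.mk_mul] at hx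
  rw [← hx, i0_zs] at hc
  obtain ⟨k, hk⟩ := sq_of_conj hc
  rw [eps, sgC_sq, mul_one, mul_inv_cancel] at hk
  have m2 := (mr_dH hn).mul m
  have := (hk ▸ m2.mul m2).inj mr_one
  have k := allLt_iff.1 (by decide +kernel : allLt (fun n => force (Nat.xor (cw n) (apM (tp n) 0x9d4006)) fun c =>
    force (Gol.mul (tp n) 0x4aa6559cc7c5b05cd283d02410cb7) fun p =>
      !(Nat.beq (Nat.xor c (apM p c)) 0 && Nat.beq (Gol.mul p p) oneC)) 512 = true) n hn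
  rw [force_eq, force_eq, this.1, this.2] at k
  exact absurd k (by decide +kernel)

variable {G : Type*} [Group G] [Finite G] {ι : Hs →* G} {a c : MulAut Hs} {b t x y : G}

theorem CT.not_conj (h : CT ι) (h1 : Act ι t a) (e : rho8 a = eich Q8 (d8 1) (d8 68)) : ¬ IsConj (ι zs) t := by
  obtain ⟨f, f1, f2⟩ := h.exists_equiv
  have hi : Function.Injective (f.toMonoidHom.comp i0) := f.injective.comp i0_inj
  let r : MulAut Hs := (MonoidHom.ofInjective h.inj).trans ((MulEquiv.subgroupCongr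
    (f2.symm.trans (MonoidHom.map_range _ _))).trans (MonoidHom.ofInjective hi).symm)
  have hr : ∀ x, f (i0 (r x)) = ι x := fun x => MonoidHom.apply_ofInjective_symm hi _
  have h2 : Act i0 (f.symm t) (r * a * r⁻¹) := fun x => f.injective (by
    rw [MulAut.mul_apply, MulAut.mul_apply, hr, ← h1, ← hr, map_mul, map_mul, map_inv]; simp)
  obtain ⟨k, hk, e1⟩ : ∃ k ∈ E Q8, k * rho8 a * k⁻¹ = rho8 r * rho8 a * (rho8 r)⁻¹ := by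
    by_cases hk : rho8 r ∈ E Q8
    · exact ⟨_, hk, rfl⟩
    · refine ⟨rho8 r * rO [68], (mul_mem_iff_of_index_two index_E8).2 (iff_of_false hk
        fun k => absurd ((rO_mem (by decide +kernel)).1 k) (by decide)), ?_⟩
      have k := r8_rO (l := [68]) (by decide +kernel)
      rw [mul_inv_rev, mul_assoc (rho8 r), mul_assoc (rho8 r), ← mul_assoc (_ * rho8 a), e, conj_eich, k, k,
        mul_assoc (rho8 r)]
      rfl
  obtain ⟨g, c, h3, rfl⟩ := ct0.exists_act hk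
  refine fun hc => not_conj0 ((h3.inv.mul h2).mul h3) (by
    rw [map_mul, map_mul, map_mul, map_mul, map_inv, map_inv, ← e1, ← e]; group) ?_
  rw [← f1] at hc
  exact (by simpa using (f.symm.toMonoidHom.map_isConj hc) : IsConj (i0 zs) (f.symm t)).trans
    (isConj_iff.2 ⟨g⁻¹, by group⟩)

theorem perp4 (v : V8) : (∀ x, polar Q8 (j4' x) v = 0) → ∃ u, j4 u = v := by
  obtain ⟨m, hm, rfl⟩ := d8_surj v
  simp only [← b8_polar, b8_apply]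
  revert m
  decide +kernel

theorem perp4' (u x : WM 1) : polar Q8 (j4' x) (j4 u) = 0 := by
  simp only [← b8_polar, b8_apply]
  revert u x
  decide +kernel

abbrev A5 := alternatingGroup (Fin 5)

theorem card_A5 : Nat.card A5 = 60 := by rw [nat_card_alternatingGroup]; simp [Nat.factorial]

theorem pmap_A5 {K N : Subgroup G} {θ : K →* A5} (hs : Function.Surjective θ) (hN : N ≤ K)
    (h : Nat.card K * Nat.card ↥(pker θ ⊓ N) ≤ 2 * Nat.card (pker θ) * Nat.card N) : pmap θ N = ⊤ := by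
  have h1 := card_pmap_mul θ (le_refl K)
  rw [pmap_dom, MonoidHom.range_eq_top.2 hs, card_top, card_A5, inf_eq_left.2 (pker_le_dom θ)] at h1
  rw [← h1, ← card_pmap_mul θ hN] at h
  have h2 : 30 ≤ Nat.card (pmap θ N) := by
    have := Nat.mul_pos (card_pos' (pker θ)) (card_pos' (pker θ ⊓ N))
    nlinarith
  have h3 := (pmap θ N).card_mul_index
  rw [card_A5] at h3
  generalize pmap θ N = S at h2 h3
  have h4 : S.index = 1 ∨ S.index = 2 := by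
    have : S.index ≤ 2 := by nlinarith
    have : S.index ≠ 0 := fun e => by simp [e] at h3
    omega
  rcases h4 with h4 | h4
  · exact index_eq_one.1 h4
  · exact ((normal_of_index_eq_two h4).eq_bot_or_eq_top).resolve_left fun e => by simp [e] at h2

omit [Finite G] in
theorem mem_of_five {S : Subgroup G} (hS : S ≤ 𝐂[b]) (h5 : b ^ 5 = 1) (h4 : y ^ 4 = 1) (h : y ∈ S ⊔ zpowers b) :
    y ∈ S := by
  obtain ⟨l, hl, _, ⟨i, rfl⟩, rfl⟩ := (mem_sup_of_norm_left (norms_zpowers_of_cent1 hS)).1 h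
  have c : Commute l (b ^ i) := (show Commute l b from mem_cent1_iff.1 (hS hl)).zpow_right i
  have e := c.mul_pow 5
  rw [pow_succ, h4, one_mul, ← zpow_natCast (b ^ i), ← zpow_mul, mul_comm, zpow_mul, zpow_natCast, h5, one_zpow,
    mul_one] at e
  exact e ▸ pow_mem hl 5

namespace CS
variable (h : CS ι b a (QM 1) j4) (e : rho8 a = w5)
include h

theorem exists_swap : ∃ x ∈ 𝐂[b], x * ι zs * x⁻¹ = ι (dH 1) ∧ x * ι (dH 1) * x⁻¹ = ι zs ∧ ι (dH 1) ≠ ι zs := by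
  have H0 := hyp_Qm (Q0 := q2 (1 : ZMod 2) 1) (0 : Fin 1)
  have := h.swap' 0 H0.he H0.ne_zero
  rwa [show (⟨j4 _, 0⟩ : Hs) = dH 1 from Heis.ext (by decide +kernel) rfl] at this

omit [Finite G] in
theorem zR : ι zs ∈ ι.range ⊓ 𝐂[b] := ⟨⟨_, rfl⟩, h.zb⟩

theorem ezR : EZ (ι.range ⊓ 𝐂[b]) (ι zs) := by
  obtain ⟨x, hx, e1, -, e2⟩ := h.exists_swap
  exact h.ez_R ⟨⟨_, rfl⟩, e1 ▸ mul_mem (mul_mem hx h.zb) (inv_mem hx)⟩ (e1 ▸ (h.ct.lq.tri ⟨_, e1.symm⟩ (e1 ▸ e2)).not_mem)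

omit h in
theorem comm_zp (h : CT ι) (h1 : Act ι y c) {x : Hs} (e : (rho8 c).1 x.v = x.v) :
    ι x * y * (ι x)⁻¹ * y⁻¹ ∈ zpowers (ι zs) := by
  rw [show ι x * y * (ι x)⁻¹ * y⁻¹ = ι x * (y * ι x * y⁻¹)⁻¹ by group, h1, ← map_inv, ← map_mul, h.lq.ez.mem_zp,
    ← map_one ι, h.inj.eq_iff, h.inj.eq_iff, ← v_eq_zero]
  simp [← rho8_v, e]

theorem exists_thK : ∃ θ : ↥𝐂(ι.range ⊓ 𝐂[b]) →* A5, Function.Surjective θ ∧ pker θ = ι.range ⊓ 𝐂(ι.range ⊓ 𝐂[b]) := by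
  let α := h.ct.al.comp (inclusion (cent_le_cent1 h.zR))
  have h1 : ∀ y, Act ι y.1 (α y) := fun y => h.ct.act_al ⟨y.1, cent_le_cent1 h.zR y.2⟩
  let θ : ↥𝐂(ι.range ⊓ 𝐂[b]) →* ↥(AJ j4' ⊓ E Q8) := (rho8.comp α).codRestrict _ fun y => ⟨fun v hv => by
    obtain ⟨u, rfl⟩ := perp4 v hv
    have := h1 y ⟨j4 u, 0⟩
    rw [← y.2 _ (h.mem_R.2 ⟨u, 0, rfl⟩), mul_inv_cancel_right] at this
    exact (rho8_v _ ⟨j4 u, 0⟩).trans (congrArg Heis.v (h.ct.inj this)).symm, h.ct.mem_AE (h1 y)⟩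
  obtain ⟨e1⟩ := fw5'.nonempty_AE
  obtain ⟨e2⟩ := alt_E1
  refine ⟨(e1.trans e2).toMonoidHom.comp θ, (e1.trans e2).surjective.comp fun g => ?_, Subgroup.ext fun y => ?_⟩
  · obtain ⟨y, c, h2, h3⟩ := h.ct.exists_act g.2.2
    obtain ⟨_, ⟨⟨x, rfl⟩, -⟩, k, hk, rfl⟩ := (mem_sup_of_norm_left (norms_cent le_normalizer)).1
      (h.ezR.mem_sup_cent (x := y) fun q hq => by
        obtain ⟨u, c, rfl⟩ := h.mem_R.1 hq
        exact comm_zp h.ct h2 (h3 ▸ g.2.1 _ (perp4' u)))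
    refine ⟨⟨k, hk⟩, Subtype.ext ?_⟩
    rw [← h3, h2.unique h.ct.inj ((Act.iota x).mul (h1 ⟨k, hk⟩)), map_mul, rho8_conj, one_mul]
    rfl
  · rw [mem_pker, mem_inf, and_comm]
    refine and_congr_left fun k => ?_
    rw [pel_of_mem _ k, MonoidHom.comp_apply, MulEquiv.coe_toMonoidHom, MulEquiv.map_eq_one_iff, Subtype.ext_iff]
    exact ⟨h.ct.mem_range (h1 ⟨y, k⟩), by
      rintro ⟨x, rfl⟩
      exact (congrArg rho8 ((h1 ⟨_, k⟩).unique h.ct.inj (Act.iota x))).trans (rho8_conj x)⟩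

omit [Finite G] in
theorem mem_R' {x : Hs} (hx : ι x ∈ 𝐂(ι.range ⊓ 𝐂[b])) (u : WM 1) : polar Q8 (j4 u) x.v = 0 :=
  (hs_comm_iff (x := ⟨j4 u, 0⟩)).1 (h.ct.inj (by rw [map_mul, map_mul]; exact hx _ (h.mem_R.2 ⟨u, 0, rfl⟩)))

omit [Finite G] h in
theorem bK : b ∈ 𝐂(ι.range ⊓ 𝐂[b]) := mem_cent_iff_le_cent1.2 inf_le_right

theorem cent_K (hy : y ∈ 𝐂[b]) (h1 : Act ι y c) (h2 : rho8 c ∈ AJ j4) : y ∈ 𝐂(𝐂(ι.range ⊓ 𝐂[b])) := by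
  obtain ⟨θ, hs, hk⟩ := h.exists_thK
  have hz := h.ct.lq.ez
  have hR := h.ezR
  have kz := cent_le_cent1 h.zR
  have nK : y ∈ 𝐍(𝐂(ι.range ⊓ 𝐂[b])) := normalizer_le_normalizer_centralizer _
    (inf_normalizer_le_normalizer_inf ⟨h.ct.lq.le_norm h1.cent, le_normalizer hy⟩)
  have m : ∀ x, ι x ∈ 𝐂(ι.range ⊓ 𝐂[b]) → ι x * y * (ι x)⁻¹ * y⁻¹ ∈ zpowers (ι zs) := fun x hx =>
    comm_zp h.ct h1 (h2 _ (h.mem_R' hx))
  have hQ : ι.range ≤ (ι.range ⊓ 𝐂[b]) ⊔ 𝐂(ι.range ⊓ 𝐂[b]) := hR.le_sup_cent (by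
    rw [← hz.der]; exact commutator_mono inf_le_left le_rfl)
  have hb := bK (ι := ι) (b := b)
  have hc := (h.cop.left (K := ι.range ⊓ 𝐂(ι.range ⊓ 𝐂[b])) inf_le_left (norms_inf h.cop.norm
    (norms_self_of_le (zpowers_le.2 hb)))).comm_sup_cent
  have k1 : zpowers y ≤ 𝐂(ι.range ⊓ 𝐂(ι.range ⊓ 𝐂[b])) := by
    rw [← hc, cent_sup]
    refine le_inf (cents_symm (comm_eq_bot_iff.1 (three_subgroup ?_ ?_))) (zpowers_le.2 ?_)
    · rw [(comm_eq_bot_iff' (A := zpowers b)).2 (by rw [cent_zpowers]; exact zpowers_le.2 hy), commutator_bot_left]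
    · refine comm_eq_bot_iff.2 (le_trans ?_ (by rw [cent_zpowers]; exact zpowers_le.2 h.zb : zpowers (ι zs) ≤ _))
      rw [zpowers_eq_closure y]
      refine comm_closure_le (fun _ e q hq => ?_) (by
        rw [← zpowers_eq_closure]; exact norms_zpowers_of_cent1 (zpowers_le.2 h1.cent))
      obtain ⟨⟨x, rfl⟩, hx⟩ := hq
      rw [Set.mem_singleton_iff.1 e]
      convert inv_mem (m x hx) using 1
      group
    · rw [cent_zpowers]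
      exact fun q hq => by
        rcases hz.mem_zp.1 (hR.mem_zp_of_cent ⟨hq.1.1, hq.2⟩ hq.1.2) with rfl | rfl
        exacts [by simp, (mem_cent1_iff.1 h1.cent).symm]
  have nR : 𝐂(ι.range ⊓ 𝐂[b]) ≤ 𝐍(𝐂(ι.range ⊓ 𝐂(ι.range ⊓ 𝐂[b]))) :=
    norms_cent (norms_inf (kz.trans h.ct.lq.le_norm) le_normalizer)
  have k2 : 𝐂[y].relIndex 𝐂(ι.range ⊓ 𝐂[b]) ≤ 2 := by
    refine (relIndex_cent1_le_card fun k hk => ?_).trans_eq hz.card_zp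
    have a1 : ⁅k, y⁆ ∈ 𝐂(ι.range ⊓ 𝐂[b]) := by
      rw [← commutatorElement_inv]; exact inv_mem (commutatorElement_mem_of_mem_norm nK hk)
    have a2 := commutatorElement_mem_of_mem_norm (nR hk) (k1 (mem_zpowers y))
    refine hz.mem_zp.2 (h.ct.ker ⁅k, y⁆ fun x => ?_)
    obtain ⟨r, hr, s, hs, e⟩ := (mem_sup_of_norm_left (norms_cent le_normalizer)).1 (hQ ⟨x, rfl⟩)
    have hs' : s ∈ ι.range := by rw [← inv_mul_cancel_left r s, e]; exact mul_mem (inv_mem hr.1) ⟨x, rfl⟩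
    rw [MulAut.one_apply, mul_inv_eq_iff_eq_mul, ← e, ← mul_assoc, ← a1 r hr, mul_assoc, ← a2 s ⟨hs', hs⟩, mul_assoc]
  have k3 := pmap_A5 hs (N := 𝐂[y] ⊓ 𝐂(ι.range ⊓ 𝐂[b])) inf_le_right (by
    rw [← card_inf_mul_relIndex 𝐂[y] 𝐂(ι.range ⊓ 𝐂[b])]
    have := Nat.mul_le_mul k2 (card_le_of_le' (inf_le_left : pker θ ⊓ (𝐂[y] ⊓ 𝐂(ι.range ⊓ 𝐂[b])) ≤ _))
    nlinarith)
  have k4 := (pmap_le_pmap_iff le_rfl inf_le_right).1 (k3 ▸ le_top : pmap θ _ ≤ _)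
  exact mem_cent_iff_le_cent1.2 (k4.trans (sup_le (hk ▸ mem_cent_iff_le_cent1.1 (k1 (mem_zpowers y))) inf_le_left))

theorem Cz_le : 𝐂[ι zs] ⊓ 𝐂[b] ≤ 𝐂(𝐂(ι.range ⊓ 𝐂[b])) ⊔ zpowers b := fun y hy => by
  obtain ⟨c, hc, h1⟩ := h.ct.ex y hy.1
  obtain ⟨k, hk, i, e⟩ := (h.fw.split hc (h.comm_w hy.2 h1)).2
  have hp : Act ι (b ^ i) (a ^ i) := by
    rcases i with k | k
    · simpa using h.act.pow k
    · simpa using (h.act.pow (k + 1)).inv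
  rw [← inv_mul_cancel_right y (b ^ i)]
  refine mul_mem (mem_sup_left (h.cent_K (mul_mem hy.2 (inv_mem (zpow_mem (self_mem_cent1 b) i))) (h1.mul hp.inv) ?_))
    (mem_sup_right ⟨i, rfl⟩)
  rw [map_mul, map_inv, map_zpow, show rho8 a ^ i = _ from e]
  simpa using hk.1

include e
theorem exists_inv : ∃ t ∈ 𝐂[ι zs] ⊓ 𝐂[b], t * t = 1 ∧ t ≠ 1 ∧ ¬ IsConj (ι zs) t := by
  obtain ⟨x, hx, e1, -, e2⟩ := h.exists_swap
  have T := h.ct.lq.tri (g := x) ⟨_, e1.symm⟩ (e1 ▸ e2)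
  rw [e1] at T
  have hq : ι (dH 1) ∈ 𝐂[b] := e1 ▸ mul_mem (mul_mem hx h.zb) (inv_mem hx)
  obtain ⟨c, F, e3⟩ := h.ct.exists_Fb T (u := d8 68) (by rw [B_d8]; rfl)
  obtain ⟨s, h1⟩ := h.ct.ex' c (show rho8 c ∈ E Q8 from e3 ▸ eich_mem_E _ _)
  have hs := (h.ct.mem_P_iff T h1).2 F
  have r8 := r8_eich (u := 1) (w := 68) rfl
  have hV : s⁻¹ * (b * s * b⁻¹) ∈ zpowers (ι zs) ⊔ zpowers (ι (dH 1)) := h.ct.inf_le T ⟨h.ct.mem_range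
    (h1.inv.mul ((h.act.mul h1).mul h.act.inv)) (by
      rw [map_mul, map_mul, map_mul, map_inv, map_inv, e3, e, conj_eich, r8_w5, r8_w5, inv_mul_eq_one]; rfl),
    (mul_mem (inv_mem hs) (conj_mem_of_mem_normalizer (T.r.le_norm (mem_cent1_comm.1 hq)) hs) : _ ∈ cj x ι.range)⟩
  have hb : s ∈ 𝐂[b] := by
    have := cent_of_odd (s := s) h.odd (by
      rcases T.memV.1 hV with k | k | k | k <;> rw [k]
      exacts [one_mul _, T.zsq, T.xsq, by rw [mul_assoc, ← mul_assoc _ (ι zs), T.xz, mul_assoc, T.xsq, mul_one, T.zsq]]) (conj_eq_iff_mem_cent1.2 (mem_cent1_comm.1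
      (sup_le (zpowers_le.2 h.zb) (zpowers_le.2 hq) hV))) (by group)
    exact mem_cent1_comm.1 (conj_eq_iff_mem_cent1.1 (inv_mul_eq_one.1 this).symm)
  have key : ∀ t c, Act ι t c → rho8 c = eich Q8 (d8 1) (d8 68) → t ∈ 𝐂[b] → t * t = 1 →
      ∃ t ∈ 𝐂[ι zs] ⊓ 𝐂[b], t * t = 1 ∧ t ≠ 1 ∧ ¬ IsConj (ι zs) t := fun t c k1 k2 k3 k4 =>
    ⟨t, ⟨k1.cent, k3⟩, k4, fun k => by
      have := r8 16
      rw [← k2, k1.unique h.ct.inj (k ▸ Act.one), map_one] at this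
      exact absurd this (by decide +kernel), h.ct.not_conj k1 k2⟩
  rcases T.r.ez.sq_or hs with k | k
  · exact key _ _ h1 e3 hb k
  refine key _ _ (h1.mul (Act.iota (dH 140))) (by rw [map_mul, rho8_conj, mul_one, e3])
    (mul_mem hb (h.cent_iff.2 ⟨(0, 0, ![0, 1]), by decide +kernel⟩)) ?_
  have k1 : c (dH 140) = zs * dH 1 * dH 140 := by
    have k2 : zs * dH 1 * (zs * dH 1) = 1 := by rw [← dH_256, ← dH_hm, ← dH_hm]; exact dH_zero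
    rcases (mem_zp2 k2).1 (F.2 (dH 140) (by rw [← dH_hm, ← dH_hm]; rfl)) with k3 | k3
    · have := rho8_v c (dH 140)
      rw [← mul_inv_eq_one.1 k3, e3, dH_v, r8] at this
      exact absurd this (by decide +kernel)
    · rw [← inv_eq_of_mul_eq_one_right k2, ← k3]; group
  rw [show s * ι (dH 140) * (s * ι (dH 140)) = s * ι (dH 140) * s⁻¹ * (s * s) * ι (dH 140) by group, h1, k, k1,
    ← map_mul, ← map_mul, ← dH_256, ← dH_hm, ← dH_hm, ← dH_hm, ← dH_hm, ← map_one ι, ← dH_zero]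
  rfl

section swap
variable (hx : x ∈ 𝐂[b]) (e1 : x * ι zs * x⁻¹ = ι (dH 1)) (e2 : x * ι (dH 1) * x⁻¹ = ι zs) (e3 : ι (dH 1) ≠ ι zs)
  (h5 : b ^ 5 = 1)
include hx

omit [Finite G] h e in
theorem bK' : b ∈ cj x 𝐂(ι.range ⊓ 𝐂[b]) := by
  rw [mem_cj, mul_assoc, ← mem_cent1_iff.1 hx, inv_mul_cancel_left]; exact bK

include e2
theorem inf_bot : (ι.range ⊓ 𝐂(ι.range ⊓ 𝐂[b])) ⊓ cj x 𝐂(ι.range ⊓ 𝐂[b]) = ⊥ := by
  have hb : b ∈ 𝐍((ι.range ⊓ 𝐂(ι.range ⊓ 𝐂[b])) ⊓ cj x 𝐂(ι.range ⊓ 𝐂[b])) := inf_normalizer_le_normalizer_inf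
    ⟨inf_normalizer_le_normalizer_inf ⟨h.ct.lq.le_norm h.bz, le_normalizer bK⟩, le_normalizer (bK' hx)⟩
  have hz : ι zs ∉ (ι.range ⊓ 𝐂(ι.range ⊓ 𝐂[b])) ⊓ cj x 𝐂(ι.range ⊓ 𝐂[b]) := fun k => by
    have := h.mem_R' (conj_inv_of e2 ▸ mem_cj.1 k.2) (0, 1, 0)
    rw [show j4 (0, 1, 0) = d8 16 by decide +kernel, dH_v, B_d8] at this
    exact absurd this (by decide)
  have hl : ∀ y, ι y ∈ (ι.range ⊓ 𝐂(ι.range ⊓ 𝐂[b])) ⊓ cj x 𝐂(ι.range ⊓ 𝐂[b]) → ∀ u, polar Q8 (j4 u) y.v = 0 :=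
    fun y k => h.mem_R' k.1.2
  have hr : (ι.range ⊓ 𝐂(ι.range ⊓ 𝐂[b])) ⊓ cj x 𝐂(ι.range ⊓ 𝐂[b]) ≤ ι.range := inf_le_left.trans inf_le_left
  generalize (ι.range ⊓ 𝐂(ι.range ⊓ 𝐂[b])) ⊓ cj x 𝐂(ι.range ⊓ 𝐂[b]) = T at hb hz hl hr
  have k1 : ∀ y, ι y ∈ T → ι (a y) ∈ T := fun y k => h.act y ▸ conj_mem_of_mem_normalizer hb k
  have k2 : ∀ y y', ι y ∈ T → ι y' ∈ T → polar Q8 y.v y'.v ≠ 1 := fun y y' k k' e => hz (by
    have := mul_mem (mul_mem k k') (inv_mem (mul_mem k' k))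
    rwa [← map_mul, ← map_mul, ← map_inv, ← map_mul, hs_comm y, e, mul_inv_cancel_right] at this)
  have k3 : ∀ m < 256, (∀ u, polar Q8 (j4 u) (d8 m) = 0) → d8 m = 0 ∨ bC m (rK [136, 76, 168, 138] m) = true ∨
      bC m (rK [136, 76, 168, 138] (rK [136, 76, 168, 138] m)) = true := by
    simp only [← b8_polar, b8_apply]
    decide +kernel
  refine eq_bot_iff.2 fun t ht => ?_
  obtain ⟨y, rfl⟩ := hr ht
  obtain ⟨m, hm, e4⟩ := d8_surj y.v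
  rcases k3 m hm (e4 ▸ hl y ht) with k | k | k
  · rcases v_eq_zero.1 (e4.trans k) with rfl | rfl
    exacts [map_one ι, absurd ht hz]
  · exact absurd (by rw [← rho8_v, e, e4, r8_w5, B_d8, k]; rfl) (k2 _ _ ht (k1 _ ht))
  · exact absurd (by rw [← rho8_v, ← rho8_v, e, e4, r8_w5, r8_w5, B_d8, k]; rfl) (k2 _ _ ht (k1 _ (k1 _ ht)))

include e1
omit e in
theorem norm_D : 𝐂[ι zs] ⊓ 𝐂[b] ≤ 𝐍(𝐂(ι.range ⊓ 𝐂[b]) ⊓ cj x 𝐂(ι.range ⊓ 𝐂[b])) ∧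
    x ∈ 𝐍(𝐂(ι.range ⊓ 𝐂[b]) ⊓ cj x 𝐂(ι.range ⊓ 𝐂[b])) := by
  refine ⟨h.Cz_le.trans (sup_le (norms_of_cents (cent_mono inf_le_left)) (norms_self_of_le
    (zpowers_le.2 ⟨bK, bK' hx⟩))), mem_normalizer_iff_cj.2 ?_⟩
  rw [cj_inf, cj_cj, inf_comm, cj_eq_of_mem_normalizer (sup_le (norms_of_cents le_rfl) (norms_self_of_le
    (zpowers_le.2 bK)) (h.Cz_le ⟨conj_eq_iff_mem_cent1.1 (by
      rw [show x * x * ι zs * (x * x)⁻¹ = x * (x * ι zs * x⁻¹) * x⁻¹ by group, e1, e2]), mul_mem hx hx⟩))]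

include e3 h5
theorem nonempty_D : Nonempty (↥(𝐂(ι.range ⊓ 𝐂[b]) ⊓ cj x 𝐂(ι.range ⊓ 𝐂[b])) ≃* A5) := by
  obtain ⟨θ, hs, hk⟩ := h.exists_thK
  have hz := h.ct.lq.ez
  have T := h.ct.lq.tri (g := x) ⟨_, e1.symm⟩ (e1 ▸ e3)
  rw [e1] at T
  have i := h.inf_bot e hx e2
  have hr : ι (dH 16) ∈ ι.range ⊓ 𝐂[b] := ⟨⟨_, rfl⟩, h.cent_iff.2 ⟨(0, 1, 0), by decide +kernel⟩⟩
  have z1 : ι zs ∈ (ι.range ⊓ 𝐂[b]) ⊓ 𝐂[ι (dH 1)] := ⟨h.zR, mem_cent1_iff.2 T.xz.symm⟩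
  have b1 : cj x 𝐂(ι.range ⊓ 𝐂[b]) ≤ 𝐂((ι.range ⊓ 𝐂[b]) ⊓ 𝐂[ι (dH 1)]) := by
    rw [cents_comm, ← cj_centralizer]
    intro r hr
    refine mem_cj.2 (mem_of_five (cent_le_cent1 bK) h5 ?_ (h.Cz_le (mem_inf.2 ⟨?_,
      mul_mem (mul_mem (inv_mem hx) hr.1.2) hx⟩)))
    · obtain ⟨y, rfl⟩ := hr.1.1
      rw [← inv_inv x, inv_inv x⁻¹, conj_pow, iota_four]; simp
    · rw [← mem_cj, cj_centralizer_singleton, e1]; exact hr.2
  have b3 : 𝐂((ι.range ⊓ 𝐂[b]) ⊓ 𝐂[ι (dH 1)]) ⊓ 𝐂[ι (dH 16)] ≤ 𝐂(ι.range ⊓ 𝐂[b]) := fun k hk y hy => by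
    rcases T.mem_or hr.1 (by rw [← map_inv, ← map_mul, ← map_mul, conj_16, map_mul]) hy.1 with c | c
    · exact hk.1 y ⟨hy, c⟩
    · rw [← mul_inv_cancel_left (ι (dH 16)) y, mul_assoc, hk.1 _ (mem_inf.2 ⟨mul_mem (inv_mem hr) hy, c⟩), ← mul_assoc,
        ← mem_cent1_iff.1 hk.2, mul_assoc]
  have nr := norms_cent (hz.norm_of_le z1 (inf_le_left.trans inf_le_left)) hr.1
  have kz := cent_le_cent1 z1
  generalize 𝐂((ι.range ⊓ 𝐂[b]) ⊓ 𝐂[ι (dH 1)]) = C at b1 b3 nr kz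
  have b2 : 𝐂[ι (dH 16)].relIndex (cj x 𝐂(ι.range ⊓ 𝐂[b])) ≤ Nat.card ↥(ι.range ⊓ C) :=
    relIndex_cent1_le_card fun k hk => mem_inf.2 ⟨commutatorElement_mem_of_mem_norm (h.ct.lq.le_norm (kz (b1 hk))) hr.1, by
      rw [← commutatorElement_inv]; exact inv_mem (commutatorElement_mem_of_mem_norm nr (b1 hk))⟩
  have b4 : 𝐂[ι (dH 16)].relIndex (ι.range ⊓ C) ≤ 2 :=
    (relIndex_cent1_le_card fun k hk => hz.comm_mem (mem_inf.1 hk).1 hr.1).trans_eq hz.card_zp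
  have b5 : Nat.card ↥(𝐂[ι (dH 16)] ⊓ (ι.range ⊓ C)) ≤ Nat.card (pker θ) :=
    card_le_of_le' fun k c => hk ▸ ⟨c.2.1, b3 ⟨c.2.2, c.1⟩⟩
  have b6 : Nat.card ↥(𝐂[ι (dH 16)] ⊓ cj x 𝐂(ι.range ⊓ 𝐂[b])) ≤
      Nat.card ↥(𝐂(ι.range ⊓ 𝐂[b]) ⊓ cj x 𝐂(ι.range ⊓ 𝐂[b])) := card_le_of_le' fun k c => ⟨b3 ⟨b1 c.2, c.1⟩, c.2⟩
  have i' : pker θ ⊓ (𝐂(ι.range ⊓ 𝐂[b]) ⊓ cj x 𝐂(ι.range ⊓ 𝐂[b])) = ⊥ :=
    eq_bot_iff.2 fun k c => i.le ⟨hk ▸ c.1, c.2.2⟩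
  have k3 := pmap_A5 hs inf_le_left (by
    rw [i', card_bot, mul_one, ← card_cj x, ← card_inf_mul_relIndex 𝐂[ι (dH 16)], mul_comm]
    exact Nat.mul_le_mul (b2.trans (by
      rw [← card_inf_mul_relIndex 𝐂[ι (dH 16)], mul_comm]; exact Nat.mul_le_mul b4 b5)) b6)
  refine ⟨MulEquiv.ofBijective (θ.comp (inclusion inf_le_left)) ⟨(injective_iff_map_eq_one _).2 fun k c =>
    Subtype.ext (i'.le ⟨mem_pker.2 ⟨k.2.1, (pel_of_mem _ _).trans c⟩, k.2⟩), fun g => ?_⟩⟩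
  obtain ⟨k, c, rfl⟩ := mem_pmap.1 (k3.ge (mem_top g))
  exact ⟨⟨k, c⟩, rfl⟩

end swap

theorem isoJ2 {H : Type*} [Group H] {D : Subgroup G} {f : D →* H} (h1 : 𝐂[ι zs] ⊓ 𝐂[b] ≤ D) (h2 : D ≤ 𝐂[b])
    (hf : Function.Surjective f) (hk : pker f = zpowers b) (hx : x ∈ D) (e1 : x * ι zs * x⁻¹ = ι (dH 1))
    (e3 : ι (dH 1) ≠ ι zs) : Spor.IsoJ2 H := by
  haveI : Finite H := Finite.of_surjective f hf
  haveI := simple_E1
  haveI : Finite (E (QM 1)) := Nat.finite_of_card_ne_zero (by rw [card_E1']; norm_num)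
  obtain ⟨_, -, -, s, ⟨e'⟩⟩ := h.setting h1 h2 hf hk (card_WM 1) (pCore_of_simple (by rw [card_E1']; norm_num)) hx
    ⟨_, e1.symm⟩ (e1 ▸ e3)
  obtain ⟨e''⟩ := omM1
  obtain ⟨t, t1, t2, t3, t4⟩ := h.exists_inv e
  refine (CoT.J.j2_iso s.1 _ s.2.1 s.2.2.1 s.2.2.2.1 (e'.trans e'') s.2.2.2.2 ⟨_, pel f t, s.1, orderOf_eq_prime
    (by rw [_root_.sq, ← pel_mul f (h1 t1) (h1 t1), t2, pel_one]) fun k => t3
      (h.eq_of_pel h2 hk (h1 t1) (one_mem _) t2 (one_mul _) (k.trans (pel_one f).symm)), fun k => t4 ?_⟩).1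
  obtain ⟨g, k⟩ := isConj_iff.1 k
  obtain ⟨g, rfl⟩ := hf g
  exact isConj_iff.2 ⟨g, h.conj_of_pel h1 h2 hk g.2 (h1 t1) t2 (by rwa [pel_coe])⟩

theorem card_J2 {D : Subgroup G} (h1 : 𝐂[ι zs] ⊓ 𝐂[b] ≤ D) (h2 : D ≤ 𝐂[b]) (hx : x ∈ D)
    (e1 : x * ι zs * x⁻¹ = ι (dH 1)) (e3 : ι (dH 1) ≠ ι zs) : Nat.card D = Nat.card Spor.J2 * Nat.card (zpowers b) := by
  have l : zpowers b ≤ D := zpowers_le.2 (h1 ⟨h.bz, self_mem_cent1 b⟩)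
  haveI := (normal_subgroupOf_iff_le_normalizer l).2 (norms_zpowers_of_cent1 h2)
  obtain ⟨f⟩ := h.isoJ2 e h1 h2 (QuotientGroup.mk'_surjective _) (Ex2.pker_mk' l) hx e1 e3
  rw [card_eq_card_quotient_mul_card_subgroup ((zpowers b).subgroupOf D), Nat.card_congr f.toEquiv,
    Nat.card_congr (subgroupOfEquivOfLe l).toEquiv]

theorem j2_main (h5 : b ^ 5 = 1) : Spor.IsoJ2 (lay 𝐂[b]) ∧ Nonempty (↥𝐂(lay 𝐂[b]) ≃* A5) := by
  obtain ⟨x, hx, e1, e2, e3⟩ := h.exists_swap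
  obtain ⟨eD⟩ := h.nonempty_D e hx e1 e2 e3 h5
  obtain ⟨n1, n2⟩ := h.norm_D hx e1 e2
  have bD : b ∈ 𝐂(ι.range ⊓ 𝐂[b]) ⊓ cj x 𝐂(ι.range ⊓ 𝐂[b]) := ⟨bK, bK' hx⟩
  have zD : ι zs ∈ 𝐂(𝐂(ι.range ⊓ 𝐂[b]) ⊓ cj x 𝐂(ι.range ⊓ 𝐂[b])) := cent_mono inf_le_left (le_cent_cent _ h.zR)
  have lD : ∀ L : Subgroup G, 𝐂[b] ≤ 𝐍(L) → ι.range ⊓ 𝐂[b] ≤ L →
      𝐂(L) ≤ 𝐂(ι.range ⊓ 𝐂[b]) ⊓ cj x 𝐂(ι.range ⊓ 𝐂[b]) := fun L k1 k2 => le_inf (cent_mono k2) (by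
    rw [cj_centralizer]; exact cent_mono ((cj_mono x k2).trans_eq (cj_eq_of_mem_normalizer (k1 hx))))
  generalize 𝐂(ι.range ⊓ 𝐂[b]) ⊓ cj x 𝐂(ι.range ⊓ 𝐂[b]) = D at eD n1 n2 bD zD lD
  have hN : 𝐂[b] ≤ 𝐍(D) := inf_eq_left.1 (eq_of_le_of_card_le inf_le_left (by
    rw [h.card_J2 e (le_inf inf_le_right n1) inf_le_left ⟨hx, n2⟩ e1 e3, h.card_J2 e inf_le_right le_rfl hx e1 e3]))
  have hk := Ex2.pker_mk' (zpowers_le.2 (self_mem_cent1 b))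
  have hf := QuotientGroup.mk'_surjective ((zpowers b).subgroupOf 𝐂[b])
  generalize QuotientGroup.mk' ((zpowers b).subgroupOf 𝐂[b]) = f at hk hf
  obtain ⟨s1, s2, _, s3, -⟩ := h.section simple_E1 (by rw [card_E1']; norm_num) rfl hf hk
  obtain ⟨eJ⟩ := h.isoJ2 e inf_le_right le_rfl hf hk hx e1 e3
  have ht : pmap f 𝐂[b] = ⊤ := (pmap_dom f).trans (MonoidHom.range_eq_top.2 hf)
  have k1 : pmap f (𝐂[b] ⊓ 𝐂(D)) = ⊤ := ((normalIn_top_iff.1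
    (ht ▸ (normalIn_inf_of_norm (norms_cent hN)).pmap f)).eq_bot_or_eq_top).resolve_left fun k => by
      have := s3.1
      rw [mem_bot.1 (k.le (pel_mem_pmap f (mem_inf.2 ⟨h.zb, zD⟩))), orderOf_one] at this
      cases this
  have k2 : ⁅𝐂[b], 𝐂[b]⁆ ≤ 𝐂(D) := by
    have := (pmap_le_pmap_iff le_rfl inf_le_left).1 (ht.trans k1.symm).le
    rw [hk, sup_comm] at this
    exact ((der_mono this).trans (der_le_of_sup_zpowers (norms_of_cents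
      (zpowers_le.2 (mem_cent_iff_le_cent1.2 inf_le_left)) (mem_zpowers b)))).trans inf_le_right
  have k3 : pmap f ⁅𝐂[b], 𝐂[b]⁆ = ⊤ := by
    rw [pmap_commutator f le_rfl le_rfl, ht]
    exact (qs_of_central (π := MonoidHom.id _) Function.surjective_id s2 (by simp) (by simp)).1.1
  let eL : ↥⁅𝐂[b], 𝐂[b]⁆ ≃* _ := MulEquiv.ofBijective (f.comp (inclusion (der_le _)))
    ⟨(injective_iff_map_eq_one _).2 fun k c => by
      have c1 : k.1 ∈ D := zpowers_le.2 bD (hk ▸ mem_pker.2 ⟨der_le _ k.2, (pel_of_mem _ _).trans c⟩)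
      have c2 : eD ⟨k, c1⟩ ∈ center A5 := Subgroup.mem_center_iff.2 fun g => by
        obtain ⟨g, rfl⟩ := eD.surjective g
        rw [← map_mul, ← map_mul]
        exact congrArg eD (Subtype.ext (k2 k.2 _ g.2))
      rw [alternatingGroup.center_eq_bot (by simp), mem_bot, MulEquiv.map_eq_one_iff] at c2
      exact Subtype.ext (congrArg Subtype.val c2 :), fun g => by
      obtain ⟨k, c, rfl⟩ := mem_pmap.1 (k3.ge (mem_top g))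
      exact ⟨⟨k, c⟩, rfl⟩⟩
  have eK := (MonoidHom.ker_eq_bot_iff eL.toMonoidHom).2 eL.injective
  have k4 : lay 𝐂[b] = ⁅𝐂[b], 𝐂[b]⁆ := le_antisymm ((lay_der _).ge.trans (der_mono (lay_le _)))
    (CompIn.le_lay ⟨(der_normalIn _).subnormalIn, isQuasisimple_iff.1
      (qs_of_central (π := eL.toMonoidHom) eL.surjective s2 (eK ▸ bot_le) (eK ▸ bot_le))⟩)
  have k5 : 𝐂(⁅𝐂[b], 𝐂[b]⁆) = D := le_antisymm (lD _ (der_normalIn _).2 fun r hr => mem_of_five (der_le _) h5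
    (by obtain ⟨y, rfl⟩ := hr.1; exact iota_four y) (by
      rw [sup_comm, ← hk]; exact (pmap_le_pmap_iff le_rfl (der_le _)).1 (ht.trans k3.symm).le hr.2)) (cents_symm k2)
  rw [k4, k5]
  exact ⟨⟨eL.trans eJ⟩, ⟨eD⟩⟩

end CS

theorem CT.j2_main (h : CT ι) {B : Subgroup G} (hB : B ≤ 𝐂[ι zs]) (h5 : Nat.card B = 5)
    (hc : 2 < Nat.card ↥(ι.range ⊓ 𝐂(B))) : Spor.IsoJ2 (layer ↥𝐂(B)) ∧ Nonempty (↥𝐂(lay 𝐂(B)) ≃* A5) := by
  haveI := Fact.mk Nat.prime_five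
  obtain ⟨b, rfl⟩ := (Subgroup.isCyclic_iff_exists_zpowers_eq_top B).1 (isCyclic_of_prime_card h5)
  obtain ⟨a, ha, h1⟩ := h.ex b (hB (mem_zpowers b))
  have ho := (Nat.card_zpowers b).symm.trans h5
  have o := h.ord_rho h1 Nat.prime_five (by decide) ho
  obtain ⟨_, ⟨⟨y, rfl⟩, y1⟩, y2⟩ := SetLike.not_le_iff_exists.1 fun k : ι.range ⊓ 𝐂(zpowers b) ≤ zpowers (ι zs) =>
    absurd (card_le_of_le' k) (by rw [h.lq.ez.card_zp]; omega)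
  obtain ⟨k, -, e⟩ := conj5 ha o (v := y.v) (fun k => y2 (by
    rcases v_eq_zero.1 k with rfl | rfl
    exacts [map_one ι ▸ one_mem _, mem_zpowers _])) (by
      rw [rho8_v, ← h.inj ((h1 y).symm.trans (by rw [y1 b (mem_zpowers b), mul_inv_cancel_right])).symm])
  obtain ⟨ι', a', -, -, h2, h3, e1⟩ := h.exists_comp h1 k
  have o' : orderOf (rho8 a') = 5 := h2.ord_rho h3 Nat.prime_five (by decide) ho
  obtain ⟨i, -, e2⟩ := exists_pow_lt o' (by norm_num) (show w5 ∈ _ from eq_zpowers_of_prime_card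
    (by rw [Nat.card_zpowers, ord_w5]; exact Nat.prime_five) (e1 ▸ e) (fun k => by simp [k] at o') ▸ mem_zpowers w5)
  rw [← map_pow] at e2
  have b1 : b ^ i ≠ 1 := fun k => by
    have := ord_w5
    rw [e2, (h3.pow i).unique h2.inj (k ▸ Act.one), map_one, orderOf_one] at this
    cases this
  have b5 : (b ^ i) ^ 5 = 1 := by rw [← pow_mul, mul_comm, pow_mul, ← ho, pow_orderOf_eq_one, one_pow]
  rw [eq_zpowers_of_prime_card (h5 ▸ Nat.prime_five) (pow_mem (mem_zpowers b) i) b1, cent_zpowers]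
  obtain ⟨⟨f⟩, k2⟩ := CS.j2_main ⟨h2, h3.pow i, e2 ▸ fw5, by rw [orderOf_eq_prime b5 b1]; decide⟩ e2.symm b5
  exact ⟨⟨(equivMapOfInjective _ _ (subtype_injective _)).trans f⟩, k2⟩

end CA.Co
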