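import Cfsg.Agent.Lib.Co.Sec4
import Cfsg.Agent.Lib.CoT.Sz2

/-!
The centraliser `3.Suz` in a group of Conway type.
-/

set_option autoImplicit false

namespace CA.Co
open Cfsg CA.Gol CA CA.Ex2 CA.Core CA.Orth Subgroup QuadraticMap
open scoped commutatorElement

variable {G : Type*} [Group G] {ι : Hs →* G} {a : MulAut Hs} {b y : G}

theorem range_comp_aut (r : MulAut Hs) : (ι.comp r.toMonoidHom).range = ι.range := by
  rw [MonoidHom.range_comp, MonoidHom.range_eq_top.2 r.surjective, ← MonoidHom.range_eq_map]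

theorem comp_zs (r : MulAut Hs) : ι.comp r.toMonoidHom zs = ι zs := congrArg ι (aut_zs r)

theorem iota_four (x : Hs) : ι x ^ 4 = 1 := by
  rw [← map_pow, show x ^ 4 = x * x * (x * x) by simp only [pow_succ, pow_zero, one_mul, mul_assoc], hs_sq x, hs_sq, zk_v, map_zero]
  exact map_one ι

theorem CT.ord_rho (h : CT ι) (h1 : Act ι b a) {p : ℕ} (hp : p.Prime) (h2 : p ≠ 2) (ho : orderOf b = p) :
    orderOf (rho8 a) = p := by
  haveI := Fact.mk hp
  refine orderOf_eq_prime ?_ fun k => ?_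
  · rw [← map_pow, (h1.pow p).unique h.inj (by rw [← ho, pow_orderOf_eq_one]; exact Act.one), map_one]
  · obtain ⟨x, rfl⟩ := h.mem_range h1 k
    exact h2 ((Nat.prime_dvd_prime_iff_eq hp Nat.prime_two).1 (hp.dvd_of_dvd_pow (n := 2)
      (ho ▸ orderOf_dvd_of_pow_eq_one (iota_four x))))

/-- change of coordinates -/
theorem CT.exists_comp (h : CT ι) (h1 : Act ι b a) (k : O Q8) : ∃ (ι' : Hs →* G) (a' : MulAut Hs),
    ι' zs = ι zs ∧ ι'.range = ι.range ∧ CT ι' ∧ Act ι' b a' ∧ rho8 a' = k * rho8 a * k⁻¹ := by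
  obtain ⟨r, hr⟩ := rho8_surj k⁻¹
  exact ⟨_, _, comp_zs r, range_comp_aut r, h.comp r, h1.comp r, by simp [hr]⟩

theorem CT.norm3 [Finite G] (h : CT ι) (hb : b ∈ 𝐂[ι zs]) (ho : orderOf b = 3)
    (hc : Nat.card ↥⁅ι.range, zpowers b⁆ ≤ 8) (hz : ι zs ∈ ⁅ι.range, zpowers b⁆) : ∃ (ι' : Hs →* G) (a' : MulAut Hs),
    ι' zs = ι zs ∧ ι'.range = ι.range ∧ CT ι' ∧ Act ι' b a' ∧ rho8 a' = w3 := by
  obtain ⟨a, -, h1⟩ := h.ex b hb
  have m : ∀ x : Hs, ι (a x * x⁻¹) ∈ ⁅ι.range, zpowers b⁆ := fun x => by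
    rw [map_mul, map_inv, ← h1 x, commutator_comm]
    exact commutator_mem_commutator (mem_zpowers b) ⟨x, rfl⟩
  generalize ⁅ι.range, zpowers b⁆ = K at hc hz m
  have m2 : ∀ x y : Hs, x.v = y.v → ι y ∈ K → ι x ∈ K := fun x y e k => by
    rcases eq_or_of_v e with rfl | rfl
    exacts [k, map_mul ι y zs ▸ mul_mem k hz]
  obtain ⟨k, -, e⟩ := conj3 (h.ord_rho h1 Nat.prime_three (by decide) ho) (S := {v | ι ⟨v, 0⟩ ∈ K}) (by
    have := Nat.card_le_card_of_injective (fun p : {v | ι ⟨v, 0⟩ ∈ K} × ZMod 2 =>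
      (⟨ι ⟨p.1.1, p.2⟩, m2 _ ⟨p.1.1, 0⟩ rfl p.1.2⟩ : K)) fun p q e => by
        have := h.inj (congrArg Subtype.val e)
        exact Prod.ext (Subtype.ext (congrArg Heis.v this)) (congrArg Heis.a this)
    rw [Nat.card_prod, Nat.card_zmod, Nat.card_coe_set_eq] at this
    omega) fun v => m2 _ _ (by simp [← rho8_v, v8_neg]) (m ⟨v, 0⟩)
  exact e ▸ h.exists_comp h1 k

variable [Finite G] {H : Type*} [Group H] {D : Subgroup G} {f : D →* H}

theorem CS.suz (h : CS ι y a (QM 2) j6) (hD : D = 𝐂[y]) (hf : Function.Surjective f) (hk : pker f = zpowers y) :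
    IsSimpleGroup H ∧ ¬ IsMulCommutative H ∧ Nonempty (H ≃* Spor.Suz) ∧ ∀ b ∈ 𝐂[ι zs] ⊓ 𝐂[y], orderOf (pel f b) = 3 →
      Nat.card ↥⁅ι.range, zpowers b⁆ ≤ 8 → ⁅𝐂[pel f b], 𝐂[pel f b]⁆ = 𝐂[pel f b] := by
  haveI : Finite H := Finite.of_surjective f hf
  obtain ⟨s1, s2, s3, s4, ⟨e⟩⟩ := h.section simple_E2 (by rw [card_E2']; norm_num) hD hf hk
  obtain ⟨e'⟩ := omM2
  obtain ⟨g, g1, g2, g3⟩ := CoT.S.sz_of s4.1 _ s4.2.1 s4.2.2.1 s4.2.2.2.1 (e.trans e') s4.2.2.2.2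
  refine ⟨s1, s2, g3.main.1, fun b hb ho hc => ?_⟩
  subst hD
  haveI : ((zpowers (pel f b)).subgroupOf 𝐂(zpowers (pel f b))).Normal := by
    rw [cent_zpowers]; infer_instance
  have := ((g3.three (y := pel f b) (by
    rw [g1, ← h.pmap_C inf_le_right le_rfl hf hk]; exact pel_mem_pmap f hb) ho ?_).main rfl).1.1
  · rwa [cent_zpowers, isPerfect_iff] at this
  · rw [g2, subgroupOf_map_subtype, ← pmap_zpowers f hb.2]
    refine le_trans (Nat.le_of_dvd Nat.card_pos ((card_dvd_of_le ?_).trans (card_pmap_dvd f _))) hc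
    refine le_trans (commutator_mono inf_le_left le_rfl) ?_
    rw [← pmap_commutator f inf_le_right (zpowers_le.2 hb.2)]
    exact pmap_mono f (commutator_mono inf_le_left le_rfl)

theorem CS.suz_key (h : CS ι y a (QM 2) j6) (hb : b ∈ 𝐂[ι zs] ⊓ 𝐂[y]) (ho : orderOf b = 3) (hn : b ∉ zpowers y)
    (hc : Nat.card ↥⁅ι.range, zpowers b⁆ ≤ 8) : b ∈ zpowers y ⊔ ⁅𝐂[b], 𝐂[b]⁆ := by
  haveI := Fact.mk Nat.prime_three
  have hk := Ex2.pker_mk' (zpowers_le.2 (self_mem_cent1 y))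
  have hf := QuotientGroup.mk'_surjective ((zpowers y).subgroupOf 𝐂[y])
  generalize QuotientGroup.mk' ((zpowers y).subgroupOf 𝐂[y]) = f at hk hf
  have e := (h.suz rfl hf hk).2.2.2 b hb (orderOf_eq_prime (by rw [← pel_pow f hb.2, ← ho, pow_orderOf_eq_one, pel_one])
    fun k => hn (hk ▸ mem_pker.2 ⟨hb.2, k⟩)) hc
  have hP := pcomap_le_dom f 𝐂[pel f b]
  have e1 : pmap f (pcomap f 𝐂[pel f b]) = 𝐂[pel f b] :=
    pmap_pcomap_of_le (by rw [MonoidHom.range_eq_top.2 hf]; exact le_top)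
  have hbP : b ∈ pcomap f 𝐂[pel f b] := mem_pcomap.2 ⟨hb.2, self_mem_cent1 _⟩
  generalize pcomap f 𝐂[pel f b] = P at hP e1 hbP
  have k1 : ⁅P, zpowers b⁆ ≤ zpowers y := by
    rw [← hk, ← pmap_eq_bot_iff ((commutator_mono hP (zpowers_le.2 hb.2)).trans (der_le _)),
      pmap_commutator f hP (zpowers_le.2 hb.2), e1, pmap_zpowers f hb.2, commutator_eq_bot_iff_le_centralizer,
      cent_zpowers]
  have k2 : ⁅⁅P, zpowers b⁆, P⁆ = ⊥ := eq_bot_iff.2 ((commutator_mono k1 hP).trans_eq (by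
    rw [commutator_comm, commutator_eq_bot_iff_le_centralizer, cent_zpowers]))
  have k3 : ⁅P, P⁆ ≤ 𝐂[b] := by
    rw [← cent_zpowers, ← commutator_eq_bot_iff_le_centralizer]
    exact commutator_commutator_eq_bot_of_rotate k2 (by rwa [commutator_comm (zpowers b)])
  have k4 : P ≤ zpowers y ⊔ ⁅P, P⁆ := by
    rw [← hk, ← pmap_le_pmap_iff hP ((der_le _).trans hP), pmap_commutator f hP hP, e1, e]
  have k5 : P ≤ 𝐂[b] := k4.trans (sup_le (zpowers_le.2 (mem_cent1_comm.1 hb.2)) k3)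
  exact sup_le_sup_left (commutator_mono k5 k5) _ (k4 hbP)

theorem CS.suz_perfect (h : CS ι b a (QM 2) j6) (e : rho8 a = w3) (ho : orderOf b = 3)
    (hc : Nat.card ↥⁅ι.range, zpowers b⁆ ≤ 8) : b ∈ ⁅𝐂[b], 𝐂[b]⁆ := by
  haveI := Fact.mk Nat.prime_three
  have cm : ∀ l, (allL l qC && allLt (fun i => Nat.beq (rK (l ++ [136, 76]) (Nat.pow 2 i))
      (rK ([136, 76] ++ l) (Nat.pow 2 i))) 8) = true → Even l.length → ∃ y ∈ 𝐂[b], ∃ c, Act ι y c ∧ rho8 c = rO l :=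
    fun l k1 k2 => by
      rw [Bool.and_eq_true] at k1
      refine h.lift ((rO_mem k1.1).2 k2) ?_
      have k3 := allL_iff.1 k1.1
      rw [e, w3, ← rO_append, ← rO_append]
      refine rO_eq (Bool.and_eq_true_iff.2 ⟨Bool.and_eq_true_iff.2 ⟨allL_iff.2 fun c hc => ?_, allL_iff.2 fun c hc => ?_⟩,
        k1.2⟩) <;> simp only [List.mem_append, List.mem_cons, List.not_mem_nil, or_false] at hc
      · rcases hc with hc | rfl | rfl
        exacts [k3 c hc, rfl, rfl]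
      · rcases hc with (rfl | rfl) | hc
        exacts [rfl, rfl, k3 c hc]
  have o3 : orderOf (rO [68, 140]) = 3 := ord_of (m := 68) (r8_rO (by decide +kernel)) Nat.prime_three (by decide +kernel)
  obtain ⟨y, hy, c, h1, h2, h3⟩ : ∃ y ∈ 𝐂[b], ∃ c, Act ι y c ∧ rho8 c = rO [68, 140] ∧ y ^ 3 = 1 := by
    obtain ⟨y, hy, c, h1, h2⟩ := cm [68, 140] (by decide +kernel) (by decide)
    obtain ⟨x, hx⟩ := h.ct.mem_range (h1.pow 3) (by rw [map_pow, h2, ← o3, pow_orderOf_eq_one])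
    exact ⟨_, pow_mem hy 4, _, h1.pow 4, by rw [map_pow, h2, pow_succ, ← o3, pow_orderOf_eq_one, one_mul],
      by rw [← pow_mul, mul_comm, pow_mul, ← hx, iota_four]⟩
  have h4 : orderOf y = 3 := orderOf_eq_prime h3 fun k => by
    rw [← h2, h1.unique h.ct.inj (k ▸ Act.one), map_one, orderOf_one] at o3; cases o3
  obtain ⟨n, hn, d, h5, h6⟩ := cm [68, 17] (by decide +kernel) (by decide)
  obtain ⟨x, hx⟩ := h.ct.mem_range (h1.mul ((h5.mul h1).mul h5.inv)) (by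
    rw [map_mul, map_mul, map_mul, map_inv, h2, h6, ← mul_assoc, mul_inv_eq_one, ← rO_append, ← rO_append]
    exact rO_eq (by decide +kernel))
  have k1 : y ∈ ⁅𝐂[b], 𝐂[b]⁆ := by
    have k2 := iota_four (ι := ι) x
    rw [hx] at k2
    have k3 : Abelianization.of ((⟨y, hy⟩ * (⟨n, hn⟩ * ⟨y, hy⟩ * ⟨n, hn⟩⁻¹) : ↥𝐂[b]) ^ 4) = 1 := by
      rw [show _ ^ 4 = (1 : ↥𝐂[b]) from Subtype.ext k2, map_one]
    have k4 : Abelianization.of ((⟨y, hy⟩ : ↥𝐂[b]) ^ 3) = 1 := by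
      rw [show _ ^ 3 = (1 : ↥𝐂[b]) from Subtype.ext h3, map_one]
    rw [map_pow, map_mul, map_mul, map_mul, map_inv, mul_inv_cancel_comm, ← _root_.sq, ← pow_mul] at k3
    rw [map_pow] at k4
    have k5 : Abelianization.of (⟨y, hy⟩ : ↥𝐂[b]) = 1 := by
      have := pow_gcd_eq_one.2 ⟨k3, k4⟩
      rwa [show Nat.gcd (2 * 4) 3 = 1 from rfl, pow_one] at this
    rw [← map_subtype_commutator]
    exact ⟨_, (QuotientGroup.eq_one_iff _).1 k5, rfl⟩
  obtain ⟨ι', c', e1, e2, h7, h8, h9⟩ := h.ct.exists_comp h1 (rO [21, 145, 149])⁻¹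
  have e3 : rho8 c' = w3 := by
    rw [h9, h2, inv_inv, mul_assoc, inv_mul_eq_iff_eq_mul, w3, ← rO_append, ← rO_append]
    exact rO_eq (by decide +kernel)
  refine sup_le (zpowers_le.2 k1) le_rfl (CS.suz_key ⟨h7, h8, e3 ▸ fw3, by rw [h4]; decide⟩
    ⟨e1 ▸ h.bz, mem_cent1_comm.1 hy⟩ ho (fun k => ?_) (e2 ▸ hc))
  obtain ⟨i, -, rfl⟩ := exists_pow_lt h4 three_pos k
  have k2 : ∀ i, (rO [68, 140] ^ i).1 (d8 136) = d8 136 := fun i => by
    induction i with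
    | zero => rfl
    | succ i ih => rw [pow_succ, O.mul_apply, r8_rO (by decide +kernel), show rK [68, 140] 136 = 136 by decide +kernel, ih]
  have k3 := k2 i
  rw [← h2, ← map_pow, (h1.pow i).unique h.ct.inj h.act, e, r8_w3] at k3
  exact absurd (d8_inj (by decide +kernel) (by decide) k3) (by decide +kernel)

theorem qs_of_central {C : Type*} [Group C] {π : C →* H} (hs : Function.Surjective π) [IsSimpleGroup H]
    (hn : ¬ IsMulCommutative H) (h1 : π.ker ≤ center C) (h2 : π.ker ≤ commutator C) : IsQuasisimple C := by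
  have k : center H = ⊥ := ((inferInstance : (center H).Normal).eq_bot_or_eq_top).resolve_right fun e =>
    hn ⟨⟨fun a b => Subgroup.mem_center_iff.1 (e.ge (mem_top b)) a⟩⟩
  have k1 : π.ker = center C := le_antisymm h1 fun a ha => by
    rw [MonoidHom.mem_ker, ← mem_bot, ← k, Subgroup.mem_center_iff]
    intro u
    obtain ⟨u, rfl⟩ := hs u
    rw [← map_mul, ← map_mul, Subgroup.mem_center_iff.1 ha]
  have k2 : commutator H = ⊤ := ((inferInstance : (commutator H).Normal).eq_bot_or_eq_top).resolve_left fun e => by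
    rw [commutator_eq_bot_iff_center_eq_top, k] at e
    exact bot_ne_top e
  refine ⟨⟨?_⟩, ((QuotientGroup.quotientMulEquivOfEq k1.symm).trans
    (QuotientGroup.quotientKerEquivOfSurjective π hs)).isSimpleGroup⟩
  rw [← comap_map_eq_self h2, map_commutator_eq, MonoidHom.range_eq_top.2 hs, ← commutator_def, k2, comap_top]

theorem CT.suz_main (h : CT ι) {X : Subgroup G} (hX : X ≤ 𝐂[ι zs]) (h3 : Nat.card X = 3)
    (hc : Nat.card ↥⁅ι.range, X⁆ = 8) (hn : ¬ IsMulCommutative ↥⁅ι.range, X⁆) [(X.subgroupOf 𝐂(X)).Normal] :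
    IsQuasisimple ↥𝐂(X) ∧ Nonempty (↥𝐂(X) ⧸ X.subgroupOf 𝐂(X) ≃* Spor.Suz) := by
  haveI := Fact.mk Nat.prime_three
  obtain ⟨b, rfl⟩ := (Subgroup.isCyclic_iff_exists_zpowers_eq_top X).1 (isCyclic_of_prime_card h3)
  rw [Nat.card_zpowers] at h3
  obtain ⟨ι', a, e1, e2, h1, h2, e3⟩ := h.norm3 (hX (mem_zpowers b)) h3 hc.le (der_le _ (h.lq.ez.mem_of_not_abelian
    (comm_le_left (hX.trans h.lq.normalIn.2)) hn))
  have S : CS ι' b a (QM 2) j6 := ⟨h1, h2, e3 ▸ fw3, by rw [h3]; decide⟩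
  have l : zpowers b ≤ 𝐂(zpowers b) := by rw [cent_zpowers]; exact zpowers_le.2 (self_mem_cent1 b)
  obtain ⟨s1, s2, s3, -⟩ := S.suz (cent_zpowers b) (QuotientGroup.mk'_surjective _) (Ex2.pker_mk' l)
  refine ⟨qs_of_central (QuotientGroup.mk'_surjective _) s2 (fun g hg => ?_) fun g hg => ?_, s3⟩ <;>
    rw [QuotientGroup.ker_mk', mem_subgroupOf] at hg
  · exact Subgroup.mem_center_iff.2 fun k => Subtype.ext (k.2 _ hg).symm
  · have := zpowers_le.2 (S.suz_perfect e3 h3 (e2 ▸ hc.le)) hg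
    rw [← cent_zpowers, ← map_subtype_commutator] at this
    obtain ⟨k, hk, e⟩ := this
    exact Subtype.ext e ▸ hk

end CA.Co
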