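import Cfsg.Agent.Lib.Golay.Leech2
import Cfsg.Agent.S5593

/-!
Classes of the Leech lattice modulo two: every class has a short vector; transitivity on types 2, 3, 4.
-/

set_option autoImplicit false

namespace CA.Co
open Cfsg CA.Gol
open scoped Pointwise

/-- the Leech lattice as a type -/
abbrev LL : Type := ↥leechLattice

/-- congruence modulo twice the lattice -/
def Cg (x y : ZV) : Prop := ∃ w ∈ leechLattice, x - y = (2 : ℤ) • w

theorem Cg.refl (x : ZV) : Cg x x := ⟨0, zero_mem _, by simp⟩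

theorem Cg.of_eq {x y : ZV} (h : x = y) : Cg x y := h ▸ Cg.refl x

theorem Cg.symm {x y : ZV} (h : Cg x y) : Cg y x := by
  obtain ⟨w, hw, e⟩ := h
  exact ⟨-w, neg_mem hw, by rw [smul_neg, ← e]; abel⟩

theorem Cg.trans {x y z : ZV} (h : Cg x y) (h' : Cg y z) : Cg x z := by
  obtain ⟨w, hw, e⟩ := h
  obtain ⟨w', hw', e'⟩ := h'
  exact ⟨w + w', add_mem hw hw', by rw [smul_add, ← e, ← e']; abel⟩

theorem Cg.add {x y x' y' : ZV} (h : Cg x y) (h' : Cg x' y') : Cg (x + x') (y + y') := by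
  obtain ⟨w, hw, e⟩ := h
  obtain ⟨w', hw', e'⟩ := h'
  exact ⟨w + w', add_mem hw hw', by rw [smul_add, ← e, ← e']; abel⟩

theorem Cg.neg {x y : ZV} (h : Cg x y) : Cg (-x) (-y) := by
  obtain ⟨w, hw, e⟩ := h
  exact ⟨-w, neg_mem hw, by rw [smul_neg, ← e]; abel⟩

theorem Cg.sub {x y x' y' : ZV} (h : Cg x y) (h' : Cg x' y') : Cg (x - x') (y - y') := by
  rw [sub_eq_add_neg, sub_eq_add_neg]; exact h.add h'.neg

theorem cg_neg {x : ZV} (hx : x ∈ leechLattice) : Cg (-x) x := ⟨-x, neg_mem hx, by rw [two_zsmul]; abel⟩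

theorem cg_two {x : ZV} (hx : x ∈ leechLattice) : Cg ((2 : ℤ) • x) 0 := ⟨x, hx, by simp⟩

theorem cg_add_self {x : ZV} (hx : x ∈ leechLattice) : Cg (x + x) 0 := ⟨x, hx, by rw [two_zsmul]; simp⟩

theorem cg_sub_add {x y : ZV} (hy : y ∈ leechLattice) : Cg (x - y) (x + y) := by
  rw [sub_eq_add_neg]; exact (Cg.refl x).add (cg_neg hy)

theorem cg_iff_sub {x y : ZV} : Cg x y ↔ Cg (x - y) 0 := by simp [Cg]

theorem cg_iff_add {x y : ZV} (hy : y ∈ leechLattice) : Cg x y ↔ Cg (x + y) 0 :=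
  cg_iff_sub.trans ⟨fun h => (cg_sub_add hy).symm.trans h, fun h => (cg_sub_add hy).trans h⟩

theorem Cg.mem {x y : ZV} (h : Cg x y) (hy : y ∈ leechLattice) : x ∈ leechLattice := by
  obtain ⟨w, hw, e⟩ := h
  have := add_mem (zsmul_mem hw 2) hy
  rwa [← e, sub_add_cancel] at this

theorem cg_zero_iff {v : LL} : Cg v 0 ↔ ∃ w : LL, v = w + w := by
  constructor
  · rintro ⟨w, hw, e⟩
    exact ⟨⟨w, hw⟩, Subtype.ext (by rw [sub_zero, two_zsmul] at e; exact e)⟩
  · rintro ⟨w, rfl⟩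
    exact cg_add_self w.2

theorem Cg.co {v w : LL} (h : Cg v w) (g : Co0) : Cg (g • v : LL) (g • w : LL) := by
  obtain ⟨u, hu, e⟩ := h
  refine ⟨(g • (⟨u, hu⟩ : LL) : LL), Subtype.property _, ?_⟩
  rw [← AddSubgroupClass.coe_sub, ← co_sub, show v - w = (2 : ℤ) • (⟨u, hu⟩ : LL) from Subtype.ext e, co_zsmul]
  rfl

theorem cg_co_iff {v w : LL} (g : Co0) : Cg (g • v : LL) (g • w : LL) ↔ Cg v w :=
  ⟨fun h => by simpa using h.co g⁻¹, fun h => h.co g⟩

theorem cg_eight_even {y : ZV} (hy : 2 ∣ ∑ p, y p) : Cg ((8 : ℤ) • y) 0 :=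
  ⟨_, four_mem hy, by rw [smul_smul]; simp⟩

theorem cg_four_iz {c : Finset GolayPt} (hc : c ∈ CW) : Cg ((4 : ℤ) • iz c) 0 :=
  ⟨_, two_iz_mem hc, by rw [smul_smul]; simp⟩

theorem Cg.dot {x y u : ZV} (h : Cg x y) (hu : u ∈ leechLattice) : 16 ∣ dotInt x u - dotInt y u := by
  obtain ⟨w, hw, e⟩ := h
  obtain ⟨k, hk⟩ := eight_dvd_dot hu hw
  rw [show x = y + (2 : ℤ) • w by rw [← e]; abel, dot_comm, dot_add, dot_smul, hk, dot_comm u y]
  exact ⟨k, by ring⟩

theorem Cg.norm {x y : ZV} (h : Cg x y) (hy : y ∈ leechLattice) : 32 ∣ sqNorm x - sqNorm y := by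
  obtain ⟨w, hw, e⟩ := h
  obtain ⟨k, hk⟩ := eight_dvd_dot hy hw
  obtain ⟨l, hl⟩ := sixteen_dvd hw
  rw [show x = y + (2 : ℤ) • w by rw [← e]; abel, sqNorm_add, sqNorm_smul, dot_smul, hk, hl]
  exact ⟨k + 2 * l, by ring⟩

theorem Cg.short {x y : ZV} (h : Cg x y) (hy : y ∈ leechLattice) (hxn : sqNorm x ≤ 64) (hyn : sqNorm y ≤ 64) :
    x = y ∨ x = -y ∨ (sqNorm x = 64 ∧ sqNorm y = 64 ∧ dotInt x y = 0) := by
  obtain ⟨w, hw, e⟩ := h
  exact short_congr hy hw (by rw [e]; rfl) hxn hyn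

theorem Cg.norm_eq {x y : ZV} (h : Cg x y) (hy : y ∈ leechLattice) (hxn : sqNorm x ≤ 64) (hyn : sqNorm y ≤ 64) :
    sqNorm x = sqNorm y := by
  rcases h.short hy hxn hyn with e | e | e
  · rw [e]
  · rw [e, sqNorm_neg]
  · omega

theorem Cg.eq_or {x y : ZV} (h : Cg x y) (hy : y ∈ leechLattice) (hxn : sqNorm x ≤ 64) (hyn : sqNorm y < 64) :
    x = y ∨ x = -y := by
  rcases h.short hy hxn hyn.le with e | e | e
  · exact Or.inl e
  · exact Or.inr e
  · omega

theorem norm_cases {x : ZV} (hx : x ∈ leechLattice) (h : sqNorm x ≤ 64) :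
    x = 0 ∨ sqNorm x = 32 ∨ sqNorm x = 48 ∨ sqNorm x = 64 := by
  by_cases h0 : x = 0
  · exact Or.inl h0
  · have := min_norm hx h0
    have := sixteen_dvd hx
    omega

/-! ### the reduction principle -/

/-- predicates that can be pulled back along lattice automorphisms -/
def Pull (P : ZV → Prop) : Prop := ∀ f, IsCo f → ∀ x ∈ leechLattice, P (f x) → P x

theorem Pull.odd {P : ZV → Prop} (hP : Pull P) {x : ZV} (hx : x ∈ leechLattice) (h : ¬ 2 ∣ x (pt 0))
    (ih : ∀ y : ZV, (fun p => 1 + 4 * y p) ∈ leechLattice → sqNorm (fun p => 1 + 4 * y p) = sqNorm x →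
      P fun p => 1 + 4 * y p) : P x := by
  obtain ⟨m, c, y, hc, e, -⟩ := mem_leech.1 hx
  have h0 := e (pt 0)
  have key : ∀ d ∈ CW, (∀ p, sg d x p % 4 = 1) → P x := by
    intro d hd h1
    refine hP _ (isCo_sg hd) _ hx ?_
    have e1 : sg d x = fun p => 1 + 4 * (sg d x p / 4) := funext fun p => by have := h1 p; omega
    have h2 := (isCo_sg hd).norm hx
    have h3 := (isCo_sg hd).mem hx
    rw [e1] at h2 h3 ⊢
    exact ih _ h3 h2
  by_cases hm : m % 4 = 1
  · refine key c hc fun p => ?_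
    have := e p
    rcases iz_cases c p with h | h <;> simp only [sg, h.1, if_true, if_false] <;> omega
  · refine key _ (compl_mem_CW hc) fun p => ?_
    have := e p
    rcases iz_cases c p with h | h <;> simp only [sg, h.1, if_true, if_false, Finset.mem_sdiff, Finset.mem_univ,
      not_true, not_false_iff, and_false, and_true] <;> omega

theorem Pull.step {P : ZV → Prop} (hP : Pull P) {x : ZV} (hx : x ∈ leechLattice) {k : ℤ} {s : Finset GolayPt}
    (h0 : 0 < s.card) (h1 : s.card ≤ 21) (h : ∀ p, 2 * k ∣ x p - k * iz s p)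
    (ih : ∀ y ∈ leechLattice, sqNorm y = sqNorm x → 2 * k ∣ 2 * y (pt 0) - k → P y) : P x := by
  obtain ⟨g, hg, a0, a1, a2, a3⟩ := Cfsg.Agent.S5593.exists_move h0 h1
  have hx' := pm_mem hg hx
  refine hP _ (isCo_pm hg) _ hx (hP _ isCo_xi _ hx' (ih _ (xi_spec hx').1
    (by rw [isCo_xi.norm hx', (isCo_pm hg).norm hx]) ?_))
  rw [xi_zero hx']
  have k0 := h (g⁻¹ (pt 0))
  have k1 := h (g⁻¹ (pt 1))
  have k2 := h (g⁻¹ (pt 2))
  have k3 := h (g⁻¹ (pt 3))
  rw [iz, if_pos a0] at k0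
  rw [iz, if_neg a1] at k1
  rw [iz, if_neg a2] at k2
  rw [iz, if_neg a3] at k3
  have := dvd_sub (dvd_sub (dvd_add (dvd_add k1 k2) k3) k0) (dvd_refl (2 * k))
  rwa [show x (g⁻¹ (pt 1)) - k * 0 + (x (g⁻¹ (pt 2)) - k * 0) + (x (g⁻¹ (pt 3)) - k * 0) - (x (g⁻¹ (pt 0)) - k * 1) -
    2 * k = pm g x (pt 1) + pm g x (pt 2) + pm g x (pt 3) - pm g x (pt 0) - k by simp only [pm]; ring] at this

theorem one_add_odd {y : ZV} (h : (fun p => 1 + 4 * y p) ∈ leechLattice) : ¬ 2 ∣ ∑ p, y p := by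
  intro hy
  have h1 := sub_mem h (four_mem hy)
  have h2 : ((fun p => 1 + 4 * y p) - (4 : ℤ) • y : ZV) = fun _ => 1 := by
    funext p; simp
  rw [h2] at h1
  have := sixteen_dvd h1
  revert this; decide +kernel

/-- the positions of the odd entries -/
def oddSet (y : ZV) : Finset GolayPt := Finset.univ.filter fun p => ¬ 2 ∣ y p

theorem oddSet_spec (y : ZV) (p : GolayPt) : 2 ∣ y p - iz (oddSet y) p := by
  rcases iz_cases (oddSet y) p with h | h <;> rw [h.2] <;> simp only [oddSet, Finset.mem_filter, Finset.mem_univ,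
    true_and, not_not] at h <;> omega

/-- the vector with a single entry 8 -/
def e8 (p : GolayPt) : ZV := (8 : ℤ) • iz {p}

theorem e8_mem (p : GolayPt) : e8 p ∈ leechLattice := eight_mem _

theorem e8_apply (p q : GolayPt) : e8 p q = if q = p then 8 else 0 := by
  simp [e8, iz]

theorem dot_e8 (x : ZV) (p : GolayPt) : dotInt x (e8 p) = 8 * x p := by
  rw [e8, dot_smul, dot_iz]; simp

theorem norm_e8 (p : GolayPt) : sqNorm (e8 p) = 64 := by
  rw [sqNorm_eq_dot, dot_e8, e8_apply]; simp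

theorem cg_eight_odd {y : ZV} (hy : ¬ 2 ∣ ∑ p, y p) (q : GolayPt) : Cg ((8 : ℤ) • y) (e8 q) := by
  rw [cg_iff_sub, e8, ← smul_sub]
  refine cg_eight_even ?_
  simp only [Pi.sub_apply, Finset.sum_sub_distrib, sum_iz, Finset.card_singleton]
  omega

theorem cg_e8 (p q : GolayPt) : Cg (e8 p) (e8 q) := cg_eight_odd (by rw [sum_iz]; simp) q

theorem cg_eight (y : ZV) (q : GolayPt) : Cg ((8 : ℤ) • y) 0 ∨ Cg ((8 : ℤ) • y) (e8 q) := by
  by_cases hy : 2 ∣ ∑ p, y p
  · exact Or.inl (cg_eight_even hy)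
  · exact Or.inr (cg_eight_odd hy q)

/-- `4 y` is congruent to `4 s` or `4 s + 8 e` whenever the odd positions of `y` are `s` modulo the code -/
theorem cg_four {y : ZV} {s : Finset GolayPt} (hs : symmDiff (oddSet y) s ∈ CW) (q : GolayPt) :
    Cg ((4 : ℤ) • y) ((4 : ℤ) • iz s) ∨ Cg ((4 : ℤ) • y) ((4 : ℤ) • iz s + e8 q) := by
  set c := symmDiff (oddSet y) s with hc
  have e : (4 : ℤ) • y = (4 : ℤ) • iz s + ((4 : ℤ) • iz c + (8 : ℤ) • fun p => (y p - iz s p - iz c p) / 2) := by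
    funext p
    have h1 := oddSet_spec y p
    have h2 := iz_add (oddSet y) s p
    simp only [Pi.smul_apply, Pi.add_apply, smul_eq_mul]
    rw [← hc] at h2
    omega
  rw [e]
  rcases cg_eight (fun p => (y p - iz s p - iz c p) / 2) q with h | h
  · left; simpa using (Cg.refl _).add ((cg_four_iz hs).add h)
  · right; simpa using (Cg.refl _).add ((cg_four_iz hs).add h)

theorem norm_four_iz (s : Finset GolayPt) : sqNorm ((4 : ℤ) • iz s) = 16 * s.card := by
  rw [sqNorm_smul, sqNorm_eq_dot, dot_iz, Finset.sum_congr rfl (g := fun _ => 1) fun p hp => by simp [iz, hp]]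
  simp

theorem norm_one_sub (s : Finset GolayPt) : sqNorm (fun p => 1 - 4 * iz s p) = 24 + 8 * s.card := by
  have : ∀ p, (1 - 4 * iz s p) ^ 2 = 1 + 8 * iz s p := fun p => by
    rcases iz_cases s p with h | h <;> rw [h.2] <;> rfl
  simp only [sqNorm, this, Finset.sum_add_distrib, ← Finset.mul_sum, sum_iz, Finset.sum_const, Finset.card_univ,
    card_golayPt]
  simp

/-- has a congruent short vector -/
def Sh (x : ZV) : Prop := ∃ y ∈ leechLattice, sqNorm y ≤ 64 ∧ Cg x y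

theorem Sh.of_cg {x y : ZV} (h : Cg x y) (hy : Sh y) : Sh x := by
  obtain ⟨w, hw, h1, h2⟩ := hy
  exact ⟨w, hw, h1, h.trans h2⟩

theorem pull_sh : Pull Sh := by
  rintro f ⟨e, he⟩ x hx ⟨y, hy, h1, h2⟩
  refine ⟨(e⁻¹ • (⟨y, hy⟩ : LL) : LL), Subtype.property _, by rwa [co_norm], ?_⟩
  have := Cg.co (v := e • ⟨x, hx⟩) (w := ⟨y, hy⟩) (by rw [he]; exact h2) e⁻¹
  simpa using this

theorem sh_four {y : ZV} (hy : 2 ∣ ∑ p, y p) : Sh ((4 : ℤ) • y) := by
  obtain ⟨s, hs, hc⟩ := exists_small_rep (oddSet y)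
  have h1 := sum_parity y _ (oddSet_spec y)
  have h2 := card_symmDiff_add (oddSet y) s
  have h3 := four_dvd_card hc
  have hm : (4 : ℤ) • iz s ∈ leechLattice := four_mem (by rw [sum_iz]; omega)
  have k : Sh ((4 : ℤ) • iz s) := ⟨_, hm, by rw [norm_four_iz]; omega, Cg.refl _⟩
  rcases s.eq_empty_or_nonempty with rfl | ⟨q, hq⟩
  · rcases cg_four hc (pt 0) with h | h
    · exact k.of_cg h
    · refine Sh.of_cg h ⟨_, e8_mem (pt 0), (norm_e8 _).le, Cg.of_eq ?_⟩
      funext p; simp [iz]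
  · rcases cg_four hc q with h | h
    · exact k.of_cg h
    · refine Sh.of_cg h ⟨_, sub_mem hm (e8_mem q), ?_, (cg_sub_add (e8_mem q)).symm⟩
      rw [sqNorm_sub, norm_four_iz, norm_e8, dot_e8]
      simp only [Pi.smul_apply, iz, hq, if_true, smul_eq_mul]
      omega

theorem sh_one {y : ZV} (h : (fun p => 1 + 4 * y p) ∈ leechLattice) : Sh fun p => 1 + 4 * y p := by
  have hy := one_add_odd h
  obtain ⟨s, hs, hc⟩ := exists_small_rep (oddSet (-y))
  have h1 := sum_parity (-y) _ (oddSet_spec (-y))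
  have h2 := card_symmDiff_add (oddSet (-y)) s
  have h3 := four_dvd_card hc
  simp only [Pi.neg_apply, Finset.sum_neg_distrib] at h1
  have hodd : ¬ Even s.card := by rw [even_iff_two_dvd]; omega
  have hm := one_sub_mem hodd
  obtain ⟨q, hq⟩ : ∃ q, q ∉ s := exists_notMem (by omega)
  have e : (fun p => 1 + 4 * y p : ZV) = (fun _ => 1) - (4 : ℤ) • (-y) := by funext p; simp
  have e1 : (fun p => 1 - 4 * iz s p : ZV) = (fun _ => 1) - (4 : ℤ) • iz s := by funext p; simp
  rw [Nat.not_even_iff_odd] at hodd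
  obtain ⟨k, hk⟩ := hodd
  rcases cg_four hc q with h | h
  · exact ⟨_, hm, by rw [norm_one_sub]; omega, by rw [e, e1]; exact (Cg.refl _).sub h⟩
  · obtain ⟨r, hr⟩ := Finset.card_pos.1 (show 0 < s.card by omega)
    refine ⟨_, add_mem hm (e8_mem r), ?_, ?_⟩
    · rw [sqNorm_add, norm_one_sub, norm_e8, dot_e8]
      simp only [iz, hr, if_true]
      omega
    · rw [e, e1]
      refine ((Cg.refl _).sub h).trans ?_
      rw [← sub_sub]
      exact (cg_sub_add (e8_mem q)).trans ((Cg.refl _).add (cg_e8 q r))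

theorem sh_odd {x : ZV} (hx : x ∈ leechLattice) (h : ¬ 2 ∣ x (pt 0)) : Sh x :=
  pull_sh.odd hx h fun _ h _ => sh_one h

/-- every class modulo twice the lattice contains a vector of squared length at most 64 -/
theorem exists_short {x : ZV} (hx : x ∈ leechLattice) : ∃ y ∈ leechLattice, sqNorm y ≤ 64 ∧ Cg x y := by
  by_cases h : 2 ∣ x (pt 0)
  · obtain ⟨c, hc, y, e, hy⟩ := even_form hx h
    have hcc := card_CW hc
    by_cases h0 : c.card = 0
    · rw [Finset.card_eq_zero] at h0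
      have : x = (4 : ℤ) • y := funext fun p => by rw [e p, h0]; simp [iz]
      exact this ▸ sh_four hy
    · by_cases h1 : c.card = 24
      · have h2 : c = Finset.univ := Finset.eq_univ_of_card _ (by rw [h1, card_golayPt])
        refine Sh.of_cg (y := (4 : ℤ) • (y + (2 : ℤ) • iz {pt 0})) ⟨v0, v0_mem, ?_⟩ (sh_four ?_)
        · funext p
          simp only [Pi.sub_apply, Pi.smul_apply, Pi.add_apply, smul_eq_mul, e p, h2, v0_eq]
          rw [show iz Finset.univ p = 1 by simp [iz]]; ring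
        · simp only [Pi.add_apply, Pi.smul_apply, smul_eq_mul, Finset.sum_add_distrib, ← Finset.mul_sum]
          omega
      · exact pull_sh.step hx (k := 2) (s := c) (by omega) (by omega) (fun p => by rw [e p]; omega)
          fun y hy _ h2 => sh_odd hy (by omega)
  · exact sh_odd hx h

/-! ### transitivity -/

/-- in the orbit of `b` -/
def Ob (b x : ZV) : Prop := ∃ hx : x ∈ leechLattice, ∃ g : Co0, ((g • (⟨x, hx⟩ : LL) : LL) : ZV) = b

theorem pull_ob (b : ZV) : Pull (Ob b) := by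
  rintro f ⟨e, he⟩ x hx ⟨h1, g, h2⟩
  refine ⟨hx, g * e, ?_⟩
  rw [mul_smul, show e • (⟨x, hx⟩ : leechLattice) = ⟨f x, h1⟩ from Subtype.ext (he _), h2]

theorem ob_refl {b : ZV} (hb : b ∈ leechLattice) : Ob b b := ⟨hb, 1, by simp⟩

theorem one_add_shape {y : ZV} {n : ℤ} (hn : sqNorm (fun p => 1 + 4 * y p) = 24 + 8 * n) (h5 : n ≤ 5) :
    ∃ A B : Finset GolayPt, (A.card : ℤ) + 3 * B.card = n ∧ ∀ p, y p = iz B p - iz A p := by
  have e : ∑ p, (y p + 2 * y p ^ 2) = n := by
    have : ∀ p, (1 + 4 * y p) ^ 2 = 1 + 8 * (y p + 2 * y p ^ 2) := fun p => by ring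
    simp only [sqNorm, this] at hn
    rw [Finset.sum_add_distrib, ← Finset.mul_sum, Finset.sum_const, Finset.card_univ, card_golayPt] at hn
    simp only [nsmul_eq_mul] at hn
    omega
  have h1 : ∀ p, y p = -1 ∨ y p = 0 ∨ y p = 1 := by
    intro p
    have := Finset.single_le_sum (f := fun p => y p + 2 * y p ^ 2) (s := Finset.univ)
      (fun q _ => by rcases le_or_gt 0 (y q) with h | h <;> nlinarith) (Finset.mem_univ p)
    rw [e] at this
    have k1 : -2 < y p := by nlinarith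
    have k2 : y p < 2 := by nlinarith
    omega
  set A := Finset.univ.filter fun p => y p = -1 with hA
  set B := Finset.univ.filter fun p => y p = 1 with hB
  have h2 : ∀ p, (y p = -1 ∧ iz A p = 1 ∧ iz B p = 0) ∨ (y p = 0 ∧ iz A p = 0 ∧ iz B p = 0) ∨
      (y p = 1 ∧ iz A p = 0 ∧ iz B p = 1) := fun p => by
    rcases h1 p with h | h | h <;> simp [iz, hA, hB, h]
  refine ⟨A, B, ?_, fun p => by have := h2 p; omega⟩
  rw [← e, ← sum_iz, ← sum_iz, Finset.mul_sum, ← Finset.sum_add_distrib]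
  refine Finset.sum_congr rfl fun p _ => ?_
  rcases h2 p with h | h | h <;> rw [h.1, h.2.1, h.2.2] <;> rfl

theorem Pull.shape {P : ZV → Prop} (hP : Pull P) {k : ℤ} {s t : Finset GolayPt} (hs : s.card ≤ 5) (hst : s.card = t.card)
    (hx : (fun p => 1 + k * iz s p) ∈ leechLattice) (h : P fun p => 1 + k * iz t p) : P fun p => 1 + k * iz s p := by
  obtain ⟨g, hg, e⟩ := exists_smul_eq hs hst
  refine hP _ (isCo_pm hg) _ hx ?_
  have : pm g (fun p => 1 + k * iz s p) = fun p => 1 + k * iz t p := by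
    funext p; rw [← e, ← pm_iz]; rfl
  rwa [this]

/-- reduce a short vector to the odd case -/
theorem Pull.of_odd {P : ZV → Prop} (hP : Pull P) {n : ℤ} (hn0 : 0 < n) (hn : n < 64)
    (ih : ∀ y ∈ leechLattice, sqNorm y = n → ¬ 2 ∣ y (pt 0) → P y) {x : ZV} (hx : x ∈ leechLattice)
    (h : sqNorm x = n) : P x := by
  have two : ∀ x ∈ leechLattice, sqNorm x = n → ∀ q, 4 ∣ x q - 2 → P x := by
    intro x hx h q hq
    obtain ⟨c, hc, y, e, -⟩ := even_form hx (q := q) (by omega)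
    have h4 := card_mul_le_sqNorm x c 4 fun p hp => by
      have := e p
      rw [iz, if_pos hp] at this
      exact sq_ge_of_ne (k := 2) (by norm_num) (by omega)
    refine hP.step hx (k := 2) (s := c) (Finset.card_pos.2 ⟨q, ?_⟩) (by omega) (fun p => by rw [e p]; omega)
      fun y hy h1 h2 => ih y hy (h1.trans h) (by omega)
    have := e q
    rcases iz_cases c q with h | h
    · exact h.1
    · omega
  by_cases h1 : 2 ∣ x (pt 0)
  · by_cases h2 : ∀ p, 4 ∣ x p
    · set s := Finset.univ.filter fun p => ¬ 8 ∣ x p with hs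
      have h5 := card_mul_le_sqNorm x s 16 fun p hp => by
        have := h2 p
        rw [hs, Finset.mem_filter] at hp
        exact sq_ge_of_ne (k := 4) (by norm_num) (by omega)
      obtain ⟨q, hq⟩ : ∃ q, ¬ 8 ∣ x q := by
        by_contra hcon
        push Not at hcon
        have : x = (8 : ℤ) • fun p => x p / 8 := funext fun p => by
          have := hcon p
          simp only [Pi.smul_apply, smul_eq_mul]; omega
        rw [this, sqNorm_smul] at h
        omega
      refine hP.step hx (k := 4) (s := s) (Finset.card_pos.2 ⟨q, by simp [hs, hq]⟩) (by omega) (fun p => ?_)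
        fun y hy k1 k2 => two y hy (k1.trans h) (pt 0) (by omega)
      have := h2 p
      rcases iz_cases s p with h | h <;> rw [h.2] <;>
        simp only [hs, Finset.mem_filter, Finset.mem_univ, true_and] at h <;> omega
    · push Not at h2
      obtain ⟨p, hp⟩ := h2
      have := same_parity hx p (pt 0)
      exact two x hx h p (by omega)
  · exact ih x hx h h1

theorem ob32 {x : ZV} (hx : x ∈ leechLattice) (h : sqNorm x = 32) : Ob v0 x := by
  refine (pull_ob v0).of_odd (n := 32) (by norm_num) (by norm_num) (fun x hx h h1 => ?_) hx h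
  refine (pull_ob v0).odd hx h1 fun y hy h2 => ?_
  obtain ⟨A, B, h3, h4⟩ := one_add_shape (y := y) (n := 1) (by rw [h2, h]; rfl) (by norm_num)
  have hB : B = ∅ := Finset.card_eq_zero.1 (by omega)
  have e : (fun p => 1 + 4 * y p : ZV) = fun p => 1 + (-4) * iz A p := by
    funext p; rw [h4, hB, show iz ∅ p = 0 by simp [iz]]; ring
  rw [e] at hy ⊢
  refine (pull_ob v0).shape (t := {pt 0}) (by omega) (by simp; omega) hy ?_
  convert ob_refl v0_mem using 2 with p
  rw [v0_eq]; ring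

/-- the base vector of type 3 -/
def v3 : ZV := fun p => 1 + 4 * iz {pt 0} p

theorem v3_mem : v3 ∈ leechLattice := isL.mem (by decide +kernel)

theorem ob48 {x : ZV} (hx : x ∈ leechLattice) (h : sqNorm x = 48) : Ob v3 x := by
  refine (pull_ob v3).of_odd (n := 48) (by norm_num) (by norm_num) (fun x hx h h1 => ?_) hx h
  refine (pull_ob v3).odd hx h1 fun y hy h2 => ?_
  obtain ⟨A, B, h3, h4⟩ := one_add_shape (y := y) (n := 3) (by rw [h2, h]; rfl) (by norm_num)
  by_cases hB : B.card = 0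
  · have e : (fun p => 1 + 4 * y p : ZV) = fun p => 1 + (-4) * iz A p := by
      funext p; rw [h4, Finset.card_eq_zero.1 hB, show iz ∅ p = 0 by simp [iz]]; ring
    rw [e] at hy ⊢
    refine (pull_ob v3).shape (t := {pt 1, pt 2, pt 3}) (by omega) (by rw [show Finset.card {pt 1, pt 2, pt 3} = 3 by decide]; omega) hy ?_
    have hm : (fun p => 1 + (-4) * iz {pt 1, pt 2, pt 3} p : ZV) ∈ leechLattice := isL.mem (by decide +kernel)
    refine pull_ob v3 _ isCo_xi _ hm (pull_ob v3 _ isCo_neg _ (isCo_xi.mem hm) ?_)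
    convert ob_refl v3_mem using 1
    decide +kernel
  · have hA : A = ∅ := Finset.card_eq_zero.1 (by omega)
    have e : (fun p => 1 + 4 * y p : ZV) = fun p => 1 + 4 * iz B p := by
      funext p; rw [h4, hA]; simp [iz]
    rw [e] at hy ⊢
    exact (pull_ob v3).shape (t := {pt 0}) (by omega) (by simp; omega) hy (ob_refl v3_mem)

theorem trans_of_ob {b : ZV} {v w : LL} (hv : Ob b v) (hw : Ob b w) : ∃ g : Co0, g • v = w := by
  obtain ⟨_, g, e⟩ := hv
  obtain ⟨_, k, e'⟩ := hw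
  refine ⟨k⁻¹ * g, ?_⟩
  rw [mul_smul, inv_smul_eq_iff]
  exact Subtype.ext (e.trans e'.symm)

theorem trans32 {v w : LL} (hv : sqNorm (v : ZV) = 32) (hw : sqNorm (w : ZV) = 32) : ∃ g : Co0, g • v = w :=
  trans_of_ob (ob32 v.2 hv) (ob32 w.2 hw)

theorem trans48 {v w : LL} (hv : sqNorm (v : ZV) = 48) (hw : sqNorm (w : ZV) = 48) : ∃ g : Co0, g • v = w :=
  trans_of_ob (ob48 v.2 hv) (ob48 w.2 hw)

theorem trans64 {v w : LL} (hv : sqNorm (v : ZV) = 64) (hw : sqNorm (w : ZV) = 64) : ∃ g : Co0, Cg (g • v : LL) w := by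
  obtain ⟨g, z, hz, e⟩ := Cfsg.Agent.S5593.result v w hv hw
  exact ⟨g, z, hz, by rw [e]; rfl⟩

end CA.Co
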