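import Cfsg.Agent.Lib.Co.C3B

/-!
The two classes of elements of order three of `M24`, in the Monster-type setting.
-/

set_option autoImplicit false

namespace CA.Co
open Cfsg CA.Gol CA Subgroup
open scoped Pointwise Matrix

namespace C3A

def c : ℕ := 0x2ea87ca346ba693a8d0b304428ee1

theorem c_in : inM24 c = true := by decide +kernel

/-- the element of order three with six fixed points -/
noncomputable def σ : M24 := m24 c_in

theorem card_cent : Nat.card ↥𝐂[σ] = 1080 := (card_cent_M24 (code_m24 c_in)).trans (by decide +kernel)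

theorem conj : ∃ k : M24, k * m24 r3A_in * k⁻¹ = σ :=
  ⟨_, conj_m24 (k := 0xbc12ba18ad946c79b11553dc418820) (by decide +kernel) r3A_in c_in (by decide +kernel)⟩

end C3A

theorem class_three' (g : M24) (h : orderOf g = 3) : ∃ k, k * g * k⁻¹ = C3A.σ ∨ k * g * k⁻¹ = C3B.σ := by
  obtain ⟨k, hk, e | e⟩ := class_three g.2 ((orderOf_coe g).trans h)
  · obtain ⟨l, hl⟩ := C3A.conj
    refine ⟨l * ⟨k, hk⟩, Or.inl ?_⟩
    rw [← hl, show m24 r3A_in = ⟨k, hk⟩ * g * (⟨k, hk⟩ : M24)⁻¹ from Subtype.ext e.symm]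
    group
  · obtain ⟨l, hl⟩ := C3B.conj
    refine ⟨l * ⟨k, hk⟩, Or.inr ?_⟩
    rw [← hl, show m24 r3B_in = ⟨k, hk⟩ * g * (⟨k, hk⟩ : M24)⁻¹ from Subtype.ext e.symm]
    group

variable {G : Type*} [Group G] [Finite G]

theorem exists_mt_frame {z s : G} {Q : Subgroup ↥𝐂[z]} [Q.Normal] (hM : IsOfMonsterType z Q)
    (hsQ : ∃ hsc : s ∈ 𝐂[z], (⟨s, hsc⟩ : ↥𝐂[z]) ∈ Q) (hs : IsConj z s) (hs1 : s ≠ z) :
    ∃ (Q' : Subgroup G) (π : ↥𝐂[z] →* Spor.Co1) (r : G → LL → Prop), MT Q' z π r ∧ r s (E8 (pt 0)) := by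
  obtain ⟨hS, e, ψ, hψ⟩ := hM
  have h := mt_of hS hψ
  obtain ⟨k, hk⟩ := h.exists_twist_frame (mem_map_iff.2 hsQ) hs hs1
  exact ⟨_, _, _, h.twist k, hk⟩

theorem fact3_M24 : (244823040 : ℕ).factorization 3 = 3 := by
  rw [Nat.factorization_def _ Nat.prime_three]; decide +kernel

theorem fact3_1080 : (1080 : ℕ).factorization 3 = 3 := by
  rw [Nat.factorization_def _ Nat.prime_three]; decide +kernel

theorem fact3_504 : (504 : ℕ).factorization 3 = 2 := by
  rw [Nat.factorization_def _ Nat.prime_three]; decide +kernel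

theorem central_iff3 {Q : Subgroup G} {z s b : G} {π : ↥𝐂[z] →* Spor.Co1} {r : G → LL → Prop} (h : MT Q z π r)
    (hs : r s (E8 (pt 0))) (hY : zpowers b ≤ centralizer {z, s}) (h3 : Nat.card (zpowers b) = 3) :
    (∃ P : Sylow 3 ↥(centralizer ({z, s} : Set G)), (zpowers b).subgroupOf (centralizer ({z, s} : Set G)) ≤
      (center ↥(P : Subgroup ↥(centralizer ({z, s} : Set G)))).map
        (P : Subgroup ↥(centralizer ({z, s} : Set G))).subtype) ↔
      (Nat.card ↥((𝐂[z] ⊓ 𝐂[s]) ⊓ 𝐂[b])).factorization 3 = 3 := by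
  rw [central_iff Nat.prime_three (zpowers_le.1 hY) (IsPGroup.of_card (n := 1) (by rw [h3]; rfl)), cent_pair,
    h.fact_L hs (by decide), fact3_M24]

end CA.Co
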