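import Cfsg.Agent.Lib.Co.Top1

/-!
The three classes of involutions of `Co1`; a finite group containing `Co1` together with the
centraliser of its 2-central involution is `Co1`.
-/

set_option autoImplicit false
set_option maxRecDepth 100000

namespace CA.Co
open Cfsg CA.Gol CA Subgroup
open scoped Pointwise Matrix

theorem sgC_fix_iff {c : Finset GolayPt} (hc : c ∈ CW) {v : LL} : sgC c • v = v ↔ ∀ p ∈ c, v.1 p = 0 := by
  rw [Subtype.ext_iff, sgC_smul hc, funext_iff]
  refine forall_congr' fun p => ?_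
  by_cases h : p ∈ c <;> simp [sg, h]
  omega

theorem sub_dod {T d : Finset GolayPt} (hT : T ∈ dodecads) (hd : d ∈ CW) (h : Disjoint d T) :
    d = ∅ ∨ d.card = 12 := by
  have h1 := card_symmDiff_add d T
  rw [Finset.disjoint_iff_inter_eq_empty.1 h, hT.2, Finset.card_empty] at h1
  have h2 := card_CW (symmDiff_mem_CW hd hT.1)
  have h3 := card_CW hd
  rw [← Finset.card_eq_zero]; omega

/-- an element conjugating dodecad involutions is monomial -/
theorem conj_dodecad {T T' : Finset GolayPt} (hT : T ∈ dodecads) (hT' : T' ∈ dodecads) {g : Co0}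
    (e : g * sgC T = sgC T' * g) : g ∈ N0 := by
  obtain ⟨p, hp⟩ := exists_notMem (s := T) (by rw [hT.2]; norm_num)
  have hx : ∀ q ∈ T', (g • E8 p : LL).1 q = 0 := (sgC_fix_iff hT'.1).1 (by
    rw [← mul_smul, ← e, mul_smul, (sgC_fix_iff hT.1).2 fun q hq => by
      rw [coe_E8, e8_apply, if_neg (by rintro rfl; exact hp hq)]])
  have h1 : ∀ i j, i ≠ j → i ∉ T' → j ∉ T' → 8 ∣ (g • E8 p : LL).1 i + (g • E8 p : LL).1 j := by
    intro i j hij hi hj
    let u : LL := ⟨_, four_mem (y := iz {i, j}) (by rw [sum_iz, Finset.card_pair hij]; norm_num)⟩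
    have hw : ∀ q ∈ T, (g⁻¹ • u : LL).1 q = 0 := (sgC_fix_iff hT.1).1 (by
      rw [← mul_smul, eq_inv_mul_of_mul_eq e, mul_assoc, mul_inv_cancel_right, mul_smul,
        (sgC_fix_iff hT'.1).2 fun q hq => by
          have : q ∉ ({i, j} : Finset GolayPt) := by
            simp only [Finset.mem_insert, Finset.mem_singleton]; rintro (rfl | rfl) <;> contradiction
          simp [u, iz, this]])
    obtain ⟨q0, hq0⟩ : T.Nonempty := Finset.card_pos.1 (by rw [hT.2]; norm_num)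
    obtain ⟨d, hd, y, hy, -⟩ := even_form (g⁻¹ • u).2 (q := q0) (by rw [hw q0 hq0]; norm_num)
    have hn : sqNorm ((g⁻¹ • u : LL) : ZV) = 32 := by
      rw [co_norm]; exact (norm_four_iz _).trans (by rw [Finset.card_pair hij]; norm_num)
    rcases sub_dod hT hd (Finset.disjoint_left.2 fun q h1 h2 => by
      have := hy q
      rw [hw q h2, iz, if_pos h1] at this; omega) with k | k
    · have h2 := co_dot g (E8 p) (g⁻¹ • u)
      rw [smul_inv_smul, dot_comm (E8 p : ZV), coe_E8, dot_e8, hy p, k] at h2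
      change dotInt _ ((4 : ℤ) • iz {i, j}) = _ at h2
      rw [dot_smul, dot_iz, Finset.sum_pair hij] at h2
      simp only [iz, Finset.notMem_empty, if_false] at h2
      omega
    · have := card_mul_le_sqNorm ((g⁻¹ • u : LL) : ZV) d 4 fun q hq => by
        have := hy q
        rw [iz, if_pos hq] at this
        exact sq_ge_of_ne (k := 2) (by norm_num) (by omega)
      rw [k, hn] at this; norm_num at this
  have hc : (Finset.univ \ T').card = 12 := by rw [Finset.card_univ_sdiff, card_golayPt, hT'.2]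
  have h4 : ∀ i ∉ T', 4 ∣ (g • E8 p : LL).1 i := fun i hi => by
    obtain ⟨j, hj, k, hk, hjk⟩ := Finset.one_lt_card.1 (show 1 < ((Finset.univ \ T').erase i).card by
      rw [Finset.card_erase_of_mem (by simpa), hc]; norm_num)
    simp only [Finset.mem_erase, Finset.mem_sdiff, Finset.mem_univ, true_and] at hj hk
    have a1 := h1 i j hj.1.symm hi hj.2
    have a2 := h1 i k hk.1.symm hi hk.2
    have a3 := h1 j k hjk hj.2 hk.2
    omega
  have hn : sqNorm ((g • E8 p : LL) : ZV) = 64 := by rw [co_norm]; exact norm_e8 p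
  have h8 : ∀ i, 8 ∣ (g • E8 p : LL).1 i := fun i => by
    by_contra h
    have hi : i ∉ T' := fun hi => h (by rw [hx i hi]; norm_num)
    have := card_mul_le_sqNorm ((g • E8 p : LL) : ZV) (Finset.univ \ T') 16 fun j hj => by
      have hj' := (Finset.mem_sdiff.1 hj).2
      have a1 := h4 j hj'
      refine sq_ge_of_ne (k := 4) (by norm_num) ?_
      by_cases e : i = j
      · subst e; omega
      · have := h1 i j e hi hj'; omega
    rw [hc, hn] at this; norm_num at this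
  choose y hy using h8
  have e8' : ((g • E8 p : LL) : ZV) = (8 : ℤ) • y := funext hy
  rcases cg_eight y p with k | k <;> rw [← e8'] at k
  · have := k.norm_eq (zero_mem _) hn.le (by decide +kernel)
    rw [hn] at this; exact absurd this (by decide +kernel)
  · exact (mem_N0_iff p p).2 k

theorem compl_dod {T : Finset GolayPt} (hT : T ∈ dodecads) : Finset.univ \ T ∈ dodecads :=
  ⟨compl_mem_CW hT.1, by rw [Finset.card_univ_sdiff, card_golayPt, hT.2]⟩

theorem comm_mono {c S : Finset GolayPt} (hc : c ∈ CW) (hS : S ∈ CW) {σ : M24}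
    (e : ((sgC c * pmC σ : Co0) : Spor.Co1) * (sgC S : Co0) = (sgC S : Co0) * (sgC c * pmC σ : Co0)) :
    σ.1 • S = S ∨ σ.1 • S = Finset.univ \ S := by
  rw [← QuotientGroup.mk_mul, ← QuotientGroup.mk_mul, mul_assoc, pmC_mul_sgC _ hS, ← mul_assoc, ← mul_assoc,
    sgC_mul hc (smul_mem_CW σ.2 hS), sgC_mul hS hc] at e
  rcases (mk_mono_inj (symmDiff_mem_CW hS hc) (symmDiff_mem_CW hc (smul_mem_CW σ.2 hS)) e.symm).2 with k | k
  · exact Or.inl (by rwa [symmDiff_comm S, symmDiff_right_inj] at k)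
  · refine Or.inr ?_
    rwa [compl_eq_symmDiff, symmDiff_comm S, symmDiff_assoc, symmDiff_right_inj, ← compl_eq_symmDiff] at k

theorem cent_dod {T : Finset GolayPt} (hT : T ∈ dodecads) {x : Spor.Co1}
    (e : x * (sgC T : Co0) = (sgC T : Co0) * x) : ∃ c ∈ CW, ∃ σ : M24, x = (sgC c * pmC σ : Co0) := by
  obtain ⟨g, rfl⟩ := QuotientGroup.mk_surjective x
  refine mem_N1.1 (mk_mem_N1.2 ?_)
  rw [← QuotientGroup.mk_mul, ← QuotientGroup.mk_mul] at e
  rcases mk_eq_iff.1 e.symm with k | k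
  · exact conj_dodecad hT hT k
  · exact conj_dodecad hT (compl_dod hT) (by rw [k, ← negC_mul_sgC hT.1, mul_assoc])

theorem mono_pow {c : Finset GolayPt} (hc : c ∈ CW) {σ : M24} {n : ℕ}
    (h : ((sgC c * pmC σ : Co0) : Spor.Co1) ^ n ∈ E1) : σ ^ n = 1 := by
  have := (mem_pker.1 h).2
  rwa [pel_pow _ (mono_mem_N1 hc σ), pel_rho hc] at this

theorem fix_of_odd {σ : Equiv.Perm GolayPt} {n : ℕ} (hn : Odd n) (h : σ ^ n = 1) {S : Finset GolayPt}
    (e : σ • S = S ∨ σ • S = Finset.univ \ S) : σ • S = S := by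
  refine e.elim id fun e => ?_
  obtain ⟨k, rfl⟩ := hn
  have h2 : (σ ^ 2) • S = S := by
    rw [sq, mul_smul, e, smul_sdiff, smul_univ, e, Finset.sdiff_sdiff_eq_self (Finset.subset_univ _)]
  have h3 : (σ ^ 2) ^ k • S = S := MulAction.mem_stabilizer_iff.1 (pow_mem (MulAction.mem_stabilizer_iff.2 h2) k)
  rw [← pow_mul] at h3
  rw [← h3, ← mul_smul, ← pow_succ', h, one_smul, h3]

theorem eq_one_of_odd {x : Spor.Co1} {n : ℕ} (hn : Odd n) (h : x ^ n = 1) (hx : x ∈ E1) : x = 1 := by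
  obtain ⟨k, rfl⟩ := hn
  rwa [pow_succ, pow_mul, sq, E1_sq hx, one_pow, one_mul] at h

theorem sgC_mem_E1 {c : Finset GolayPt} (hc : c ∈ CW) : ((sgC c * pmC 1 : Co0) : Spor.Co1) ∈ E1 :=
  mem_E1.2 ⟨c, hc, by rw [map_one, mul_one]⟩

theorem card_inv11 {σ : M24} (h : σ ^ 11 = 1) (h1 : σ ≠ 1) {U : Finset GolayPt} (hU : σ.1 • U = U) :
    U.card % 11 ≤ 2 := by
  have h' : σ.1 ^ 11 = 1 := congrArg Subtype.val h
  have key : ∀ U : Finset GolayPt, σ.1 • U = U → 11 ∣ (U \ fixS σ.1).card := fun U hU => by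
    by_contra hd
    obtain ⟨x, x1, x2⟩ := exists_fix_in (by norm_num) h' (s := U \ fixS σ.1)
      (by rw [smul_sdiff, hU, smul_fixS_of_commute rfl]) hd
    exact (Finset.mem_sdiff.1 x1).2 (by simp [x2])
  have h4 : (fixS σ.1).card ≤ 4 := by
    by_contra hc
    obtain ⟨s, s1, s2⟩ := Finset.exists_subset_card_eq (s := fixS σ.1) (n := 5) (by omega)
    obtain ⟨k, hk, e⟩ := exists_smul_eq (s := s) (t := fs 0x80000f) s2.le (by rw [s2]; decide +kernel)
    have hm : k * σ.1 * k⁻¹ ∈ fixer M24 [3, 2, 1, 0, 23] := mem_fixer.2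
      ⟨mul_mem (mul_mem hk σ.2) (inv_mem hk), fun b hb => by
        have : pt b ∈ fixS (k * σ.1 * k⁻¹) := by
          rw [fixS_conj]
          exact Finset.smul_finset_subset_smul_finset s1 (e ▸ (by revert b; decide +kernel))
        simpa using this⟩
    have a1 := orderOf_dvd_natCard (⟨_, hm⟩ : fixer M24 [3, 2, 1, 0, 23])
    rw [chain5.card, ← orderOf_coe, orderOf_conj', orderOf_coe,
      haveI := Fact.mk (by norm_num : Nat.Prime 11); orderOf_eq_prime h h1] at a1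
    revert a1; decide +kernel
  have a1 := key _ (smul_univ _)
  rw [Finset.card_univ_sdiff, card_golayPt] at a1
  have a2 := key U hU
  have a3 := Finset.card_sdiff_add_card_inter U (fixS σ.1)
  have a4 : (U ∩ fixS σ.1).card ≤ (fixS σ.1).card := Finset.card_le_card Finset.inter_subset_right
  omega

theorem plotkin {S : Finset (Finset GolayPt)} (h8 : ∀ O ∈ S, O.card = 8)
    (h2 : ∀ O ∈ S, ∀ O' ∈ S, O ≠ O' → (O ∩ O').card = 2) : S.card ≤ 9 := by
  have h1 : ∀ O O' : Finset GolayPt, ∑ p, (3 * iz O p - 1) * (3 * iz O' p - 1) =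
      9 * (O ∩ O').card - 3 * O.card - 3 * O'.card + 24 := fun O O' => by
    rw [← sum_iz, ← sum_iz, ← sum_iz, Finset.mul_sum, Finset.mul_sum, Finset.mul_sum, ← Finset.sum_sub_distrib,
      ← Finset.sum_sub_distrib, show (24 : ℤ) = ∑ _p : GolayPt, 1 by simp [card_golayPt], ← Finset.sum_add_distrib]
    exact Finset.sum_congr rfl fun p _ => by rw [← iz_mul]; ring
  have h3 : 0 ≤ ∑ p, (∑ O ∈ S, (3 * iz O p - 1)) * (∑ O ∈ S, (3 * iz O p - 1)) :=
    Finset.sum_nonneg fun p _ => mul_self_nonneg _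
  simp only [Finset.sum_mul_sum] at h3
  rw [Finset.sum_comm] at h3
  have h4 : ∀ O ∈ S, ∑ p, ∑ O' ∈ S, (3 * iz O p - 1) * (3 * iz O' p - 1) = 54 - 6 * (S.card : ℤ) := fun O hO => by
    rw [Finset.sum_comm, Finset.sum_congr rfl fun O' _ => h1 O O',
      Finset.sum_congr rfl (g := fun O' => (if O = O' then 54 else 0) - (6 : ℤ)) fun O' hO' => by
        by_cases e : O = O'
        · rw [if_pos e, ← e, Finset.inter_self, h8 O hO]; norm_num
        · rw [if_neg e, h2 O hO O' hO' e, h8 O hO, h8 O' hO']; norm_num]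
    simp [hO, mul_comm]
  rw [Finset.sum_congr rfl h4, Finset.sum_const, nsmul_eq_mul] at h3
  by_contra hc
  have : (10 : ℤ) ≤ S.card := by omega
  nlinarith

theorem block_count {H : Type*} [Group H] [Finite H] [DecidableEq H] (S : Finset H) (B L : Subgroup H)
    [DecidablePred (· ∈ B)] (hS : ∀ g ∈ L, ∀ d ∈ S, g * d * g⁻¹ ∈ S) (hB : ∀ g ∈ L, ∀ s ∈ B, g * s = s * g)
    (d : H) (ht : ∀ e ∈ S, ∃ g ∈ L, g * d * g⁻¹ * e ∈ B) :
    ∃ n, n ∣ Nat.card L ∧ n * (S.filter (d * · ∈ B)).card = S.card := by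
  classical
  have := Fintype.ofFinite L
  have cj : ∀ g ∈ L, ∀ s : H, g * s * g⁻¹ ∈ B ↔ s ∈ B := fun g hg s =>
    ⟨fun h => by
      have := hB _ hg _ h
      rw [← show s = g * s * g⁻¹ from mul_left_cancel (a := g) (by rw [this]; simp)] at h; exact h,
     fun h => by rw [hB _ hg _ h]; simpa⟩
  let L0 : Subgroup L :=
    { carrier := {g | g.1 * d * g.1⁻¹ * d⁻¹ ∈ B}
      one_mem' := by simp
      mul_mem' := fun {g h} (hg : _ ∈ B) hh => by
        have := mul_mem ((cj _ g.2 _).2 hh) hg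
        simpa [mul_assoc] using this
      inv_mem' := fun {g} (hg : _ ∈ B) => (cj _ g.2 _).1 (by simpa [mul_assoc] using inv_mem hg) }
  have h := Finset.card_mul_eq_card_mul (s := (Finset.univ : Finset L)) (t := S)
    (m := (S.filter (d * · ∈ B)).card) (n := Nat.card L0) (fun (g : L) (e : H) => g.1 * d * g.1⁻¹ * e ∈ B)
    (fun g _ => by
      refine (Finset.card_bij (fun e _ => g.1 * e * g.1⁻¹) (fun e he => ?_) (fun e _ e' _ k => by simpa using k)
        (fun e he => ⟨g.1⁻¹ * e * g.1, ?_, by simp [mul_assoc]⟩)).symm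
      · rw [Finset.mem_filter] at he
        exact (Finset.mem_bipartiteAbove _).2 ⟨hS _ g.2 _ he.1, by simpa [mul_assoc] using (cj _ g.2 _).2 he.2⟩
      · rw [Finset.mem_bipartiteAbove] at he
        exact Finset.mem_filter.2 ⟨by simpa using hS _ (inv_mem g.2) _ he.1,
          (cj _ g.2 _).1 (by simpa [mul_assoc] using he.2)⟩)
    (fun e he => by
      obtain ⟨k, hk, h1⟩ := ht e he
      rw [Nat.card_eq_fintype_card, ← Finset.card_univ]
      refine (Finset.card_bij (fun h _ => (⟨k, hk⟩ : L) * h.1) (fun h _ => ?_) (fun e _ e' _ k => by simpa using k)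
        (fun g hg => ⟨⟨(⟨k, hk⟩ : L)⁻¹ * g, ?_⟩, Finset.mem_univ _, by simp⟩)).symm
      · refine (Finset.mem_bipartiteBelow _).2 ⟨Finset.mem_univ _, ?_⟩
        simpa [mul_assoc] using mul_mem ((cj k hk _).2 h.2) h1
      · refine (cj k hk _).1 ?_
        simpa [mul_assoc] using mul_mem ((Finset.mem_bipartiteBelow _).1 hg).2 (inv_mem h1))
  refine ⟨L0.index, L0.index_dvd_card, Nat.eq_of_mul_eq_mul_right (Nat.card_pos (α := L0)) ?_⟩
  rw [← h, Finset.card_univ, ← Nat.card_eq_fintype_card, ← L0.index_mul_card]; ring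

section hyp
variable {O T : Finset GolayPt} (hO : O ∈ octads) (hT : T ∈ dodecads)
include hO

theorem tr_a {g : Co0} (h : IsConj ((sgC O : Co0) : Spor.Co1) g) : tr g = 64 ∨ tr g = -64 := by
  have := tr_of_conj h
  rwa [tr_sgC hO.1, hO.2] at this

theorem conj_a_iff {c : Finset GolayPt} (hc : c ∈ CW) :
    IsConj ((sgC O : Co0) : Spor.Co1) (sgC c : Co0) ↔ c.card = 8 ∨ c.card = 16 := by
  refine ⟨fun h => ?_, fun h => h.elim (fun h => conj_octad hO ⟨hc, h⟩) fun h => ?_⟩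
  · have := tr_a hO h
    rw [tr_sgC hc] at this; omega
  · have := mk_sgC_compl hc 1
    rw [mul_one, mul_one] at this
    exact this ▸ conj_octad hO (compl_mem_octads hc h)

include hT

theorem X_mem_E1 {d : Spor.Co1} (h : Top.X ((sgC O : Co0) : Spor.Co1) (sgC T : Co0) d) : d ∈ E1 := by
  have a2 : ∀ c, ((sgC c : Co0) : Spor.Co1) * (sgC c : Co0) = 1 := fun c => by
    rw [← QuotientGroup.mk_mul, sgC_sq]; rfl
  obtain ⟨c, hc, σ, rfl⟩ := cent_dod hT (h.comm (a2 O) (a2 T))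
  by_cases hσ : σ = 1
  · exact hσ ▸ sgC_mem_E1 hc
  exfalso
  have h2 : σ ^ 2 = 1 := mono_pow hc (by rw [sq, h.sq (a2 O)]; exact one_mem _)
  have t1 := tr_a hO h.1
  have t2 := h.2
  have hT' := smul_mem_dodecads σ.2 hT
  rw [← QuotientGroup.mk_mul, mul_assoc, pmC_mul_sgC _ hT.1, ← mul_assoc, sgC_mul hc hT'.1] at t2
  replace t2 := tr_a hO t2
  rw [tr_mono hc] at t1
  rw [tr_mono (symmDiff_mem_CW hc hT'.1)] at t2
  have a1 := card_symmDiff_inter c (σ.1 • T) (fixS σ.1)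
  have a3 : (c ∩ σ.1 • T ∩ fixS σ.1).card ≤ (c ∩ fixS σ.1).card := Finset.card_le_card
    (Finset.inter_subset_inter Finset.inter_subset_left le_rfl)
  rcases fix_two σ.2 (by rw [orderOf_coe]; exact orderOf_eq_prime h2 hσ) with k | k
  · have a4 := card_symmDiff_add (σ.1 • T) (fixS σ.1)
    have a5 := card_CW (symmDiff_mem_CW hT'.1 k.1)
    have a6 : (c ∩ fixS σ.1).card = 8 → (c ∩ σ.1 • T ∩ fixS σ.1).card = (σ.1 • T ∩ fixS σ.1).card := fun e => by
      have : c ∩ fixS σ.1 = fixS σ.1 := Finset.eq_of_subset_of_card_le Finset.inter_subset_right (by rw [e, k.2])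
      rw [Finset.inter_comm c, Finset.inter_assoc, this]
    rw [hT'.2, k.2] at a4
    rw [k.2] at t1 t2
    omega
  · have : (c ∩ fixS σ.1).card ≤ (fixS σ.1).card := Finset.card_le_card Finset.inter_subset_right
    omega

theorem X_iff {d : Spor.Co1} : Top.X ((sgC O : Co0) : Spor.Co1) (sgC T : Co0) d ↔
    ∃ U ∈ octads, d = (sgC U : Co0) ∧ ((U ∩ T).card = 6 ∨ (U ∩ T).card = 2) := by
  have key : ∀ U ∈ octads, IsConj ((sgC O : Co0) : Spor.Co1) (((sgC U : Co0) : Spor.Co1) * (sgC T : Co0)) ↔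
      ((U ∩ T).card = 6 ∨ (U ∩ T).card = 2) := fun U hU => by
    rw [← QuotientGroup.mk_mul, sgC_mul hU.1 hT.1, conj_a_iff hO (symmDiff_mem_CW hU.1 hT.1)]
    have := card_symmDiff_add U T
    rw [hU.2, hT.2] at this
    omega
  refine ⟨fun h => ?_, by rintro ⟨U, hU, rfl, h⟩; exact ⟨conj_octad hO hU, (key U hU).2 h⟩⟩
  obtain ⟨c, hc, rfl⟩ := mem_E1.1 (X_mem_E1 hO hT h)
  rcases (conj_a_iff hO hc).1 h.1 with k | k
  · exact ⟨c, ⟨hc, k⟩, rfl, (key c ⟨hc, k⟩).1 h.2⟩
  · have := mk_sgC_compl hc 1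
    rw [mul_one, mul_one] at this
    rw [← this] at h ⊢
    exact ⟨_, compl_mem_octads hc k, rfl, (key _ (compl_mem_octads hc k)).1 h.2⟩

omit hO hT in
theorem oct_inj {U V : Finset GolayPt} (hU : U ∈ octads) (hV : V ∈ octads)
    (e : ((sgC U : Co0) : Spor.Co1) = (sgC V : Co0)) : U = V := by
  rcases (mk_mono_inj hU.1 hV.1 (σ := 1) (τ := 1) (by simpa using e)).2 with k | k
  · exact k.symm
  · have := hV.2
    rw [k, Finset.card_univ_sdiff, card_golayPt, hU.2] at this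
    omega

end hyp

theorem not_dvd_of_card {H : Type*} [Group H] [Finite H] {a : H} {p : ℕ} (hp : p.Prime)
    (h : ¬ p ∣ Nat.card ↥𝐂[a]) (y : H) (h1 : y * a = a * y) (h2 : y ^ p = 1) : y = 1 := by
  by_contra h3
  have := orderOf_dvd_natCard (⟨y, mem_cent1_iff.2 h1⟩ : ↥𝐂[a])
  rw [← orderOf_coe, haveI := Fact.mk hp; orderOf_eq_prime h2 h3] at this
  exact h this

theorem bl_Co1 {O : Finset GolayPt} (hO : O ∈ octads) {B L : Subgroup Spor.Co1} (hB : B ≤ E1)
    (hc : ((sgC (fs D0) : Co0) : Spor.Co1) ∈ B) (hn : ∀ s ∈ B, ¬ IsConj ((sgC O : Co0) : Spor.Co1) s)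
    (hL : ∀ g ∈ L, ∀ s ∈ B, g * s = s * g)
    (ht : ∀ d e, Top.X ((sgC O : Co0) : Spor.Co1) (sgC (fs D0) : Co0) d →
      Top.X ((sgC O : Co0) : Spor.Co1) (sgC (fs D0) : Co0) e → ∃ g ∈ L, g * d * g⁻¹ * e ∈ B) :
    ∃ g ∈ L, g ≠ 1 ∧ g ^ 11 = 1 := by
  classical
  let f : ℕ → Bool := fun i => Nat.beq (popc (enc i)) 8 &&
    (Nat.beq (popc (Nat.land (enc i) D0)) 6 || Nat.beq (popc (Nat.land (enc i) D0)) 2)
  let R := ((Finset.range 4096).filter fun i => f i = true).image fun i => fs (enc i)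
  have hR : ∀ U, U ∈ R ↔ U ∈ octads ∧ ((U ∩ fs D0).card = 6 ∨ (U ∩ fs D0).card = 2) := fun U => by
    simp only [R, f, Finset.mem_image, Finset.mem_filter, Finset.mem_range, Bool.and_eq_true, Bool.or_eq_true,
      beq_iff, ← card_fs, fs_land]
    exact ⟨by rintro ⟨i, ⟨h1, h2, h3⟩, rfl⟩; exact ⟨⟨enc_mem_CW h1, h2⟩, h3⟩, fun ⟨h1, h2⟩ => by
      obtain ⟨i, hi, rfl⟩ := exists_enc h1.1
      exact ⟨i, ⟨hi, h1.2, h2⟩, rfl⟩⟩
  have cR : R.card = 264 := by
    rw [Finset.card_image_of_injOn fun i hi j hj e => by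
      have hi' := Finset.mem_range.1 (Finset.mem_filter.1 hi).1
      have hj' := Finset.mem_range.1 (Finset.mem_filter.1 hj).1
      rw [← enc_land hi', fs_inj (enc_lt hi') (enc_lt hj') e, enc_land hj'], ← countLt_eq]
    decide +kernel
  let S := R.image fun U => ((sgC U : Co0) : Spor.Co1)
  have hS : ∀ d, d ∈ S ↔ Top.X ((sgC O : Co0) : Spor.Co1) (sgC (fs D0) : Co0) d := fun d => by
    rw [X_iff hO D0_mem, Finset.mem_image]
    exact ⟨fun ⟨U, h1, h2⟩ => ⟨U, ((hR U).1 h1).1, h2.symm, ((hR U).1 h1).2⟩,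
      fun ⟨U, h1, h2, h3⟩ => ⟨U, (hR U).2 ⟨h1, h3⟩, h2.symm⟩⟩
  have cS : S.card = 264 := by
    rw [Finset.card_image_of_injOn fun U hU V hV e => oct_inj ((hR U).1 hU).1 ((hR V).1 hV).1 e, cR]
  obtain ⟨d, hd⟩ : S.Nonempty := Finset.card_pos.1 (by omega)
  obtain ⟨n, n1, n2⟩ := block_count S B L (fun g hg d hd => (hS _).2 (((hS d).1 hd).conj (hL g hg _ hc))) hL d
    fun e he => ht d e ((hS d).1 hd) ((hS e).1 he)
  have h9 : (S.filter (d * · ∈ B)).card ≤ 9 := by
    rw [Finset.filter_image]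
    refine Finset.card_image_le.trans (plotkin (fun U hU => ((hR U).1 (Finset.mem_filter.1 hU).1).1.2)
      fun U hU V hV hne => ?_)
    obtain ⟨u1, u2⟩ := Finset.mem_filter.1 hU
    obtain ⟨v1, v2⟩ := Finset.mem_filter.1 hV
    replace u1 := ((hR U).1 u1).1
    replace v1 := ((hR V).1 v1).1
    have := hn _ (mul_mem (inv_mem u2) v2)
    rw [mul_inv_rev, mul_assoc, inv_mul_cancel_left, ← QuotientGroup.mk_inv, sgC_inv, ← QuotientGroup.mk_mul,
      sgC_mul u1.1 v1.1, conj_a_iff hO (symmDiff_mem_CW u1.1 v1.1)] at this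
    have a1 := card_symmDiff_add U V
    have a2 := card_inter_octads u1 v1 hne
    rw [u1.2, v1.2] at a1
    omega
  have h11 : 11 ∣ Nat.card L := by
    rw [cS] at n2
    refine (((by norm_num : Nat.Prime 11).dvd_mul.1 (n2 ▸ (by norm_num : 11 ∣ 264))).resolve_right fun h => ?_).trans n1
    have := Nat.eq_zero_of_dvd_of_lt h (by omega)
    rw [this] at n2; omega
  obtain ⟨g, hg⟩ := haveI := Fact.mk (by norm_num : Nat.Prime 11); exists_prime_orderOf_dvd_card' 11 h11
  rw [← orderOf_coe] at hg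
  exact ⟨g, g.2, fun e => by rw [e, orderOf_one] at hg; omega, hg ▸ pow_orderOf_eq_one _⟩

theorem not_conj_b {g : Co0} (h : g * g = 1) : ¬ IsConj (b2C : Spor.Co1) g := fun e => by
  obtain ⟨k, hk⟩ := sq_of_conj e
  rw [h, b2C_sq, negC_comm, mul_inv_cancel_right] at hk
  exact negC_ne_one hk.symm

theorem mk_sgC_sq (c : Finset GolayPt) : ((sgC c : Co0) : Spor.Co1) * (sgC c : Co0) = 1 := by
  rw [← QuotientGroup.mk_mul, sgC_sq]; rfl

theorem mk_sgC_ne {c : Finset GolayPt} (hc : c ∈ CW) (h : c.card = 8 ∨ c.card = 12) :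
    ((sgC c : Co0) : Spor.Co1) ≠ 1 := fun e => by
  rcases mk_eq_one_iff.1 e with e | e
  · rw [sgC_inj hc empty_mem_CW (e.trans sgC_empty.symm)] at h; simp at h
  · rw [sgC_inj hc univ_mem_CW e, Finset.card_univ, card_golayPt] at h; omega

section main
variable (hN : ∀ x : Spor.Co1, orderOf x = 2 → ∃ g, g * x * g⁻¹ ∈ N1)
  {O : Finset GolayPt} (hO : O ∈ octads)
include hN hO

theorem cls_Co1 {T : Finset GolayPt} (hT : T ∈ dodecads) (x : Spor.Co1) (h2 : x * x = 1) (h1 : x ≠ 1) :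
    IsConj ((sgC O : Co0) : Spor.Co1) x ∨ IsConj (b2C : Spor.Co1) x ∨ IsConj ((sgC T : Co0) : Spor.Co1) x := by
  obtain ⟨g, hg⟩ := hN x (orderOf_eq_prime (by rw [sq, h2]) h1)
  have e : IsConj (g * x * g⁻¹) x := (isConj_iff.2 ⟨g, rfl⟩).symm
  exact (cls_mono hO hT hg (Top.sq_of_isConj h2 e.symm) (Top.ne_of_isConj h1 e.symm)).imp (·.trans e)
    (Or.imp (·.trans e) (·.trans e))

/-- the three classes of involutions of `Co1` -/
theorem co1_invol {T : Finset GolayPt} (hT : T ∈ dodecads) :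
    orderOf ((sgC O : Co0) : Spor.Co1) = 2 ∧ orderOf (b2C : Spor.Co1) = 2 ∧ orderOf ((sgC T : Co0) : Spor.Co1) = 2 ∧
    ¬ IsConj ((sgC O : Co0) : Spor.Co1) b2C ∧ ¬ IsConj ((sgC O : Co0) : Spor.Co1) (sgC T : Co0) ∧
    ¬ IsConj (b2C : Spor.Co1) (sgC T : Co0) ∧ ∀ x : Spor.Co1, orderOf x = 2 →
      IsConj x (sgC O : Co0) ∨ IsConj x b2C ∨ IsConj x (sgC T : Co0) := by
  refine ⟨orderOf_eq_prime (by rw [sq, mk_sgC_sq]) (mk_sgC_ne hO.1 (Or.inl hO.2)),
    orderOf_eq_prime (by rw [sq, ← QuotientGroup.mk_mul, b2C_sq]; exact mk_eq_one_iff.2 (Or.inr rfl)) fun e => ?_,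
    orderOf_eq_prime (by rw [sq, mk_sgC_sq]) (mk_sgC_ne hT.1 (Or.inr hT.2)),
    fun e => not_conj_b (sgC_sq O) e.symm, fun e => ?_, not_conj_b (sgC_sq T), fun x hx => ?_⟩
  · exact not_conj_b (g := 1) (mul_one 1) (by rw [e]; exact IsConj.refl _)
  · have := (conj_a_iff hO hT.1).1 e
    rw [hT.2] at this; omega
  · exact (cls_Co1 hN hO hT x (by rw [← sq, ← hx, pow_orderOf_eq_one]) (by rintro rfl; simp at hx)).imp
      IsConj.symm (Or.imp IsConj.symm IsConj.symm)

theorem hyp_Co1 (hc : Nat.card ↥𝐂[((sgC O : Co0) : Spor.Co1)] = 2 ^ 9 * 174182400) :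
    Top.Hyp ((sgC O : Co0) : Spor.Co1) b2C (sgC (fs D0) : Co0) E1
      fun d => ∃ U ∈ octads, d = (sgC U : Co0) ∧ (U ∩ fs D0).card = 6 where
  aa := mk_sgC_sq _
  a1 := mk_sgC_ne hO.1 (Or.inl hO.2)
  cc := mk_sgC_sq _
  c1 := mk_sgC_ne D0_mem.1 (Or.inr D0_mem.2)
  cls := cls_Co1 hN hO D0_mem
  a11 := not_dvd_of_card (by norm_num) (by rw [hc]; norm_num)
  a13 := not_dvd_of_card (by norm_num) (by rw [hc]; norm_num)
  c13 y h1 h2 := by
    obtain ⟨c, hc, σ, rfl⟩ := cent_dod D0_mem h1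
    have h3 : σ ^ 13 = 1 := mono_pow hc (h2 ▸ one_mem _)
    have h4 : σ = 1 := by
      have a1 := orderOf_dvd_natCard σ
      have a2 := orderOf_dvd_of_pow_eq_one h3
      rw [card_M24] at a1
      exact orderOf_eq_one_iff.1 (Nat.dvd_one.1 (by simpa using Nat.dvd_gcd a1 a2))
    exact eq_one_of_odd (by decide) h2 (h4 ▸ sgC_mem_E1 hc)
  b13 := exists_13
  c11 := by
    have h : inM24 0xbb6d395494380af5c1c21a22a0b126 = true := by decide +kernel
    refine ⟨pm1 (m24 h), fun e => ?_, ?_, ?_⟩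
    · have := congrArg (fun σ : M24 => code σ) (pm1_injective (e.trans (map_one pm1).symm))
      simp only [code_m24, coe_one, code_one] at this
      revert this; decide +kernel
    · change ((pmC _ * sgC _ : Co0) : Spor.Co1) = (sgC _ * pmC _ : Co0)
      rw [pmC_mul_sgC _ D0_mem.1, smul_fs _ D0_lt, code_m24]
      congr 4
      decide +kernel
    · rw [← map_pow, show m24 h ^ 11 = 1 from Subtype.ext (code_inj (by
        rw [coe_pow, code_pow, code_m24, coe_one, code_one]; decide +kernel)), map_one]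
  prod x y hx hy h1 h2 := by
    obtain ⟨g, rfl⟩ := QuotientGroup.mk_surjective x
    obtain ⟨h, rfl⟩ := QuotientGroup.mk_surjective y
    have g2 : g * g = 1 := by obtain ⟨k, e⟩ := sq_of_conj hx; simpa [sgC_sq] using e
    have h2' : h * h = 1 := by rcases hy with hy | hy <;> obtain ⟨k, e⟩ := sq_of_conj hy <;> simpa [sgC_sq] using e
    have e : h * g = g * h := by
      rw [← QuotientGroup.mk_mul, ← QuotientGroup.mk_mul] at h1
      refine (mk_eq_iff.1 h1).resolve_right fun e => ?_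
      have a1 := tr_conj h g
      rw [e, mul_assoc, mul_inv_cancel_right, tr_neg] at a1
      have := tr_a hO hx
      omega
    have e2 : g * h * (g * h) = 1 := by rw [mul_assoc, ← mul_assoc h, e, mul_assoc, h2', mul_one, g2]
    exact (cls_Co1 hN hO D0_mem _ (by rw [← QuotientGroup.mk_mul, ← QuotientGroup.mk_mul, e2]; rfl) h2).imp id
      fun k => k.resolve_left (not_conj_b e2)
  cA := mem_E1.2 ⟨_, D0_mem.1, rfl⟩
  sqA _ := E1_sq
  K _ := X_mem_E1 hO D0_mem
  bl _ _ := bl_Co1 hO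
  e11 g s g1 g2 h1 hs h2 := by
    obtain ⟨c, hc, σ, rfl⟩ := cent_dod D0_mem h1
    obtain ⟨S, hS, rfl⟩ := mem_E1.1 hs
    have h3 : σ ^ 11 = 1 := mono_pow hc (g2 ▸ one_mem _)
    have h4 : σ ≠ 1 := by rintro rfl; exact g1 (eq_one_of_odd (by decide) g2 (sgC_mem_E1 hc))
    have a1 := fix_of_odd (by decide) (congrArg Subtype.val h3) (comm_mono hc D0_mem.1 h1)
    have a2 := fix_of_odd (by decide) (congrArg Subtype.val h3) (comm_mono hc hS h2)
    have b1 := card_inv11 h3 h4 a2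
    have b2 := card_inv11 h3 h4 (U := S ∩ fs D0) (by rw [smul_inter, a1, a2])
    have b3 := card_symmDiff_add S (fs D0)
    have b4 := card_CW (symmDiff_mem_CW hS D0_mem.1)
    rw [D0_mem.2] at b3
    rcases card_CW hS with k | k | k | k | k
    · exact Or.inl (by rw [Finset.card_eq_zero.1 k, sgC_empty]; rfl)
    · omega
    · refine Or.inr ?_
      have : (symmDiff S (fs D0)).card = 0 ∨ (symmDiff S (fs D0)).card = 24 := by omega
      rcases this with e | e
      · rw [symmDiff_eq_bot.1 (Finset.card_eq_zero.1 e)]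
      · have e' := Finset.eq_univ_of_card _ (e.trans card_golayPt.symm)
        have := mk_sgC_compl D0_mem.1 1
        rwa [mul_one, mul_one, compl_eq_symmDiff, ← e', symmDiff_comm S, symmDiff_symmDiff_cancel_left] at this
    · omega
    · exact Or.inl (by
        rw [Finset.eq_univ_of_card _ (k.trans card_golayPt.symm)]; exact mk_eq_one_iff.2 (Or.inr rfl))
  exP := by
    have h := fs_mem_octads (m := 0xe0900b) (by decide +kernel)
    have h' : (fs 0xe0900b ∩ fs D0).card = 6 := by rw [← fs_land, card_fs]; decide +kernel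
    exact ⟨_, (X_iff hO D0_mem).2 ⟨_, h, rfl, Or.inl h'⟩, _, h, rfl, h'⟩
  exN := by
    have h := fs_mem_octads (m := 0x6e3008) (by decide +kernel)
    have h' : (fs 0x6e3008 ∩ fs D0).card = 2 := by rw [← fs_land, card_fs]; decide +kernel
    exact ⟨_, (X_iff hO D0_mem).2 ⟨_, h, rfl, Or.inr h'⟩, fun ⟨U, h1, h2, h3⟩ => by
      rw [← oct_inj h h1 h2, h'] at h3; omega⟩
  Pc := by
    rintro _ - ⟨U, h1, rfl, h3⟩
    have a1 := card_symmDiff_add U (fs D0)
    have a2 := card_symmDiff_inter U (fs D0) (fs D0)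
    rw [Finset.inter_assoc, Finset.inter_self, D0_mem.2, h3] at a2
    rw [h1.2, D0_mem.2, h3] at a1
    exact ⟨_, ⟨symmDiff_mem_CW h1.1 D0_mem.1, by omega⟩, by rw [← QuotientGroup.mk_mul, sgC_mul h1.1 D0_mem.1],
      by omega⟩
  par := by
    rintro g m _ hm h1 h2 - ⟨U, u1, rfl, u3⟩
    obtain ⟨c, hc, σ, rfl⟩ := cent_dod D0_mem h1
    have a1 := fix_of_odd hm (congrArg Subtype.val (mono_pow hc h2)) (comm_mono hc D0_mem.1 h1)
    have a2 := smul_mem_octads σ.2 u1
    refine ⟨σ.1 • U, a2, ?_, by rw [← u3, ← card_inter_smul σ.1 U, a1]⟩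
    rw [mul_inv_eq_iff_eq_mul, ← QuotientGroup.mk_mul, ← QuotientGroup.mk_mul, mul_assoc, pmC_mul_sgC _ u1.1,
      ← mul_assoc, ← mul_assoc, sgC_mul hc a2.1, sgC_mul a2.1 hc, symmDiff_comm]

/-- **A finite group containing `Co1` and the centraliser of its 2-central involution is `Co1`** -/
theorem range_eq_top (hc : Nat.card ↥𝐂[((sgC O : Co0) : Spor.Co1)] = 2 ^ 9 * 174182400)
    {G : Type*} [Group G] [Finite G] {ι : Spor.Co1 →* G} (hι : Function.Injective ι)
    (hC : 𝐂[ι (sgC O : Co0)] ≤ ι.range) : ι.range = ⊤ :=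
  Top.range_eq_top hι (hyp_Co1 hN hO hc) fun _ h => hC (mem_cent1_iff.2 h)

end main

end CA.Co
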