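import Cfsg.Agent.Lib.Co.Top
import Cfsg.Agent.Lib.Co.CT2

/-! Unconditional forms of the results of `Top`. -/

set_option autoImplicit false

namespace CA.Co
open Cfsg CA.Gol CA Subgroup

theorem co1_three : ∃ a b c : Spor.Co1, orderOf a = 2 ∧ orderOf b = 2 ∧ orderOf c = 2 ∧ ¬ IsConj a b ∧
    ¬ IsConj a c ∧ ¬ IsConj b c ∧ ∀ x : Spor.Co1, orderOf x = 2 → IsConj x a ∨ IsConj x b ∨ IsConj x c :=
  ⟨_, _, _, co1_invol exists_conj_N1 O0_mem D0_mem⟩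

theorem three_of_equiv {G : Type*} [Group G] (e : G ≃* Spor.Co1) : ∃ a b c : G, orderOf a = 2 ∧ orderOf b = 2 ∧
    orderOf c = 2 ∧ ¬ IsConj a b ∧ ¬ IsConj a c ∧ ¬ IsConj b c ∧
    ∀ x : G, orderOf x = 2 → IsConj x a ∨ IsConj x b ∨ IsConj x c := by
  obtain ⟨a, b, c, h1, h2, h3, h4, h5, h6, h7⟩ := co1_three
  have key : ∀ x y : G, IsConj x y ↔ IsConj (e x) (e y) := fun x y =>
    ⟨e.toMonoidHom.map_isConj, fun h => by simpa using e.symm.toMonoidHom.map_isConj h⟩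
  refine ⟨e.symm a, e.symm b, e.symm c, ?_⟩
  simp only [key, MulEquiv.orderOf_eq, MulEquiv.apply_symm_apply]
  exact ⟨h1, h2, h3, h4, h5, h6, fun x hx => h7 _ (by rwa [MulEquiv.orderOf_eq])⟩

theorem range_eq_top' {G : Type*} [Group G] [Finite G] {ι : Spor.Co1 →* G} (hι : Function.Injective ι)
    (hC : 𝐂[ι (sgC (fs O0) : Co0)] ≤ ι.range) : ι.range = ⊤ :=
  range_eq_top exists_conj_N1 O0_mem card_cent_eps hι hC

end CA.Co
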