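import Cfsg.Agent.Lib.G.Basic

/-!
A subgroup with the local structure of `Co1` that contains the centraliser of its 2-central
involution is the whole group (abstract form).
-/

set_option autoImplicit false

namespace CA.Top
open CA Subgroup

section dihedral
variable {G : Type*} [Group G] {d e : G}

theorem inv_pow_d (hd : d * d = 1) (he : e * e = 1) (i : ℕ) :
    d * (d * e) ^ i = ((d * e) ^ i)⁻¹ * d ∧ e * (d * e) ^ i = ((d * e) ^ i)⁻¹ * e := by
  have hd' : d⁻¹ = d := inv_eq_of_mul_eq_one_right hd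
  have he' : e⁻¹ = e := inv_eq_of_mul_eq_one_right he
  have h1 : d * (d * e) * d⁻¹ = (d * e)⁻¹ := by
    rw [← mul_assoc, hd, one_mul, mul_inv_rev, hd', he']
  have h2 : e * (d * e) * e⁻¹ = (d * e)⁻¹ := by
    rw [mul_assoc, mul_inv_cancel_right, mul_inv_rev, hd', he']
  constructor
  · rw [← inv_pow, ← h1, conj_pow, inv_mul_cancel_right]
  · rw [← inv_pow, ← h2, conj_pow, inv_mul_cancel_right]

theorem conj_pow_d (hd : d * d = 1) (he : e * e = 1) (i : ℕ) :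
    (d * e) ^ i * d * ((d * e) ^ i)⁻¹ = (d * e) ^ (2 * i) * d := by
  have : d * ((d * e) ^ i)⁻¹ = (d * e) ^ i * d := by
    rw [mul_inv_eq_iff_eq_mul, mul_assoc, (inv_pow_d hd he i).1, mul_inv_cancel_left]
  rw [mul_assoc, this, two_mul, pow_add, mul_assoc]

theorem dih (hd : d * d = 1) (he : e * e = 1) (j : ℕ) : ∃ i : ℕ,
    d * (d * e) ^ j = ((d * e) ^ i)⁻¹ * d * ((d * e) ^ i)⁻¹⁻¹ ∨
    d * (d * e) ^ j = ((d * e) ^ i)⁻¹ * e * ((d * e) ^ i)⁻¹⁻¹ := by
  rcases Nat.even_or_odd' j with ⟨i, rfl | rfl⟩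
  · exact ⟨i, Or.inl (by rw [inv_inv, ← (inv_pow_d hd he i).1, two_mul, pow_add, mul_assoc])⟩
  · refine ⟨i, Or.inr ?_⟩
    rw [inv_inv, ← (inv_pow_d hd he i).2, pow_succ', ← mul_assoc, ← mul_assoc, hd, one_mul, two_mul, pow_add,
      mul_assoc]

theorem comm_of_sq {S : Subgroup G} (h : ∀ x ∈ S, x * x = 1) {x y : G} (hx : x ∈ S) (hy : y ∈ S) :
    x * y = y * x := by
  have := inv_eq_of_mul_eq_one_right (h _ (mul_mem hx hy))
  rwa [mul_inv_rev, inv_eq_of_mul_eq_one_right (h x hx), inv_eq_of_mul_eq_one_right (h y hy), eq_comm] at this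

theorem sq_of_isConj {a x : G} (ha : a * a = 1) (h : IsConj a x) : x * x = 1 := by
  obtain ⟨g, rfl⟩ := isConj_iff.1 h
  rw [conj_mul, ha, mul_one, mul_inv_cancel]

theorem ne_of_isConj {a x : G} (ha : a ≠ 1) (h : IsConj a x) : x ≠ 1 := by
  rintro rfl
  exact ha (isConj_one_left.1 h)

theorem isConj_cj {a x : G} (h : IsConj a x) (g : G) : IsConj a (g * x * g⁻¹) :=
  h.trans (isConj_iff.2 ⟨g, rfl⟩)

end dihedral

/-- the conjugates `d` of `a` such that `d c` is again conjugate to `a` -/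
def X {H : Type*} [Group H] (a c d : H) : Prop := IsConj a d ∧ IsConj a (d * c)

/-- the facts on `Co1` that are used -/
structure Hyp {H : Type*} [Group H] (a b c : H) (A : Subgroup H) (P : H → Prop) : Prop where
  aa : a * a = 1
  a1 : a ≠ 1
  cc : c * c = 1
  c1 : c ≠ 1
  cls : ∀ x, x * x = 1 → x ≠ 1 → IsConj a x ∨ IsConj b x ∨ IsConj c x
  a11 : ∀ y, y * a = a * y → y ^ 11 = 1 → y = 1
  a13 : ∀ y, y * a = a * y → y ^ 13 = 1 → y = 1
  c13 : ∀ y, y * c = c * y → y ^ 13 = 1 → y = 1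
  b13 : ∃ y, y ≠ 1 ∧ y * b = b * y ∧ y ^ 13 = 1
  c11 : ∃ y, y ≠ 1 ∧ y * c = c * y ∧ y ^ 11 = 1
  prod : ∀ x y, IsConj a x → IsConj a y ∨ IsConj c y → x * y = y * x → x * y ≠ 1 →
    IsConj a (x * y) ∨ IsConj c (x * y)
  cA : c ∈ A
  sqA : ∀ x ∈ A, x * x = 1
  K : ∀ d, X a c d → d ∈ A
  bl : ∀ B L : Subgroup H, B ≤ A → c ∈ B → (∀ s ∈ B, ¬ IsConj a s) → (∀ g ∈ L, ∀ s ∈ B, g * s = s * g) →
    (∀ d e, X a c d → X a c e → ∃ g ∈ L, g * d * g⁻¹ * e ∈ B) → ∃ g ∈ L, g ≠ 1 ∧ g ^ 11 = 1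
  e11 : ∀ g s, g ≠ 1 → g ^ 11 = 1 → g * c = c * g → s ∈ A → g * s = s * g → s = 1 ∨ s = c
  exP : ∃ d, X a c d ∧ P d
  exN : ∃ d, X a c d ∧ ¬ P d
  Pc : ∀ d, X a c d → P d → P (d * c)
  par : ∀ g m d, Odd m → g * c = c * g → g ^ m ∈ A → X a c d → P d → P (g * d * g⁻¹)

section X
variable {G : Type*} [Group G] {a c d e g : G}

theorem X.sq (ha : a * a = 1) (h : X a c d) : d * d = 1 := sq_of_isConj ha h.1

theorem X.comm (ha : a * a = 1) (hc : c * c = 1) (h : X a c d) : d * c = c * d := by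
  have := inv_eq_of_mul_eq_one_right (sq_of_isConj ha h.2)
  rwa [mul_inv_rev, inv_eq_of_mul_eq_one_right hc, inv_eq_of_mul_eq_one_right (h.sq ha), eq_comm] at this

theorem X.conj (h : X a c d) (hg : g * c = c * g) : X a c (g * d * g⁻¹) :=
  ⟨isConj_cj h.1 g, by
    have : g * d * g⁻¹ * c = g * (d * c) * g⁻¹ := by
      rw [mul_assoc (g * d), show g⁻¹ * c = c * g⁻¹ from (Commute.inv_left hg), ← mul_assoc, mul_assoc g]
    rw [this]; exact isConj_cj h.2 g⟩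

theorem X.mul_c (hc : c * c = 1) (h : X a c d) : X a c (d * c) := ⟨h.2, by rw [mul_assoc, hc, mul_one]; exact h.1⟩

theorem X.dih (ha : a * a = 1) (hc : c * c = 1) (hd : X a c d) (he : X a c e) (j : ℕ) :
    X a c (d * (d * e) ^ j) := by
  have hw : ∀ i : ℕ, ((d * e) ^ i)⁻¹ * c = c * ((d * e) ^ i)⁻¹ := fun i =>
    (((show Commute d c from hd.comm ha hc).mul_left (he.comm ha hc)).pow_left i).inv_left
  obtain ⟨i, h | h⟩ := CA.Top.dih (hd.sq ha) (he.sq ha) j <;> rw [h]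
  exacts [hd.conj (hw i), he.conj (hw i)]

end X

variable {G H : Type*} [Group G] [Group H] {ι : H →* G} (hι : Function.Injective ι)

include hι in
theorem not_fuse {x y : H} {p : ℕ} (hx : ∀ g, g * ι x = ι x * g → g ∈ ι.range)
    (h1 : ∀ u, u * x = x * u → u ^ p = 1 → u = 1) (h2 : ∃ u, u ≠ 1 ∧ u * y = y * u ∧ u ^ p = 1) {z : H}
    (hz : IsConj y z) : ¬ IsConj (ι x) (ι z) := fun h => by
  obtain ⟨g, hg⟩ := isConj_iff.1 (h.trans (ι.map_isConj hz).symm)
  obtain ⟨u, u1, u2, u3⟩ := h2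
  have e : g⁻¹ * ι u * g * ι x = ι x * (g⁻¹ * ι u * g) := by
    have := congrArg ι u2
    rw [map_mul, map_mul, ← hg] at this
    calc _ = g⁻¹ * (ι u * (g * ι x * g⁻¹)) * g := by group
      _ = _ := by rw [this]; group
  obtain ⟨v, hv⟩ := hx _ e
  have v1 : v = 1 := h1 v (hι (by rw [map_mul, map_mul, hv, e])) (hι (by
    rw [map_pow, hv, map_one, show g⁻¹ * ι u * g = g⁻¹ * ι u * g⁻¹⁻¹ by rw [inv_inv], conj_pow, ← map_pow, u3]
    simp))
  rw [v1, map_one] at hv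
  refine u1 (hι ?_)
  rw [map_one]
  calc ι u = g * (g⁻¹ * ι u * g) * g⁻¹ := by group
    _ = 1 := by rw [← hv]; group

theorem uniq {x : H} (hx : ∀ g, g * ι x = ι x * g → g ∈ ι.range)
    (hf : ∀ h, IsConj (ι x) (ι h) → IsConj x h) {d g : G} (hd : IsConj (ι x) d) (h1 : d ∈ ι.range)
    (h2 : g * d * g⁻¹ ∈ ι.range) : g ∈ ι.range := by
  obtain ⟨h, rfl⟩ := h1
  obtain ⟨h', e⟩ := h2
  obtain ⟨k, rfl⟩ := isConj_iff.1 (hf h hd)
  obtain ⟨k', rfl⟩ := isConj_iff.1 (hf h' (e ▸ isConj_cj hd g))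
  simp only [map_mul, map_inv] at e
  have := hx ((ι k')⁻¹ * g * ι k) (by
    calc _ = (ι k')⁻¹ * (g * (ι k * ι x * (ι k)⁻¹) * g⁻¹) * g * ι k := by group
      _ = _ := by rw [← e]; group)
  have h3 := mul_mem (mul_mem (⟨k', rfl⟩ : ι k' ∈ ι.range) this) (inv_mem (⟨k, rfl⟩ : ι k ∈ ι.range))
  simpa [mul_assoc] using h3

variable {a b c : H} {A : Subgroup H} {P : H → Prop} (T : Hyp a b c A P)
  (hC : ∀ g, g * ι a = ι a * g → g ∈ ι.range)
include hι T hC

theorem fuse_a (h : H) (hh : IsConj (ι a) (ι h)) : IsConj a h := by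
  have a2 : ι a * ι a = 1 := by rw [← map_mul, T.aa, map_one]
  rcases T.cls h (hι (by rw [map_mul, sq_of_isConj a2 hh, map_one]))
    (fun e => ne_of_isConj (fun e => T.a1 (hι (e.trans (map_one ι).symm))) hh (by rw [e, map_one])) with k | k | k
  · exact k
  · exact absurd hh (not_fuse hι hC T.a13 T.b13 k)
  · exact absurd hh (not_fuse hι hC T.a11 T.c11 k)

theorem uniq_a {d g : G} (hd : IsConj (ι a) d) (h1 : d ∈ ι.range) (h2 : g * d * g⁻¹ ∈ ι.range) :
    g ∈ ι.range := uniq hC (fuse_a hι T hC) hd h1 h2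

theorem uniq_x {x d g : G} (hd : IsConj (ι a) d) (h1 : d ∈ cj x ι.range) (h2 : g * d * g⁻¹ ∈ cj x ι.range) :
    g ∈ cj x ι.range := by
  rw [mem_cj] at *
  refine uniq_a hι T hC (by simpa using isConj_cj hd x⁻¹) h1 ?_
  convert h2 using 1; group

omit hι hC in
theorem sq_a : ι a * ι a = 1 := by rw [← map_mul, T.aa, map_one]
omit hι hC in
theorem sq_c : ι c * ι c = 1 := by rw [← map_mul, T.cc, map_one]

theorem not_ac : ¬ IsConj (ι a) (ι c) := not_fuse hι hC T.a11 T.c11 (IsConj.refl c)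

theorem X_of {h : H} (hh : X (ι a) (ι c) (ι h)) : X a c h :=
  ⟨fuse_a hι T hC h hh.1, fuse_a hι T hC _ (by rw [map_mul]; exact hh.2)⟩

omit hι T hC in
theorem X_map {h : H} (hh : X a c h) : X (ι a) (ι c) (ι h) :=
  ⟨ι.map_isConj hh.1, by rw [← map_mul]; exact ι.map_isConj hh.2⟩

theorem K_x {x d : G} (hx : x * ι c = ι c * x) (hd : X (ι a) (ι c) d) (h1 : d ∈ cj x ι.range) :
    d ∈ cj x (A.map ι) := by
  rw [mem_cj] at *
  have h2 := hd.conj (g := x⁻¹) (Commute.inv_left hx)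
  rw [inv_inv] at h2
  obtain ⟨h, e⟩ := h1
  exact ⟨h, T.K h (X_of hι T hC (e ▸ h2)), e⟩

theorem exists_x {d : G} (hd : X (ι a) (ι c) d) : ∃ x, x * ι c = ι c * x ∧ d ∈ cj x (A.map ι) := by
  obtain ⟨g, rfl⟩ := isConj_iff.1 hd.1
  have h1 := hd.comm (sq_a T) (sq_c T)
  have h2 : g⁻¹ * ι c * g * ι a = ι a * (g⁻¹ * ι c * g) := by
    calc _ = g⁻¹ * (ι c * (g * ι a * g⁻¹)) * g := by group
      _ = _ := by rw [← h1]; group
  obtain ⟨s, hs⟩ := hC _ h2
  have h3 : IsConj a (a * s) := fuse_a hι T hC _ (by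
    have := isConj_cj hd.2 g⁻¹
    rw [map_mul, hs]
    convert this using 1; group)
  have h4 : s * a = a * s := hι (by rw [map_mul, map_mul, hs, h2])
  have h5 : a * (a * s) = s := by rw [← mul_assoc, T.aa, one_mul]
  have h6 : IsConj (ι c) (ι s) := by rw [hs]; simpa using isConj_cj (IsConj.refl (ι c)) g⁻¹
  have := T.prod a (a * s) (IsConj.refl a) (Or.inl h3) (by rw [mul_assoc, h4]) (by
    rw [h5]; rintro rfl
    exact T.c1 (hι (by simpa using h6)))
  rw [h5] at this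
  rcases this with k | k
  · exact absurd ((ι.map_isConj k).trans h6.symm) (not_ac hι T hC)
  obtain ⟨m, rfl⟩ := isConj_iff.1 k
  simp only [map_mul, map_inv] at hs
  have hx : g * ι m * ι c = ι c * (g * ι m) := by
    calc _ = g * (ι m * ι c * (ι m)⁻¹) * ι m := by group
      _ = _ := by rw [hs]; group
  refine ⟨g * ι m, hx, K_x hι T hC hx hd (mem_cj.2 ⟨m⁻¹ * a * m, ?_⟩)⟩
  simp only [map_mul, map_inv]; group

omit hι hC in
theorem sq_x {x s : G} (hs : s ∈ cj x (A.map ι)) : s * s = 1 := by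
  obtain ⟨_, ⟨h, hh, rfl⟩, rfl⟩ := mem_cj'.1 hs
  rw [conj_mul, ← map_mul, T.sqA h hh]; simp

omit hι T hC in
theorem A_le (x : G) : cj x (A.map ι) ≤ cj x ι.range := cj_mono x (map_le_range _ _)

theorem half {x d e : G} (hx : x * ι c = ι c * x) (hd : X (ι a) (ι c) d) (h1 : d ∈ cj x (A.map ι))
    (he : X (ι a) (ι c) e) {j : ℕ} (h : (d * e) ^ (2 * j) ∈ cj x (A.map ι)) : (d * e) ^ j ∈ cj x (A.map ι) := by
  have d2 := hd.sq (sq_a T)
  have e2 := he.sq (sq_a T)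
  have h2 : (d * e) ^ j ∈ cj x ι.range := uniq_x hι T hC hd.1 (A_le x h1) (A_le x (by
    rw [conj_pow_d d2 e2]; exact mul_mem h h1))
  have h3 := K_x hι T hC hx (hd.dih (sq_a T) (sq_c T) he j) (mul_mem (A_le x h1) h2)
  simpa using mul_mem (inv_mem h1) h3

variable [Finite G]

theorem odd_pow {x y d e : G} (hx : x * ι c = ι c * x) (hy : y * ι c = ι c * y) (hd : X (ι a) (ι c) d)
    (h1 : d ∈ cj x (A.map ι)) (he : X (ι a) (ι c) e) (h2 : e ∈ cj y (A.map ι)) :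
    ∃ k, (d * e) ^ (2 * k + 1) ∈ cj x (A.map ι) ⊓ cj y (A.map ι) := by
  have key : ∀ n, 0 < n → (d * e) ^ n ∈ cj x (A.map ι) ⊓ cj y (A.map ι) →
      ∃ k, (d * e) ^ (2 * k + 1) ∈ cj x (A.map ι) ⊓ cj y (A.map ι) := by
    intro n
    induction n using Nat.strong_induction_on with
    | _ n ih =>
      intro hn h
      rcases Nat.even_or_odd' n with ⟨j, rfl | rfl⟩
      · refine ih j (by omega) (by omega) ⟨half hι T hC hx hd h1 he h.1, ?_⟩
        have e1 : e * d = (d * e)⁻¹ := by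
          rw [mul_inv_rev, inv_eq_of_mul_eq_one_right (hd.sq (sq_a T)),
            inv_eq_of_mul_eq_one_right (he.sq (sq_a T))]
        have := half hι T hC hy he h2 hd (j := j) (by rw [e1, inv_pow]; exact inv_mem h.2)
        rwa [e1, inv_pow, inv_mem_iff] at this
      · exact ⟨j, h⟩
  exact key _ (orderOf_pos _) (by rw [pow_orderOf_eq_one]; exact one_mem _)

theorem swap {x y d e : G} (hx : x * ι c = ι c * x) (hy : y * ι c = ι c * y) (hd : X (ι a) (ι c) d)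
    (h1 : d ∈ cj x (A.map ι)) (he : X (ι a) (ι c) e) (h2 : e ∈ cj y (A.map ι)) :
    ∃ u, X (ι a) (ι c) u ∧ (∀ s ∈ cj x (A.map ι) ⊓ cj y (A.map ι), u * s = s * u) ∧
      u * d * u⁻¹ * e ∈ cj x (A.map ι) ⊓ cj y (A.map ι) := by
  obtain ⟨k, hk⟩ := odd_pow hι T hC hx hy hd h1 he h2
  refine ⟨d * (d * e) ^ (k + 1), hd.dih (sq_a T) (sq_c T) he _, fun s hs => ?_, ?_⟩
  · have c1 : Commute d s := comm_of_sq (fun _ => sq_x T) h1 hs.1
    have c2 : Commute e s := comm_of_sq (fun _ => sq_x T) h2 hs.2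
    exact c1.mul_left ((c1.mul_left c2).pow_left _)
  · have d2 := hd.sq (sq_a T)
    have e2 := he.sq (sq_a T)
    have : d * (d * e) ^ (k + 1) * d * (d * (d * e) ^ (k + 1))⁻¹ * e = ((d * e) ^ (2 * k + 1))⁻¹ := by
      calc _ = d * ((d * e) ^ (k + 1) * d * ((d * e) ^ (k + 1))⁻¹) * d⁻¹ * e := by group
        _ = d * (d * e) ^ (2 * (k + 1)) * e := by rw [conj_pow_d d2 e2]; group
        _ = _ := by
          rw [(inv_pow_d d2 e2 _).1, mul_assoc, show 2 * (k + 1) = 2 * k + 1 + 1 by ring, pow_succ' _ (2 * k + 1),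
            mul_inv_rev, inv_mul_cancel_right]
    rw [this]; exact inv_mem hk

theorem small {x : G} (hx : x * ι c = ι c * x) (hM : x ∉ ι.range) {s : G}
    (hs : s ∈ A.map ι ⊓ cj x (A.map ι)) : s = 1 ∨ s = ι c := by
  let B : Subgroup H := (cj x (A.map ι)).comap ι ⊓ A
  have hB : ∀ s, s ∈ B ↔ ι s ∈ cj 1 (A.map ι) ⊓ cj x (A.map ι) := fun s => by
    rw [cj_one, mem_inf, mem_inf, mem_map_iff_mem hι, and_comm]; rfl
  have hc : c ∈ B := ⟨mem_cj.2 (by rw [mul_assoc, ← hx, inv_mul_cancel_left]; exact ⟨c, T.cA, rfl⟩), T.cA⟩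
  obtain ⟨g, hg, g1, g2⟩ := T.bl B (centralizer B) inf_le_right hc (fun s hs h => hM (by
      have := uniq_a hι T hC (g := x⁻¹) (ι.map_isConj h) ⟨s, rfl⟩ (by
        rw [inv_inv]; exact map_le_range _ _ (mem_cj.1 hs.1))
      simpa using this)) (fun g hg s hs => (mem_centralizer_iff.1 hg s hs).symm) (fun d e hd he => by
      have f1 := (X_map (ι := ι) hd).conj hx
      have f2 : x * ι d * x⁻¹ ∈ cj x (A.map ι) := conj_mem_cj.2 ⟨d, T.K d hd, rfl⟩
      have o : (1 : G) * ι c = ι c * 1 := by simp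
      obtain ⟨u, -, u1, u2⟩ := swap hι T hC o hx (X_map hd) (by rw [cj_one]; exact ⟨d, T.K d hd, rfl⟩) f1 f2
      obtain ⟨v, -, v1, v2⟩ := swap hι T hC o hx (X_map he) (by rw [cj_one]; exact ⟨e, T.K e he, rfl⟩) f1 f2
      have e2 : (ι e)⁻¹ = ι e := inv_eq_of_mul_eq_one_right ((X_map he).sq (sq_a T))
      have k1 := mul_mem u2 (inv_mem v2)
      have k2 : v⁻¹ * u * ι d * (v⁻¹ * u)⁻¹ * ι e ∈ cj 1 (A.map ι) ⊓ cj x (A.map ι) := by
        have := v1 _ k1
        convert k1 using 1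
        calc _ = v⁻¹ * u * ι d * (v⁻¹ * u)⁻¹ * (ι e)⁻¹ := by rw [e2]
          _ = v⁻¹ * ((u * ι d * u⁻¹ * (x * ι d * x⁻¹) * (v * ι e * v⁻¹ * (x * ι d * x⁻¹))⁻¹) * v) := by group
          _ = _ := by rw [← this]; group
      obtain ⟨g, hg⟩ := uniq_a hι T hC (g := v⁻¹ * u) (ι.map_isConj hd.1) ⟨d, rfl⟩ (by
        have := mul_mem (map_le_range _ _ (cj_one (A.map ι) ▸ k2.1)) (inv_mem (⟨e, rfl⟩ : ι e ∈ ι.range))
        simpa using this)
      refine ⟨g, mem_centralizer_iff.2 fun s hs => hι ?_, (hB _).2 (by simpa only [map_mul, map_inv, hg] using k2)⟩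
      rw [map_mul, map_mul, hg]
      exact ((Commute.inv_left (v1 _ ((hB s).1 hs))).mul_left (u1 _ ((hB s).1 hs))).symm)
  obtain ⟨⟨s, s1, rfl⟩, s2⟩ := hs
  rcases T.e11 g s g1 g2 (mem_centralizer_iff.1 hg c hc).symm s1 (mem_centralizer_iff.1 hg s ⟨s2, s1⟩).symm
    with rfl | rfl
  · exact Or.inl (map_one ι)
  · exact Or.inr rfl

theorem cent_c {x : G} (hx : x * ι c = ι c * x) : x ∈ ι.range := by
  by_contra hM
  obtain ⟨d0, hd0, -⟩ := T.exP
  have he := (X_map (ι := ι) hd0).conj hx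
  have he1 : x * ι d0 * x⁻¹ ∈ cj x (A.map ι) := conj_mem_cj.2 ⟨d0, T.K d0 hd0, rfl⟩
  have he2 : x * ι d0 * x⁻¹ ∉ ι.range := fun h => hM (uniq_a hι T hC (ι.map_isConj hd0.1) ⟨d0, rfl⟩ h)
  generalize x * ι d0 * x⁻¹ = e at he he1 he2
  have ec := he.comm (sq_a T) (sq_c T)
  have e2 := he.sq (sq_a T)
  have e3 := inv_eq_of_mul_eq_one_right e2
  have key : ∀ d d', X a c d → X a c d' → P d → ¬ P d' → ∃ g ∈ (cj x (A.map ι)).comap ι,
      g * d * g⁻¹ * d' ∈ zpowers c := by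
    intro d d' hd hd' p1 p2
    have o : (1 : G) * ι c = ι c * 1 := by simp
    obtain ⟨u, hu, -, u2⟩ := swap hι T hC o ec (X_map hd) (by rw [cj_one]; exact ⟨d, T.K d hd, rfl⟩)
      ((X_map hd').conj ec) (conj_mem_cj.2 ⟨d', T.K d' hd', rfl⟩)
    rw [cj_one] at u2
    have k1 : e * u * ι d * (e * u)⁻¹ * ι d' = 1 ∨ e * u * ι d * (e * u)⁻¹ * ι d' = ι c := by
      have : e * u * ι d * (e * u)⁻¹ * ι d' = e * (u * ι d * u⁻¹ * (e * ι d' * e⁻¹)) * e⁻¹ := by
        rw [mul_inv_rev, e3]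
        calc _ = e * u * ι d * u⁻¹ * e * ι d' * (e * e) := by rw [e2]; group
          _ = _ := by group
      rcases small hι T hC ec he2 u2 with k | k <;> rw [this, k]
      · simp
      · rw [ec]; simp
    obtain ⟨g, hg⟩ := uniq_a hι T hC (g := e * u) (ι.map_isConj hd.1) ⟨d, rfl⟩ (by
      rcases k1 with k | k
      · exact ⟨d'⁻¹, by rw [map_inv, eq_inv_of_mul_eq_one_left k]⟩
      · exact ⟨c * d'⁻¹, by rw [map_mul, map_inv, ← k, mul_inv_cancel_right]⟩)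
    rw [← hg, ← map_inv, ← map_mul, ← map_mul, ← map_mul, ← map_one ι, hι.eq_iff, hι.eq_iff] at k1
    refine ⟨g, ?_, k1.elim (fun k => k ▸ one_mem _) (fun k => k ▸ mem_zpowers _)⟩
    obtain ⟨z, hz, hz1⟩ := exists_x hι T hC hu
    by_cases hxz : x⁻¹ * z ∈ ι.range
    · have : u ∈ cj x (A.map ι) := K_x hι T hC hx hu (by
        have := A_le z hz1
        rw [mem_cj] at this ⊢
        have := mul_mem (mul_mem hxz this) (inv_mem hxz)
        simpa [mul_assoc] using this)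
      show ι g ∈ cj x (A.map ι)
      rw [hg]; exact mul_mem he1 this
    · exfalso
      obtain ⟨k, hk⟩ := odd_pow hι T hC hx hz he he1 hu hz1
      have k2 := small hι T hC (x := x⁻¹ * z) ((Commute.inv_left hx).mul_left hz) hxz
        (s := x⁻¹ * (e * u) ^ (2 * k + 1) * x) ⟨mem_cj.1 hk.1, mem_cj.2 (by
          have := mem_cj.1 hk.2
          convert this using 1; group)⟩
      have k3 : g ^ (2 * k + 1) ∈ A := by
        rw [← mem_map_iff_mem hι, map_pow, hg]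
        rcases k2 with k2 | k2
        · rw [show (e * u) ^ (2 * k + 1) = x * (x⁻¹ * (e * u) ^ (2 * k + 1) * x) * x⁻¹ by group, k2]
          simpa using one_mem _
        · rw [show (e * u) ^ (2 * k + 1) = x * (x⁻¹ * (e * u) ^ (2 * k + 1) * x) * x⁻¹ by group, k2, hx,
            mul_inv_cancel_right]
          exact ⟨c, T.cA, rfl⟩
      have gc : g * c = c * g := hι (by
        rw [map_mul, map_mul, hg]
        exact (show Commute e (ι c) from ec).mul_left (hu.comm (sq_a T) (sq_c T)))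
      have k4 := T.par g _ d (odd_two_mul_add_one k) gc k3 hd p1
      have d3 := inv_eq_of_mul_eq_one_right (hd'.sq T.aa)
      rcases k1 with k | k
      · exact p2 (by rwa [eq_inv_of_mul_eq_one_left k, d3] at k4)
      · have := T.Pc _ (hd.conj gc) k4
        rw [eq_mul_inv_of_mul_eq k, d3, mul_assoc, hd'.comm T.aa T.cc, ← mul_assoc, T.cc, one_mul] at this
        exact p2 this
  have cent : ∀ g ∈ (cj x (A.map ι)).comap ι, ∀ s ∈ zpowers c, g * s = s * g := fun g hg s hs => by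
    obtain ⟨n, rfl⟩ := hs
    refine Commute.zpow_right (hι ?_) n
    rw [map_mul, map_mul]
    exact comm_of_sq (fun _ => sq_x T) hg (mem_cj.2 (by
      rw [mul_assoc, ← hx, inv_mul_cancel_left]; exact ⟨c, T.cA, rfl⟩))
  have sym : ∀ d d', X a c d → X a c d' → (∃ g ∈ (cj x (A.map ι)).comap ι, g * d * g⁻¹ * d' ∈ zpowers c) →
      ∃ g ∈ (cj x (A.map ι)).comap ι, g * d' * g⁻¹ * d ∈ zpowers c := by
    rintro d d' hd hd' ⟨g, g1, g2⟩
    refine ⟨g⁻¹, inv_mem g1, ?_⟩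
    have := cent g g1 _ (inv_mem g2)
    convert inv_mem g2 using 1
    calc _ = g⁻¹ * d'⁻¹ * g * d⁻¹ := by
          rw [inv_eq_of_mul_eq_one_right (hd'.sq T.aa), inv_eq_of_mul_eq_one_right (hd.sq T.aa), inv_inv]
      _ = g⁻¹ * ((g * d * g⁻¹ * d')⁻¹ * g) := by group
      _ = _ := by rw [← this]; group
  have trans : ∀ d d' f, X a c f → (∃ g ∈ (cj x (A.map ι)).comap ι, g * d * g⁻¹ * f ∈ zpowers c) →
      (∃ g ∈ (cj x (A.map ι)).comap ι, g * f * g⁻¹ * d' ∈ zpowers c) →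
      ∃ g ∈ (cj x (A.map ι)).comap ι, g * d * g⁻¹ * d' ∈ zpowers c := by
    rintro d d' f hf ⟨g, g1, g2⟩ ⟨k, k1, k2⟩
    refine ⟨k * g, mul_mem k1 g1, ?_⟩
    have := cent k k1 _ g2
    convert mul_mem g2 k2 using 1
    calc _ = k * (g * d * g⁻¹ * (f * f)) * k⁻¹ * d' := by rw [hf.sq T.aa]; group
      _ = (k * (g * d * g⁻¹ * f)) * (f * k⁻¹ * d') := by group
      _ = _ := by rw [this]; group
  obtain ⟨p, hp, p1⟩ := T.exP
  obtain ⟨q, hq, q1⟩ := T.exN
  obtain ⟨g, hg, g1, g2⟩ := T.bl (zpowers c) ((cj x (A.map ι)).comap ι) (zpowers_le.2 T.cA) (mem_zpowers c)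
    (fun s hs h => by
      have hn := not_ac hι T hC
      obtain ⟨n, rfl⟩ := hs
      have c2 : ∀ k : ℤ, c ^ (2 * k) = 1 := fun k => by rw [zpow_mul, zpow_two, T.cc, one_zpow]
      rcases Int.even_or_odd' n with ⟨k, rfl | rfl⟩ <;> simp only [zpow_add, c2] at h
      · exact T.a1 (isConj_one_left.1 (by simpa using h))
      · exact hn (ι.map_isConj (by simpa using h))) cent (fun d d' hd hd' => by
      by_cases h1 : P d <;> by_cases h2 : P d'
      · exact trans _ _ q hq (key _ _ hd hq h1 q1) (sym _ _ hd' hq (key _ _ hd' hq h2 q1))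
      · exact key _ _ hd hd' h1 h2
      · exact sym _ _ hd' hd (key _ _ hd' hd h2 h1)
      · exact trans _ _ p hp (sym _ _ hp hd (key _ _ hp hd p1 h1)) (key _ _ hp hd' p1 h2))
  have g3 : g * g = 1 := hι (by rw [map_mul, sq_x T hg, map_one])
  refine g1 ?_
  rw [show g ^ 11 = (g * g) ^ 5 * g by rw [← sq, ← pow_mul, ← pow_succ], g3, one_pow, one_mul] at g2
  exact g2

/-- **The image is everything** -/
theorem range_eq_top : ι.range = ⊤ := by
  rw [eq_top_iff]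
  intro g _
  by_contra hg
  have hCc : ∀ g, g * ι c = ι c * g → g ∈ ι.range := fun g => cent_c hι T hC
  have fc : ∀ h, IsConj (ι c) (ι h) → IsConj c h := fun h hh => by
    rcases T.cls h (hι (by rw [map_mul, sq_of_isConj (sq_c T) hh, map_one]))
      (fun e => ne_of_isConj (fun e => T.c1 (hι (e.trans (map_one ι).symm))) hh (by rw [e, map_one])) with k | k | k
    · exact absurd ((ι.map_isConj k).trans hh.symm) (not_ac hι T hC)
    · exact absurd hh (not_fuse hι hCc T.c13 T.b13 k)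
    · exact k
  have hs : IsConj (ι c) (g * ι c * g⁻¹) := isConj_cj (IsConj.refl _) g
  have hs1 : g * ι c * g⁻¹ ∉ ι.range := fun h => hg (uniq hCc fc (IsConj.refl _) ⟨c, rfl⟩ h)
  generalize g * ι c * g⁻¹ = s at hs hs1
  have s2 := sq_of_isConj (sq_c T) hs
  have a2 := sq_a (ι := ι) T
  have hD : ∀ j, IsConj (ι a) (ι a * (ι a * s) ^ j) ∨ IsConj (ι c) (ι a * (ι a * s) ^ j) := fun j => by
    obtain ⟨i, h | h⟩ := dih a2 s2 j <;> rw [h]
    exacts [Or.inl (isConj_cj (IsConj.refl _) _), Or.inr (isConj_cj hs _)]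
  rcases Nat.even_or_odd' (orderOf (ι a * s)) with ⟨j, hj | hj⟩
  · have w2 : (ι a * s) ^ (2 * j) = 1 := by rw [← hj, pow_orderOf_eq_one]
    have w3 : ((ι a * s) ^ j)⁻¹ = (ι a * s) ^ j := inv_eq_of_mul_eq_one_right (by rw [← pow_add, ← two_mul, w2])
    have w1 : (ι a * s) ^ j ≠ 1 := by
      have := orderOf_pos (ι a * s)
      exact pow_ne_one_of_lt_orderOf (by omega) (by omega)
    obtain ⟨k1, k2⟩ := inv_pow_d a2 s2 j
    rw [w3] at k1 k2
    obtain ⟨w, hw⟩ := hC _ k1.symm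
    have h1 := hD j
    rw [← hw, ← map_mul] at h1
    have h5 : a * (a * w) = w := by rw [← mul_assoc, T.aa, one_mul]
    have := T.prod a (a * w) (IsConj.refl a) (h1.imp (fuse_a hι T hC _) (fc _))
      (by rw [mul_assoc, hι (show ι (w * a) = ι (a * w) by rw [map_mul, map_mul, hw, k1])])
      (by rw [h5]; rintro rfl; exact w1 (by rw [← hw, map_one]))
    rw [h5] at this
    have k3 : s * ι w * s⁻¹ ∈ ι.range := by rw [hw, k2, mul_inv_cancel_right]; exact ⟨w, hw⟩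
    rcases this with k | k
    · exact hs1 (uniq_a hι T hC (ι.map_isConj k) ⟨w, rfl⟩ k3)
    · exact hs1 (uniq hCc fc (ι.map_isConj k) ⟨w, rfl⟩ k3)
  · refine not_ac hι T hC ((isConj_cj (IsConj.refl _) ((ι a * s) ^ j)).trans ?_)
    have w2 : (ι a * s) ^ (2 * j + 1) = 1 := by rw [← hj, pow_orderOf_eq_one]
    rw [conj_pow_d a2 s2, eq_inv_of_mul_eq_one_left (show (ι a * s) ^ (2 * j) * ι a * s = 1 by
      rw [mul_assoc, ← pow_succ, w2]), inv_eq_of_mul_eq_one_right s2]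
    exact hs.symm

end CA.Top
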